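import Cfsg.Agent.PG.Misc
import Cfsg.Agent.PG.Rank2
import Cfsg.Agent.GT.PStable

/-! Solvable groups of odd order whose Sylow `p`-subgroups have cyclic derived group. -/

set_option autoImplicit false
set_option linter.unusedSectionVars false
set_option linter.unusedVariables false

namespace Cfsg.Agent.Cls

open Subgroup Cfsg.Agent.GT
open scoped commutatorElement

universe u

variable {G : Type u} [Group G] [Finite G] {p : ℕ} {A B E H K P Q S T U V W : Subgroup G}

theorem syl_le_pcore_of_cyclic_der (hp : p.Prime) (hs : Group.IsSolvable H)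
    (ho : Odd (Nat.card H)) (h1 : piCoreOf {p}ᶜ H = ⊥) (hS : IsPiHallOf {p} S H)
    (hc : IsCyclic ↥⁅S, S⁆) : S ≤ piCoreOf {p} H := by
  have : Fact p.Prime := ⟨hp⟩
  set P := piCoreOf {p} H with hP
  have hPp : IsPGroup p P := piCoreOf_isPGroup hp H
  have hPH : P ≤ H := piCoreOf_le _ _
  have hPn : H ≤ N[P] := self_le_norm_piCoreOf _ _
  have hPS : P ≤ S := piCoreOf_le_hall hS
  obtain ⟨Q, _, _, f, hf, hk⟩ := exists_quo' H (PG.phi P) ((PG.phi_le P).trans hPH)
    (PG.le_norm_phi hPn)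
  have hV : IsElementaryAbelian p (im f P) := (PG.elemAb_im_iff hPp hPH).2 hk.ge
  have hkP : kr f ≤ P := hk ▸ PG.phi_le P
  have hkp : IsPiSubgroup {p} (kr f) := isPi_of_isPGroup hp (hPp.to_le hkP)
  have hVP : im f P = piCoreOf {p} (im f H) := im_piCoreOf_of_isPi le_rfl (hkP.trans hPH) hkp
  have h2 : piCoreOf {p}ᶜ (im f H) = ⊥ := by
    set K := pre f (piCoreOf {p}ᶜ (im f H)) with hK
    obtain ⟨L, hL⟩ := exists_hall {p}ᶜ (isSolvable_of_le hs (pre_le : K ≤ H))
    have hLH : L ≤ H := hL.le.trans pre_le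
    have h3 : im f L = piCoreOf {p}ᶜ (im f H) := by
      have := hL.im (f := f) pre_le
      rw [im_pre_of_le' (piCoreOf_le _ _)] at this
      exact this.eq_self (piCoreOf_isPi _ _)
    have h4 : ⁅P, L⁆ ≤ PG.phi P := by
      rw [← hk, ← im_le_cent_iff hPH hLH, hVP, h3]
      exact piCoreOf_le_cent_compl
    have h5 : L ≤ C[P] := PG.le_cent_of_commutator_le_phi hPp (hLH.trans hPn)
      ((isPiSubgroup_single_compl_iff_coprime hp).1 hL.isPi) h4
    have h6 : L ≤ P := (le_inf hLH h5).trans (inf_cent_piCoreOf_le hs h1)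
    have h7 : L = ⊥ := ((piCoreOf_isPi {p} H).of_le h6).eq_bot hL.isPi
    rw [← h3, h7, im_bot]
  have h3 : ⁅⁅im f P, im f S⁆, im f S⁆ = ⊥ := by
    rw [← le_cent_iff_commutator_eq_bot']
    have h4 : ⁅im f P, im f S⁆ ≤ im f P :=
      commutator_le_of_le_norm_left (im_norm (hS.le.trans hPn))
    have h5 : IsCyclic ↥⁅im f P, im f S⁆ := by
      refine isCyclic_of_le (cyclic_im (f := f) hc) ?_
      rw [im_commutator hS.le hS.le]
      exact commutator_mono (im_mono hPS) le_rfl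
    refine PG.le_cent_of_card_le_p (isPGroup_im (syl_isPGroup hp hS))
      ((isPGroup_im hPp).to_le h4) (le_norm_commutator (im_norm (hS.le.trans hPn)) le_normalizer)
      (Nat.le_of_dvd hp.pos (PG.card_dvd_of_isCyclic_of_forall_pow h5
        fun x hx => PG.elemAb_pow hV (h4 hx)))
  have h4 := odd_p_stable' hp (odd_im ho) (solvable_im hs) (isPGroup_im hPp) (im_norm hPn)
    (im_mono hS.le) h3
  rw [coreMod_cent_eq_piCoreOf hp (solvable_im hs) (im_mono hPH) (im_norm hPn) h2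
    (inf_le_left.trans hVP.ge), ← hVP, im_le_im_iff_of_le hS.le hPH hkP] at h4
  exact h4

theorem plength1_of_cyclic_der (hp : p.Prime) (hs : Group.IsSolvable H)
    (ho : Odd (Nat.card H)) (hS : IsPiHallOf {p} S H) (hc : IsCyclic ↥⁅S, S⁆) :
    PLengthLE p 1 H := by
  obtain ⟨Q, _, _, f, hf, hk⟩ := exists_quo' H (piCoreOf {p}ᶜ H) (piCoreOf_le _ _)
    (self_le_norm_piCoreOf _ _)
  rw [plength1_pcore_quo_Sylow hp le_rfl hk]
  refine isPiHallOf_piCoreOf_of_le (hS.im le_rfl) (syl_le_pcore_of_cyclic_der hp (solvable_im hs)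
    (odd_im ho) (piCoreOf_im_eq_bot le_rfl hk) (hS.im le_rfl) ?_)
  rw [← im_commutator hS.le hS.le]
  exact cyclic_im hc

end Cfsg.Agent.Cls
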