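import Cfsg.Agent.PG.Misc
import Cfsg.Agent.PG.Narrow

/-! Klein four subgroups. -/

set_option autoImplicit false
set_option linter.unusedSectionVars false
set_option linter.unusedVariables false

namespace Cfsg.Agent.Cls

open Subgroup Cfsg.Agent.GT
open scoped commutatorElement

universe u

variable {G : Type u} [Group G] [Finite G] {A B E H K P Q S T U V W : Subgroup G}

theorem isKleinFour_iff : IsKleinFour V ↔ PnElem 2 2 ⊤ V := by
  have : Fact (Nat.Prime 2) := ⟨Nat.prime_two⟩
  constructor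
  · intro h
    exact ⟨le_top, PG.elemAb_of_card_le_sq (PG.exponent_dvd_iff.1 h.exponent_two.dvd)
      h.card_four.le, h.card_four⟩
  · intro h
    exact ⟨h.card, PG.exponent_eq_prime Nat.prime_two (fun x hx => PG.elemAb_pow h.elem hx)
      (h.ne_bot Nat.prime_two)⟩

/-- adjacency in the commuting graph on four-subgroups -/
def FourAdj (A B : Subgroup G) : Prop :=
  IsKleinFour A ∧ IsKleinFour B ∧ ∀ a ∈ A, ∀ b ∈ B, a * b = b * a

theorem fourAdj_iff : FourAdj A B ↔ PnElem 2 2 ⊤ A ∧ PnElem 2 2 ⊤ B ∧ B ≤ C[A] := by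
  rw [FourAdj, isKleinFour_iff, isKleinFour_iff, le_cent_iff]
  exact ⟨fun ⟨h1, h2, h3⟩ => ⟨h1, h2, fun b hb a ha => h3 a ha b hb⟩,
    fun ⟨h1, h2, h3⟩ => ⟨h1, h2, fun a ha b hb => h3 b hb a ha⟩⟩

theorem FourAdj.symm (h : FourAdj A B) : FourAdj B A :=
  ⟨h.2.1, h.1, fun b hb a ha => (h.2.2 a ha b hb).symm⟩

theorem fourConn_symm (h : Relation.ReflTransGen FourAdj A B) :
    Relation.ReflTransGen FourAdj B A := by
  induction h with
  | refl => exact .refl
  | tail _ h ih => exact .head h.symm ih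

theorem FourAdj.map {G' : Type*} [Group G'] [Finite G'] (h : FourAdj A B) {f : G →* G'}
    (hf : Function.Injective f) : FourAdj (A.map f) (B.map f) := by
  rw [fourAdj_iff] at h ⊢
  exact ⟨⟨le_top, isElementaryAbelian_map h.1.elem f, (card_map_inj hf).trans h.1.card⟩,
    ⟨le_top, isElementaryAbelian_map h.2.1.elem f, (card_map_inj hf).trans h.2.1.card⟩,
    map_le_cent_map h.2.2 f⟩

theorem fourConn_map {G' : Type*} [Group G'] [Finite G'] (h : Relation.ReflTransGen FourAdj A B)
    {f : G →* G'} (hf : Function.Injective f) :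
    Relation.ReflTransGen FourAdj (A.map f) (B.map f) := by
  induction h with
  | refl => exact .refl
  | tail _ h ih => exact ih.tail (h.map hf)

theorem isFourConnected_iff {X : Type*} [Group X] [Finite X] : IsFourConnected X ↔
    ∀ U V : Subgroup X, PnElem 2 2 ⊤ U → PnElem 2 2 ⊤ V → Relation.ReflTransGen FourAdj U V := by
  simp only [← isKleinFour_iff]
  rfl

theorem fourConn_of_le (h : IsFourConnected S) (hU : PnElem 2 2 S U) (hV : PnElem 2 2 S V) :
    Relation.ReflTransGen FourAdj U V := by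
  have key : ∀ X : Subgroup G, PnElem 2 2 S X → PnElem 2 2 ⊤ (X.subgroupOf S) := fun X hX =>
    ⟨le_top, (PG.elemAb_subgroupOf_iff hX.le).2 hX.elem, (card_subgroupOf hX.le).trans hX.card⟩
  have := fourConn_map (isFourConnected_iff.1 h _ _ (key U hU) (key V hV)) S.subtype_injective
  rwa [map_subgroupOf_eq_of_le hU.le, map_subgroupOf_eq_of_le hV.le] at this

/-- an involution normalising an elementary abelian 2-group `E` centralises at least `√|E|`
elements -/
theorem card_le_sq_cent1 (hE : IsElementaryAbelian 2 E) {u : G} (hu : u ∈ N[E]) (hu2 : u ^ 2 = 1) :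
    Nat.card E ≤ Nat.card ↥(E ⊓ C1[u]) * Nat.card ↥(E ⊓ C1[u]) := by
  refine PG.card_le_card_cent1_mul fun x hx => ?_
  have h1 : u * x⁻¹ * u⁻¹ ∈ E := conj_mem_of_mem_norm hu (inv_mem hx)
  have e : ⁅x, u⁆ = x * (u * x⁻¹ * u⁻¹) := by rw [commutatorElement_def]; group
  refine mem_inf.2 ⟨e ▸ mul_mem hx h1, ?_⟩
  have hx2 : x⁻¹ = x := by
    rw [inv_eq_iff_mul_eq_one, ← sq]
    exact PG.elemAb_pow hE hx
  have hu' : u⁻¹ = u := by rw [inv_eq_iff_mul_eq_one, ← sq, hu2]
  have h2 := (PG.isElemAb_iff.1 hE).1 x hx _ h1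
  rw [mem_cent1, e]
  nth_rewrite 2 [h2]
  rw [hx2, hu']
  have huu : u * u = 1 := by rw [← sq, hu2]
  calc x * (u * x * u) * u = x * u * x * (u * u) := by group
    _ = (u * u) * x * u * x := by rw [huu]; group
    _ = _ := by group

end Cfsg.Agent.Cls
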