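import Cfsg.Agent.Cls.FrobNC
import Cfsg.Agent.GT.PStab5
import Cfsg.Agent.BG.S03c
import Cfsg.Agent.Char.Burnside

/-! The Glauberman–Thompson normal `p`-complement theorem for `p ≥ 5` (with the centre of the
Puig subgroup) and Thompson's theorem: Frobenius kernels are nilpotent. -/

set_option autoImplicit false
set_option linter.unusedSectionVars false
set_option linter.unusedVariables false

namespace Cfsg.Agent.Cls

open Cfsg Subgroup Cfsg.Agent.GT
open scoped commutatorElement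

universe u

variable {G : Type u} [Group G] [Finite G] {p : ℕ} {H K P Q R S : Subgroup G}

/-- `H` has a normal `p`-complement. -/
def PNc (p : ℕ) (H : Subgroup G) : Prop := IsPiHallOf {p}ᶜ (piCoreOf {p}ᶜ H) H

theorem PNc.mono (h : PNc p H) (hK : K ≤ H) : PNc p K := isPiHallOf_piCoreOf_of_le_of_hall h hK

theorem PNc.conj (h : PNc p H) (g : G) : PNc p (cj[g] H) := by
  have := IsPiHallOf.conj h g
  rwa [conj_piCoreOf] at this

theorem PNc.im {G' : Type*} [Group G'] [Finite G'] {D : Subgroup G} {f : D →* G'} (h : PNc p H)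
    (hH : H ≤ D) : PNc p (im f H) :=
  isPiHallOf_piCoreOf_of_normal (IsPiHallOf.im h hH) (im_norm (self_le_norm_piCoreOf _ _))

theorem PNc.of_isPi (h : IsPiSubgroup {p}ᶜ H) : PNc p H :=
  isPiHallOf_piCoreOf_of_normal (isPiHallOf_self h) le_normalizer

theorem PNc.le_cent (hp : p.Prime) (h : PNc p H) (hQ : Q ≤ H) (hQp : IsPGroup p Q)
    (hn : H ≤ N[Q]) (hR : R ≤ H) (hRp : IsPiSubgroup {p}ᶜ R) : R ≤ C[Q] := by
  have h1 : R ≤ piCoreOf {p}ᶜ H := IsPiHallOf.le_of_normal h (self_le_norm_piCoreOf _ _) hR hRp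
  exact h1.trans (piCoreOf_compl_le_cent.trans (cent_anti (le_piCoreOf_single hp hQ hn hQp)))

theorem PNc.of_factor (h : PNc p K) (hs : piCoreOf {p}ᶜ H ⊔ K = H) : PNc p H := by
  obtain ⟨Q, _, _, f, -, hk⟩ := exists_quo' H (piCoreOf {p}ᶜ H) (piCoreOf_le _ _)
    (self_le_norm_piCoreOf _ _)
  have hK : K ≤ H := hs ▸ le_sup_right
  have h1 := h.im (f := f) hK
  have h2 : GT.im f K = GT.im f H := by
    rw [← im_kr_sup hK, hk, hs]
  rw [h2] at h1
  have h3 := IsPiHallOf.pre' h1 le_rfl kr_le (hk ▸ piCoreOf_isPi _ _)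
  exact isPiHallOf_piCoreOf_of_normal h3 (le_norm_pre le_rfl (self_le_norm_piCoreOf _ _))

theorem isPi_compl_of_isPGroup {q : ℕ} (hq : q.Prime) (hqp : q ≠ p) (h : IsPGroup q R) :
    IsPiSubgroup {p}ᶜ R :=
  PiNat.mono (syl_self hq h).isPi (by simpa using hqp.symm)

theorem solvable_sup_of_norm (hH : Group.IsSolvable H) (hK : Group.IsSolvable K) (hn : K ≤ N[H]) :
    Group.IsSolvable ↥(H ⊔ K) := by
  obtain ⟨Q, _, _, f, -, hk⟩ := exists_quo' (H ⊔ K) H le_sup_left (sup_le le_normalizer hn)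
  refine solvable_of_im (f := f) le_rfl (by rwa [hk, inf_eq_right.2 le_sup_left]) ?_
  have := im_kr_sup (f := f) (H := K) le_sup_right
  rw [hk] at this
  rw [this]
  exact solvable_im hK

theorem exists_lex2 {α : Type*} [Finite α] {s : Set α} (hs : s.Nonempty) (f1 f2 : α → ℕ) :
    ∃ x ∈ s, ∀ y ∈ s, f1 y ≤ f1 x ∧ (f1 y = f1 x → f2 y ≤ f2 x) := by
  obtain ⟨x, hx, h⟩ := Set.exists_max_image s (fun x => toLex (f1 x, f2 x)) (Set.toFinite _) hs
  refine ⟨x, hx, fun y hy => ?_⟩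
  have := h y hy
  simp only [Prod.Lex.le_iff, ofLex_toLex] at this
  omega

/-- the last step: a normal `p`-subgroup with a `p`-nilpotent quotient -/
theorem gt_step (hp : p.Prime) (h5 : 5 ≤ p) {G' : Type u} [Group G'] [Finite G'] {f : H →* G'}
    (hk : IsPGroup p (kr f)) (h1 : PNc p (im f H)) (hP : IsPiHallOf {p} P H)
    (hZ : PNc p (H ⊓ N[zPuigOf P])) : PNc p H := by
  set Q := kr f with hQ
  set K' := piCoreOf {p}ᶜ (im f H) with hK'
  have hK'1 : K' ≤ im f H := piCoreOf_le _ _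
  have hK'p : IsPiSubgroup {p}ᶜ K' := piCoreOf_isPi _ _
  have hQn : H ≤ N[Q] := dom_le_norm_kr
  have hKn : H ≤ N[pre f K'] := le_norm_pre le_rfl (self_le_norm_piCoreOf _ _)
  have hP' := hP.im (f := f) le_rfl
  have hQP : Q ≤ P := le_syl_of_norm hp hP hk kr_le (hP.le.trans hQn)
  have hc : PiNat {p} (C[Q].relIndex (pre f K')) := by
    intro q hq hd
    by_contra hqp
    obtain ⟨R', hR', hRn⟩ := coprime_exists_syl (H := K') (A := im f P) hq
      (Or.inr (solvable_of_isPGroup hp (syl_isPGroup hp hP')))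
      (hP'.le.trans (self_le_norm_piCoreOf _ _)) (PiNat.coprime' hK'p hP'.isPi)
    have hRq := syl_isPGroup hq hR'
    have hRH : R' ⊔ im f P ≤ im f H := sup_le (hR'.le.trans hK'1) hP'.le
    have hs : Group.IsSolvable (pre f (R' ⊔ im f P)) :=
      solvable_pre (solvable_of_isPGroup hp hk) (solvable_sup_of_norm
        (solvable_of_isPGroup hq hRq) (solvable_of_isPGroup hp (syl_isPGroup hp hP')) hRn)
    have hPq : P ≤ pre f (R' ⊔ im f P) := (le_pre_im hP.le).trans (pre_mono le_sup_right)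
    have h2 := PNc.of_factor (hZ.mono (inf_le_inf_right _ pre_le))
      (sol5_Puig_factorisation hp h5 hs (hP.of_le hPq pre_le))
    obtain ⟨S, hS⟩ := exists_syl hq (pre f R')
    have h3 : S ≤ C[Q] := h2.le_cent hp kr_le_pre hk (pre_le.trans hQn)
      (hS.le.trans (pre_mono le_sup_left)) (isPi_compl_of_isPGroup hq hqp (syl_isPGroup hq hS))
    have h4 : IsPiHallOf {q} S (pre f K') := hS.of_idx (pre_mono hR'.le)
      (by rw [relIndex_pre_pre hK'1]; exact hR'.idx)
    exact (piNat_single_compl_iff hq).1 (h4.idx_of_le h3) hd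
  have hQK : IsPiHallOf {p} Q (pre f K') :=
    isPiHallOf_mk kr_le_pre (syl_self hp hk).isPi (by rw [hQ, relIndex_kr_pre hK'1]; exact hK'p)
  obtain ⟨L, hL⟩ := hQK.exists_hall_compl (pre_le.trans hQn)
  have hLc : L ≤ C[Q] := by
    have h2 := (hL.inf_normal (K := pre f K' ⊓ C[Q]) inf_le_left
      (le_norm_inf le_normalizer (le_norm_cent (pre_le.trans hQn)))).of_idx inf_le_left
      (by rw [piNat_compl_compl, inf_comm, inf_relIndex_right]; exact hc)
    rw [← h2.eq_of_le_hall hL inf_le_left]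
    exact inf_le_right.trans inf_le_right
  have hLn : pre f K' ≤ N[L] := by
    rw [← hQK.sup_eq hL]
    exact sup_le ((le_cent_symm hLc).trans (cent_le_norm _)) le_normalizer
  exact isPiHallOf_piCoreOf_of_normal (hL.of_idx pre_le (IsPiHallOf.idx_pre h1 le_rfl))
    (hKn.trans (hL.norm_le_norm hLn))

theorem gt_aux (hp : p.Prime) (h5 : 5 ≤ p) (n : ℕ) :
    ∀ {G : Type u} [Group G] [Finite G] (H : Subgroup G), Nat.card H = n →
      (∀ P, IsPiHallOf {p} P H → PNc p (H ⊓ N[zPuigOf P])) → PNc p H := by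
  induction n using Nat.strong_induction_on with
  | _ n ih =>
  intro G _ _ H hn hZ
  by_contra hH
  let s : Set (Subgroup G × Subgroup G) := {x | x.1 ≤ H ∧ IsPGroup p x.1 ∧ x.1 ≠ ⊥ ∧
    ¬ PNc p (H ⊓ N[x.1]) ∧ IsPiHallOf {p} x.2 (H ⊓ N[x.1])}
  have hs : s.Nonempty := by
    by_contra hs
    refine hH (frobenius_normal_compl hp fun q Q B hq hqp h1 h2 h3 h4 h6 => ?_)
    by_cases hQ : Q = ⊥
    · rw [hQ, cent_bot]; exact le_top
    have h7 : PNc p (H ⊓ N[Q]) := by
      by_contra h7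
      obtain ⟨P, hP⟩ := exists_syl hp (H ⊓ N[Q])
      exact hs ⟨(Q, P), h1, h2, hQ, h7, hP⟩
    exact h7.le_cent hp (le_inf h1 le_normalizer) h2 inf_le_right (le_inf h3 h6)
      (isPi_compl_of_isPGroup hq hqp h4)
  obtain ⟨⟨Q, P₀⟩, ⟨hQH, hQp, hQ1, hQn, hP₀⟩, hmax⟩ :=
    exists_lex2 hs (fun x => Nat.card x.2) (fun x => Nat.card x.1)
  dsimp only at hQH hQp hQ1 hQn hP₀ hmax
  have key : ∀ X T : Subgroup G, X ≤ H → IsPGroup p X → X ≠ ⊥ → T ≤ H ⊓ N[X] → IsPGroup p T →
      (Nat.card P₀ < Nat.card T ∨ (Nat.card P₀ ≤ Nat.card T ∧ Nat.card Q < Nat.card X)) →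
      PNc p (H ⊓ N[X]) := by
    intro X T h1 h2 h3 h4 h6 h7
    by_contra h8
    obtain ⟨U, hU, hTU⟩ := exists_syl_ge hp h6 h4
    have h9 := hmax (X, U) ⟨h1, h2, h3, h8, hU⟩
    have h10 := Subgroup.card_le_of_le hTU
    dsimp only at h9
    omega
  have hN : H ≤ N[Q] := by
    by_contra hN
    have hlt : H ⊓ N[Q] < H := lt_of_le_of_ne inf_le_left fun e => hN (e ▸ inf_le_right)
    refine hQn (ih _ (hn ▸ card_lt_of_lt hlt) _ rfl fun P₁ hP₁ => ?_)
    have h1 := syl_isPGroup hp hP₁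
    obtain ⟨P, hP, hle⟩ := exists_syl_ge hp h1 (hP₁.le.trans inf_le_left)
    refine PNc.mono ?_ (inf_le_inf_right _ inf_le_left)
    rcases hle.eq_or_lt with rfl | hlt'
    · exact hZ _ hP
    have h2 := lt_inf_norm_of_isPGroup hp (syl_isPGroup hp hP) hlt'
    have h3 : Q ≤ P₁ := le_syl_of_norm hp hP₁ hQp (le_inf hQH le_normalizer)
      (hP₁.le.trans inf_le_right)
    refine key _ (P ⊓ N[P₁]) ((zPuigOf_le _).trans (hle.trans hP.le)) (h1.to_le (zPuigOf_le _))
      (zPuigOf_ne_bot hp h1 (ne_bot_of_le hQ1 h3))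
      (inf_le_inf hP.le (norm_le_norm_zPuigOf _)) ((syl_isPGroup hp hP).to_le inf_le_left)
      (Or.inl ?_)
    rw [hP₀.card_eq hP₁]
    exact card_lt_of_lt h2
  rw [inf_eq_left.2 hN] at hP₀
  obtain ⟨G', _, _, f, hf, hk⟩ := exists_quo' H Q hQH hN
  have h1 : PNc p (im f H) := by
    refine ih _ (hn ▸ card_im_lt le_rfl (by rwa [hk, inf_eq_right.2 hQH])) _ rfl fun P' hP' => ?_
    by_cases h0 : P' = ⊥
    · subst h0
      exact PNc.of_isPi (hP'.isPi_compl_of_eq_bot.of_le inf_le_left)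
    have hk' : IsPiSubgroup {p} (kr f) := hk ▸ (syl_self hp hQp).isPi
    have hP := hP'.pre' le_rfl kr_le hk'
    have h2 := syl_isPGroup hp hP'
    have h3 : zPuigOf P' ≤ im f H := (zPuigOf_le _).trans hP'.le
    have h4 := key (pre f (zPuigOf P')) (pre f P') pre_le
      ((syl_isPGroup hp hP).to_le (pre_mono (zPuigOf_le _)))
      (ne_bot_of_le hQ1 (hk ▸ kr_le_pre))
      (le_inf pre_le (pre_norm (le_normalizer.trans (norm_le_norm_zPuigOf _))))
      (syl_isPGroup hp hP) (Or.inr ⟨(hP₀.card_eq hP).le, by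
        rw [card_pre h3, hk]
        have := ne_bot_iff_one_lt_card.1 (zPuigOf_ne_bot hp h2 h0)
        have := card_pos' Q
        nlinarith⟩)
    have h6 := h4.im (f := f) inf_le_left
    rwa [← pre_norm_im pre_le kr_le_pre, im_pre, im_pre_of_le h3, inf_comm] at h6
  exact hH (gt_step hp h5 (hk ▸ hQp) h1 hP₀ (hZ _ hP₀))

/-- **Glauberman–Thompson** for `p ≥ 5`. -/
theorem glauberman_thompson5 (hp : p.Prime) (h5 : 5 ≤ p) (hP : IsPiHallOf {p} P H)
    (h : PNc p (H ⊓ N[zPuigOf P])) : PNc p H := by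
  refine gt_aux hp h5 _ H rfl fun P' hP' => ?_
  obtain ⟨g, hg, rfl⟩ := syl_exists_conj hp hP hP'
  have := h.conj g
  rwa [conj_inf, conj_normalizer, conj_zPuigOf, conj_eq_self_of_mem hg] at this

theorem semiregular_nil_aux (n : ℕ) :
    ∀ {G : Type u} [Group G] [Finite G] (K R : Subgroup G), Nat.card K = n → R ≤ N[K] →
      Group.IsSolvable R → R ≠ ⊥ → Semiregular K R → Group.IsNilpotent K := by
  induction n using Nat.strong_induction_on with
  | _ n ih =>
  intro G _ _ K R hn hR hRs hR1 hreg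
  refine BG.semiregular_sol_nil hR ?_ hR1 hreg
  by_contra hs
  have hsub : ∀ M, M < K → R ≤ N[M] → Group.IsNilpotent M := fun M h1 h2 =>
    ih _ (hn ▸ card_lt_of_lt h1) M R rfl h2 hRs hR1 (hreg.mono h1.le le_rfl)
  have hsim : ∀ M, M ≤ K → K ≤ N[M] → R ≤ N[M] → M ≠ ⊥ → M = K := by
    intro M h1 h2 h3 h4
    by_contra h6
    have h7 := hsub M (lt_of_le_of_ne h1 h6) h3
    obtain ⟨G', _, _, f, hf, hk⟩ := exists_quo' (K ⊔ R) M (h1.trans le_sup_left) (sup_le h2 h3)
    have h8 := ih _ (hn ▸ card_im_lt le_sup_left (by rwa [hk, inf_eq_right.2 h1])) (im f K)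
      (im f R) rfl (im_norm hR) (solvable_im hRs) (fun h => hR1 (by
        rw [im_eq_bot_iff le_sup_right, hk] at h
        exact eq_bot_iff.2 (hreg.inf_eq_bot ▸ le_inf (h.trans h1) le_rfl)))
      (BG.semiregular_im hreg hR le_sup_left le_sup_right)
    exact hs (solvable_of_im (f := f) le_sup_left
      (by rw [hk, inf_eq_right.2 h1]; infer_instance) inferInstance)
  obtain ⟨p, hp, h5, hd⟩ := Char.exists_prime_five_le_of_not_solvable hs
  obtain ⟨P, hP, hPn⟩ := coprime_exists_syl hp (Or.inr hRs) hR (BG.semiregular_coprime hreg hR)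
  have hPp := syl_isPGroup hp hP
  have hZ := zPuigOf_ne_bot hp hPp ((syl_ne_bot_iff hp hP).2 hd)
  have hZn : R ≤ N[zPuigOf P] := hPn.trans (norm_le_norm_zPuigOf _)
  have hlt : K ⊓ N[zPuigOf P] < K := lt_of_le_of_ne inf_le_left fun e => hs (by
    rw [← hsim _ ((zPuigOf_le _).trans hP.le) (e ▸ inf_le_right) hZn hZ]
    exact solvable_of_comm (zPuigOf_comm _))
  have h1 : PNc p K := glauberman_thompson5 hp h5 hP
    (nil_isPiHallOf_piCoreOf (hsub _ hlt (le_norm_inf hR (le_norm_norm hZn))) _)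
  by_cases h0 : piCoreOf {p}ᶜ K = ⊥
  · unfold PNc at h1
    rw [h0] at h1
    have h2 := h1.isPi_compl_of_eq_bot
    rw [compl_compl] at h2
    exact hs (solvable_of_isPGroup hp (syl_isPGroup hp (isPiHallOf_self h2)))
  · have h2 := hsim _ (piCoreOf_le _ _) (self_le_norm_piCoreOf _ _) (le_norm_piCoreOf hR) h0
    have h3 : IsPiSubgroup {p}ᶜ K := h2 ▸ piCoreOf_isPi _ _
    exact h3 p hp hd rfl

/-- **Thompson**: a group with a semiregular group of automorphisms is nilpotent. -/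
theorem semiregular_nil (hn : R ≤ N[K]) (hR : R ≠ ⊥) (hreg : Semiregular K R) :
    Group.IsNilpotent K := by
  obtain ⟨X, hX, hp⟩ := exists_le_card_prime hR
  exact semiregular_nil_aux _ K X rfl (hX.trans hn)
    (solvable_of_comm (isMulCommutative_of_isCyclic (isCyclic_of_card_prime hp)))
    (ne_bot_of_card_prime hp) (hreg.mono le_rfl hX)

theorem frobenius_kernel_nil {L : Subgroup G} (h : Frob K R L) : Group.IsNilpotent K :=
  semiregular_nil h.sdprod.right_norm h.compl_ne_bot h.reg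

end Cfsg.Agent.Cls
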