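import Cfsg.Agent.TT.Large
import Cfsg.Agent.PG.GL2
import Cfsg.Agent.GT.Core

/-! The centraliser of an involution of `U` in the holomorph of an elementary abelian 2-group. -/

set_option autoImplicit false
set_option linter.unusedSectionVars false
set_option linter.unusedVariables false

namespace Cfsg.Agent.Cls

open Cfsg Subgroup Cfsg.Agent.GT Cfsg.Agent.TT

theorem nonempty_mulAut_equiv_GL {p n : ℕ} [hp : Fact p.Prime] {W : Type*} [CommGroup W] [Finite W]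
    (hW : ∀ x : W, x ^ p = 1) (hc : Nat.card W = p ^ n) :
    Nonempty (MulAut W ≃* GL (Fin n) (ZMod p)) := by
  have hz : ∀ x : Additive W, p • x = 0 := fun x => by
    apply Additive.toMul.injective
    rw [toMul_nsmul]
    exact hW _
  obtain ⟨inst⟩ : Nonempty (Module (ZMod p) (Additive W)) := ⟨AddCommGroup.zmodModule hz⟩
  have hf : Module.Finite (ZMod p) (Additive W) := Module.Finite.of_finite
  have hfin : Module.finrank (ZMod p) (Additive W) = n := by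
    have h1 := Module.natCard_eq_pow_finrank (K := ZMod p) (V := Additive W)
    rw [Nat.card_zmod, Nat.card_congr Additive.toMul, hc] at h1
    exact (Nat.pow_right_injective hp.out.two_le h1).symm
  let b := Module.finBasisOfFinrankEq (ZMod p) (Additive W) hfin
  let φ : MulAut W →* Module.End (ZMod p) (Additive W) :=
    { toFun := fun σ => (MonoidHom.toAdditive σ.toMonoidHom).toZModLinearMap p
      map_one' := LinearMap.ext fun _ => rfl
      map_mul' := fun _ _ => LinearMap.ext fun _ => by simp }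
  refine ⟨(MulEquiv.ofBijective φ.toHomUnits ⟨(injective_iff_map_eq_one _).2 fun σ h => ?_,
    fun g => ?_⟩).trans (Units.mapEquiv (LinearMap.toMatrixAlgEquiv b).toMulEquiv)⟩
  · have h2 : φ σ = 1 := congrArg Units.val h
    ext v
    exact congrArg Additive.toMul (LinearMap.congr_fun h2 (Additive.ofMul v))
  · exact ⟨MulEquiv.toAdditive.symm (LinearMap.GeneralLinearGroup.toLinearEquiv g).toAddEquiv,
      Units.ext (LinearMap.ext fun _ => rfl)⟩

universe u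

variable {G : Type u} [Group G] [Finite G] {A B H M Q U W : Subgroup G} {a x z : G} {n : ℕ}

theorem ES.card_le_of_pairing (h : ES Q z) (hA : A ≤ Q) (hB : B ≤ Q) (hc : IsMulCommutative B)
    (hn : ∀ a ∈ A, (∀ b ∈ B, Commute b a) → a = 1) : Nat.card A ≤ Nat.card B := by
  let _ : CommGroup B := { (inferInstance : Group B) with mul_comm := hc.is_comm.comm }
  have : NeZero (Monoid.exponent B : ℂ) := ⟨Nat.cast_ne_zero.2 Monoid.exponent_ne_zero_of_finite⟩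
  rw [← CommGroup.card_monoidHom_of_hasEnoughRootsOfUnity B ℂ]
  refine Nat.card_le_card_of_injective (fun a : A => (h.chi ⟨a, hA a.2⟩).comp (inclusion hB))
    fun a a' e => ?_
  refine Subtype.ext (eq_of_mul_inv_eq_one (hn _ (mul_mem a.2 (inv_mem a'.2)) fun b hb => ?_))
  have h1 := DFunLike.congr_fun e ⟨b, hb⟩
  have h2 : Commute b a ↔ Commute b a' := by
    rw [← h.chi_eq_one ⟨a, hA a.2⟩ ⟨b, hB hb⟩, ← h.chi_eq_one ⟨a', hA a'.2⟩ ⟨b, hB hb⟩]
    exact Iff.of_eq (congrArg (· = 1) h1)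
  by_cases h3 : Commute b a
  · exact h3.mul_right (h2.1 h3).inv_right
  · exact (h.commute_mul (hA a.2) (inv_mem (hA a'.2)) (hB hb) (fun h4 => h3 h4.symm)
      (not_commute_inv fun h4 => h3 (h2.2 h4.symm))).symm

/-- `H` has index at most two in `U` -/
def Idx2 (H U : Subgroup G) : Prop := H ≤ U ∧ ∀ y ∈ U, ∀ y' ∈ U, y ∉ H → y' ∉ H → y * y' ∈ H

theorem Idx2.mul_iff (h : Idx2 H U) {x y : G} (hx : x ∈ U) (hy : y ∈ U) :
    x * y ∈ H ↔ (x ∈ H ↔ y ∈ H) := by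
  by_cases h1 : x ∈ H
  · simp [h1, H.mul_mem_cancel_left h1]
  by_cases h2 : y ∈ H
  · simp [h1, h2, H.mul_mem_cancel_right h2]
  · simp [h1, h2, h.2 x hx y hy h1 h2]

theorem Idx2.conj (h : Idx2 H U) {g : G} (hg : g ∈ N[U]) : Idx2 (cj[g] H) U := by
  refine ⟨(conj_mono g h.1).trans (conj_eq_self hg).le, fun y hy y' hy' a b => ?_⟩
  rw [mem_conj] at a b ⊢
  have e : ∀ y ∈ U, g⁻¹ * y * g ∈ U := fun y hy => by
    simpa using conj_mem_of_mem_norm (inv_mem hg) hy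
  have := h.2 _ (e y hy) _ (e y' hy') a b
  rwa [show g⁻¹ * y * g * (g⁻¹ * y' * g) = g⁻¹ * (y * y') * g by group] at this

theorem exists_idx2 (hU : IsElementaryAbelian 2 U) (hW : W ≤ U) (hx : x ∈ U) (hxW : x ∉ W) :
    ∃ H, Idx2 H U ∧ W ≤ H ∧ x ∉ H := by
  have hc := isMulCommutative_iff_forall.1 hU.1
  have h2 : ∀ y ∈ U, y * y = 1 := fun y hy => by rw [← sq]; exact hU.2 y hy
  obtain ⟨H, ⟨h1, h3⟩, h4, h5⟩ := exists_maximal_ge (S := {H | H ≤ U ∧ x ∉ H}) ⟨hW, hxW⟩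
  have key : ∀ y ∈ U, y ∉ H → x * y ∈ H := fun y hy hyH => by
    have h6 : x ∈ H ⊔ zpowers y := by
      by_contra h6
      have := h5 _ ⟨sup_le h1 (zpowers_le.2 hy), h6⟩ le_sup_left
      exact hyH (this ▸ mem_sup_right (mem_zpowers y))
    obtain ⟨a, ha, b, hb, rfl⟩ := (mem_sup_of_le_norm' ((zpowers_le.2 hy).trans
      ((isMulCommutative_iff_le_cent.1 hU.1).trans ((cent_anti h1).trans (cent_le_norm _))))).1 h6
    rcases (mem_zpowers_of_sq (h2 y hy)).1 hb with rfl | rfl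
    · exact absurd (by simpa using ha) h3
    · rwa [mul_assoc, h2 _ hy, mul_one]
  refine ⟨H, ⟨h1, fun y hy y' hy' a b => ?_⟩, h4, h3⟩
  have := mul_mem (key y hy a) (key y' hy' b)
  rwa [hc x hx y hy, mul_assoc, ← mul_assoc x, h2 x hx, one_mul] at this

/-- `M` induces the full automorphism group of `U` faithfully -/
structure Hol (U M : Subgroup G) (n : ℕ) : Prop where
  el : IsElementaryAbelian 2 U
  card : Nat.card U = 2 ^ (n + 1)
  pos : 1 ≤ n
  nrm : M ≤ N[U]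
  faith : ∀ m ∈ M, (∀ u ∈ U, m * u * m⁻¹ = u) → m = 1
  full : ∀ φ : U ≃* U, ∃ m ∈ M, ∀ u : U, ((φ u : U) : G) = m * u * m⁻¹

theorem Hol.cm (h : Hol U M n) : ∀ x ∈ U, ∀ y ∈ U, x * y = y * x :=
  isMulCommutative_iff_forall.1 h.el.1

theorem Hol.sq (h : Hol U M n) : ∀ y ∈ U, y * y = 1 := fun y hy => by
  rw [← pow_two]; exact h.el.2 y hy

theorem Hol.cj (h : Hol U M n) (hx : x ∈ U) (ha : a ∈ U) : x * a * x⁻¹ = a := by
  rw [h.cm x hx a ha, mul_inv_cancel_right]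

theorem Hol.realize' (h : Hol U M n) (φ : U →* U) (h3 : ∀ u, φ u = 1 → u = 1) :
    ∃ m ∈ M, ∀ u : U, m * u * m⁻¹ = φ u := by
  obtain ⟨m, hm, e⟩ := h.full (MulEquiv.ofBijective φ (Finite.injective_iff_bijective.1
    ((injective_iff_map_eq_one _).2 h3)))
  exact ⟨m, hm, fun u => (e u).symm⟩

theorem Hol.realize (h : Hol U M n) (f : G → G) (h1 : ∀ u ∈ U, f u ∈ U)
    (h2 : ∀ u ∈ U, ∀ v ∈ U, f (u * v) = f u * f v) (h3 : ∀ u ∈ U, f u = 1 → u = 1) :
    ∃ m ∈ M, ∀ u ∈ U, m * u * m⁻¹ = f u := by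
  obtain ⟨m, hm, e⟩ := h.realize' (MonoidHom.mk' (fun u => ⟨f u, h1 u u.2⟩) fun u v =>
    Subtype.ext (h2 u u.2 v v.2)) fun u e => Subtype.ext (h3 u u.2 (congrArg Subtype.val e))
  exact ⟨m, hm, fun u hu => e ⟨u, hu⟩⟩

open Classical in
theorem Hol.ite_mul (h : Hol U M n) (hH : Idx2 H U) (ha : a ∈ U) {u v : G} (hu : u ∈ U) (hv : v ∈ U) :
    (if u * v ∈ H then u * v else u * v * a) =
      (if u ∈ H then u else u * a) * if v ∈ H then v else v * a := by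
  rw [hH.mul_iff hu hv]
  by_cases h1 : u ∈ H <;> by_cases h2 : v ∈ H <;> simp only [h1, h2, if_true, if_false, iff_true,
    iff_false, not_true, mul_assoc]
  · rw [h.cm a ha v hv]
  · rw [← mul_assoc a, h.cm a ha v hv, mul_assoc, h.sq a ha, mul_one]

theorem Hol.tv (h : Hol U M n) (hH : Idx2 H U) (ha : a ∈ H) :
    ∃ m ∈ M, ∀ u ∈ U, (u ∈ H → m * u * m⁻¹ = u) ∧ (u ∉ H → m * u * m⁻¹ = u * a) := by
  classical
  obtain ⟨m, hm, e⟩ := h.realize (fun u => if u ∈ H then u else u * a)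
    (fun u hu => by split_ifs; exacts [hu, mul_mem hu (hH.1 ha)])
    (fun u hu v hv => h.ite_mul hH (hH.1 ha) hu hv) fun u hu e => by
      split_ifs at e with h1
      · exact e
      · exact absurd (eq_inv_of_mul_eq_one_left e ▸ inv_mem ha) h1
  exact ⟨m, hm, fun u hu => ⟨fun h1 => by rw [e u hu, if_pos h1], fun h1 => by rw [e u hu, if_neg h1]⟩⟩

theorem Hol.cent_le (h : Hol U M n) : (U ⊔ M) ⊓ C[U] ≤ U := by
  rintro g ⟨h1, h2⟩
  obtain ⟨u, hu, m, hm, rfl⟩ := (mem_sup_of_le_norm' h.nrm).1 h1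
  have h3 : m ∈ C[U] := (mul_mem_cancel_left (isMulCommutative_iff_le_cent.1 h.el.1 hu)).1 h2
  rw [h.faith m hm fun v hv => mul_inv_eq_iff_eq_mul.2 (h3 v hv).symm, mul_one]
  exact hu

/-- the elements acting trivially on `z` and on `U / ⟨z⟩` -/
def Qz (U : Subgroup G) (z : G) (hz : z * z = 1) : Subgroup G where
  carrier := {g | g * z * g⁻¹ = z ∧ ∀ u ∈ U, g * u * g⁻¹ = u ∨ g * u * g⁻¹ = u * z}
  one_mem' := by simp
  mul_mem' := by
    rintro g k ⟨h1, h2⟩ ⟨h3, h4⟩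
    have e : ∀ u, g * k * u * (g * k)⁻¹ = g * (k * u * k⁻¹) * g⁻¹ := fun u => by group
    refine ⟨by rw [e, h3, h1], fun u hu => ?_⟩
    rw [e]
    rcases h4 u hu with h5 | h5 <;> rw [h5]
    · exact h2 u hu
    · rw [show g * (u * z) * g⁻¹ = g * u * g⁻¹ * (g * z * g⁻¹) by group, h1]
      rcases h2 u hu with h6 | h6 <;> rw [h6]
      · exact Or.inr rfl
      · exact Or.inl (by rw [mul_assoc, hz, mul_one])
  inv_mem' := by
    rintro g ⟨h1, h2⟩
    have e : g⁻¹ * z * g⁻¹⁻¹ = z := by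
      conv_lhs => rw [← h1]
      group
    refine ⟨e, fun u hu => (h2 u hu).imp (fun h5 => ?_) fun h5 => ?_⟩
    · conv_lhs => rw [← h5]
      group
    · have : u = g * u * g⁻¹ * z := by rw [h5, mul_assoc, hz, mul_one]
      conv_lhs => rw [this]
      rw [show g⁻¹ * (g * u * g⁻¹ * z) * g⁻¹⁻¹ = u * (g⁻¹ * z * g⁻¹⁻¹) by group, e]

theorem Hol.exists_ne (h : Hol U M n) (hz : z ∈ U) (hH : Idx2 H U) (hzH : z ∉ H) :
    Nat.card H = 2 ^ n ∧ H ≠ ⊥ := by
  have h1 : H ⊔ zpowers z = U := by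
    refine le_antisymm (sup_le hH.1 (zpowers_le.2 hz)) fun u hu => ?_
    by_cases h2 : u ∈ H
    · exact mem_sup_left h2
    · have := mul_mem (mem_sup_left (T := zpowers z) (hH.2 u hu z hz h2 hzH))
        (mem_sup_right (mem_zpowers z))
      rwa [mul_assoc, h.sq z hz, mul_one] at this
  have h2 : H ⊓ zpowers z = ⊥ := by
    rw [eq_bot_iff]
    rintro y ⟨h3, h4⟩
    rcases (mem_zpowers_of_sq (h.sq z hz)).1 h4 with rfl | rfl
    exacts [rfl, absurd h3 hzH]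
  have h3 := card_sup_of_inf_eq_bot (Or.inr ((zpowers_le.2 hz).trans
    ((isMulCommutative_iff_le_cent.1 h.el.1).trans ((cent_anti hH.1).trans (cent_le_norm _))))) h2
  rw [h1, h.card, card_zpowers_two (h.sq z hz) (fun e => hzH (e ▸ one_mem H)), pow_succ] at h3
  have h4 : Nat.card H = 2 ^ n := by omega
  refine ⟨h4, ne_bot_iff_one_lt_card.2 ?_⟩
  rw [h4]
  exact Nat.one_lt_two_pow (by have := h.pos; omega)

theorem Hol.main (h : Hol U M n) (hz : z ∈ U) (hz1 : z ≠ 1) (hC : C1[z] ≤ U ⊔ M) :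
    IsLargeExtraspecial (piCoreOf {2} C1[z]) ∧
      Nat.card (piCoreOf {2} C1[z]) = 2 ^ (2 * n + 1) ∧ U ≤ piCoreOf {2} C1[z] ∧
      ∃ K : Subgroup G, K ≤ C1[z] ∧ piCoreOf {2} C1[z] ⊓ K = ⊥ ∧ piCoreOf {2} C1[z] ⊔ K = C1[z] ∧
        Nonempty (K ≃* GL (Fin n) (ZMod 2)) := by
  classical
  have zz := h.sq z hz
  set Q := Qz U z zz with hQdef
  have hPn : U ⊔ M ≤ N[U] := sup_le le_normalizer h.nrm
  have cz : ∀ g, g ∈ C1[z] ↔ g * z * g⁻¹ = z := fun g => by rw [mem_cent1, mul_inv_eq_iff_eq_mul]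
  have hQC : Q ≤ C1[z] := fun g hg => (cz g).2 hg.1
  have hUQ : U ≤ Q := fun u hu => ⟨h.cj hu hz, fun v hv => Or.inl (h.cj hu hv)⟩
  have hdec : ∀ g ∈ Q, ∃ u ∈ U, ∃ m ∈ M ⊓ Q, g = u * m := fun g hg => by
    obtain ⟨u, hu, m, hm, rfl⟩ := (mem_sup_of_le_norm' h.nrm).1 (hC (hQC hg))
    exact ⟨u, hu, m, ⟨hm, (mul_mem_cancel_left (hUQ hu)).1 hg⟩, rfl⟩
  have act : ∀ g ∈ Q, ∀ k ∈ Q, ∀ u ∈ U, g * (k * u * k⁻¹) * g⁻¹ = k * (g * u * g⁻¹) * k⁻¹ := by
    intro g hg k hk u hu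
    have e : ∀ t, t * z * t⁻¹ = z → t * (u * z) * t⁻¹ = t * u * t⁻¹ * z := fun t ht => by
      conv_rhs => rw [← ht]
      group
    rcases hg.2 u hu with h1 | h1 <;> rcases hk.2 u hu with h2 | h2 <;>
      simp only [h1, h2, e g hg.1, e k hk.1]
  have hT : ∀ m ∈ M ⊓ Q, ∀ m' ∈ M ⊓ Q, m * m' = m' * m := fun m hm m' hm' => by
    rw [← mul_inv_eq_one]
    refine h.faith _ (mul_mem (mul_mem hm.1 hm'.1) (inv_mem (mul_mem hm'.1 hm.1))) fun u hu => ?_
    have h1 := conj_mem_of_le_norm' h.nrm (mul_mem hm'.1 hm.1) hu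
    have := act m hm.2 m' hm'.2 _ h1
    rw [show m' * (m * ((m' * m)⁻¹ * u * (m' * m)) * m⁻¹) * m'⁻¹ = u by group] at this
    conv_rhs => rw [← this]
    group
  have hT2 : ∀ m ∈ M ⊓ Q, m * m = 1 := fun m hm => by
    refine h.faith _ (mul_mem hm.1 hm.1) fun u hu => ?_
    rw [show m * m * u * (m * m)⁻¹ = m * (m * u * m⁻¹) * m⁻¹ by group]
    rcases hm.2.2 u hu with h1 | h1
    · rw [h1, h1]
    · rw [h1, show m * (u * z) * m⁻¹ = m * u * m⁻¹ * (m * z * m⁻¹) by group, h1, hm.2.1, mul_assoc,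
        zz, mul_one]
  have hnc : ∀ x ∈ U, x ∉ zpowers z → ∃ m ∈ M ⊓ Q, ¬ Commute m x := fun x hx hxz => by
    obtain ⟨H, h1, h2, h3⟩ := exists_idx2 h.el (zpowers_le.2 hz) hx hxz
    obtain ⟨m, hm, e⟩ := h.tv h1 (h2 (mem_zpowers z))
    refine ⟨m, ⟨hm, (e z hz).1 (h2 (mem_zpowers z)), fun u hu => ?_⟩, fun c => hz1 ?_⟩
    · by_cases h4 : u ∈ H
      exacts [Or.inl ((e u hu).1 h4), Or.inr ((e u hu).2 h4)]
    · have := (e x hx).2 h3
      rwa [c.eq, mul_inv_cancel_right, left_eq_mul] at this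
  obtain ⟨W, hW, -, hzW⟩ := exists_idx2 h.el bot_le hz (by simpa using hz1)
  obtain ⟨hWc, hW1⟩ := h.exists_ne hz hW hzW
  obtain ⟨w, hw, hw1⟩ := exists_ne_one_of_ne_bot hW1
  have hWz : ∀ w ∈ W, w ≠ 1 → w ∉ zpowers z := fun w hw hw1 e => by
    rcases (mem_zpowers_of_sq zz).1 e with rfl | rfl
    exacts [hw1 rfl, hzW hw]
  have hcQ : C[Q] ≤ U := fun g hg =>
    h.cent_le ⟨hC (cent_le_cent1 (hUQ hz) hg), cent_anti hUQ hg⟩
  have hES : ES Q z := by
    refine ⟨hUQ hz, zz, hz1, fun x hx => (mem_cent1.1 (hQC hx)).symm, fun x hx y hy => ?_,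
      fun x hx => ?_, fun x hx hc => ?_, ?_⟩
    · obtain ⟨u, hu, m, hm, rfl⟩ := hdec x hx
      obtain ⟨v, hv, k, hk, rfl⟩ := hdec y hy
      have e : u * m * (v * k) * (u * m)⁻¹ = u * (m * v * m⁻¹) * (k * u⁻¹ * k⁻¹) * k := by
        rw [show u * m * (v * k) * (u * m)⁻¹ = u * m * v * (k * m⁻¹) * u⁻¹ by group,
          hT k hk _ (inv_mem hm)]
        group
      have e2 : z * k = k * z := (mem_cent1.1 (hQC hk.2)).symm
      have e3 : u * v * u⁻¹ = v := h.cj hu hv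
      have e4 : u * (v * z) * u⁻¹ = v * z := h.cj hu (mul_mem hv hz)
      rw [e]
      rcases hm.2.2 v hv with h1 | h1 <;> rcases hk.2.2 _ (inv_mem hu) with h2 | h2 <;>
        rw [h1, h2]
      · exact Or.inl (by rw [e3])
      · exact Or.inr (by rw [← mul_assoc, e3, mul_assoc, e2, mul_assoc])
      · exact Or.inr (by rw [e4, mul_assoc, e2, mul_assoc])
      · exact Or.inl (by rw [← mul_assoc, e4, mul_assoc v, zz, mul_one])
    · obtain ⟨u, hu, m, hm, rfl⟩ := hdec x hx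
      rw [show u * m * (u * m) = u * (m * u * m⁻¹) * (m * m) by group, hT2 m hm, mul_one]
      refine (hm.2.2 u hu).imp (fun h1 => ?_) fun h1 => ?_ <;> rw [h1]
      · exact h.sq u hu
      · rw [← mul_assoc, h.sq u hu, one_mul]
    · rw [← mem_zpowers_of_sq zz]
      by_contra h1
      obtain ⟨m, hm, h2⟩ := hnc x (hcQ fun y hy => (hc y hy).symm) h1
      exact h2 (hc m hm.2).symm
    · obtain ⟨m, hm, h2⟩ := hnc w (hW.1 hw) (hWz w hw hw1)
      exact ⟨m, hm.2, w, hUQ (hW.1 hw), h2⟩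
  have hnQ : C1[z] ≤ N[Q] := le_norm_iff.2 fun g hg x hx => by
    have h1 := (cz g).1 hg
    refine ⟨(cz _).1 (mul_mem (mul_mem hg (hQC hx)) (inv_mem hg)), fun u hu => ?_⟩
    have h2 := hx.2 _ (conj_mem_of_le_norm' hPn (hC hg) hu)
    rw [show g * x * g⁻¹ * u * (g * x * g⁻¹)⁻¹ = g * (x * (g⁻¹ * u * g) * x⁻¹) * g⁻¹ by group]
    refine h2.imp (fun h3 => ?_) fun h3 => ?_ <;> rw [h3]
    · group
    · conv_rhs => rw [← h1]
      group
  have hL : LQ Q z := ⟨hES, hcQ.trans hUQ, hnQ⟩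
  have triv : ∀ m ∈ M, m * z * m⁻¹ = z → (∀ w ∈ W, m * w * m⁻¹ = w) → m = 1 := fun m hm h1 h2 => by
    refine h.faith m hm fun u hu => ?_
    by_cases h3 : u ∈ W
    · exact h2 u h3
    · have := h2 _ (hW.2 u hu z hz h3 hzW)
      rwa [show m * (u * z) * m⁻¹ = m * u * m⁻¹ * (m * z * m⁻¹) by group, h1, mul_left_inj] at this
  have hUM : U ⊓ M = ⊥ := eq_bot_iff.2 fun g hg => h.faith g hg.2 fun u hu => h.cj hg.1 hu
  have hcard : Nat.card Q = 2 ^ (2 * n + 1) := by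
    have h1 : U ⊔ (M ⊓ Q) = Q := by
      rw [← dedekind (Or.inr h.nrm) hUQ, inf_eq_right.2 (hQC.trans hC)]
    have h2 := card_sup_of_inf_eq_bot (H := U) (K := M ⊓ Q) (Or.inr (inf_le_left.trans h.nrm))
      (by rw [← inf_assoc, hUM, bot_inf_eq])
    have h3 := ES.card_le_of_pairing hES (A := M ⊓ Q) (B := W) inf_le_right (hW.1.trans hUQ)
      (isMulCommutative_of_le h.el.1 hW.1) fun m hm hc => triv m hm.1 hm.2.1 fun w hw => by
        rw [← (hc w hw).eq, mul_inv_cancel_right]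
    have h4 := ES.card_le_of_pairing hES (A := W) (B := M ⊓ Q) (hW.1.trans hUQ) inf_le_right
      (isMulCommutative_iff_forall.2 hT) fun w hw hc => by
        by_contra h5
        obtain ⟨m, hm, h6⟩ := hnc w (hW.1 hw) (hWz w hw h5)
        exact h6 (hc m hm)
    rw [h1, h.card, le_antisymm h3 h4, hWc, ← pow_add] at h2
    rw [h2]
    congr 1
    omega
  set K := M ⊓ C1[z] ⊓ N[W] with hK
  have hKC : K ≤ C1[z] := inf_le_left.trans inf_le_right
  have hQK : Q ⊓ K = ⊥ := eq_bot_iff.2 fun g hg => triv g hg.2.1.1 hg.1.1 fun w hw =>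
    (hg.1.2 w (hW.1 hw)).resolve_right fun e =>
      hzW ((mul_mem_cancel_left hw).1 (e ▸ conj_mem_of_mem_norm hg.2.2 hw))
  have hsup : Q ⊔ K = C1[z] := by
    refine le_antisymm (sup_le hQC hKC) fun g hg => ?_
    obtain ⟨u, hu, m, hm, rfl⟩ := (mem_sup_of_le_norm' h.nrm).1 (hC hg)
    have h1 : m ∈ C1[z] := (mul_mem_cancel_left (hQC (hUQ hu))).1 hg
    have hW' := hW.conj (h.nrm hm)
    have hz' : z ∉ cj[m] W := by
      rwa [← (cz m).1 h1, conj_mem_conj]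
    let H : Subgroup G :=
      { carrier := {u | u ∈ U ∧ (u ∈ W ↔ u ∈ cj[m] W)}
        one_mem' := ⟨one_mem _, iff_of_true (one_mem _) (one_mem _)⟩
        mul_mem' := fun {a b} ha hb => ⟨mul_mem ha.1 hb.1, by
          rw [hW.mul_iff ha.1 hb.1, hW'.mul_iff ha.1 hb.1, ha.2, hb.2]⟩
        inv_mem' := fun {a} ha => ⟨inv_mem ha.1, by rw [inv_mem_iff, inv_mem_iff, ha.2]⟩ }
    have hH : Idx2 H U := ⟨fun _ ha => ha.1, fun a ha b hb h2 h3 => ⟨mul_mem ha hb, by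
      rw [hW.mul_iff ha hb, hW'.mul_iff ha hb]
      have h4 : ¬ (a ∈ W ↔ a ∈ cj[m] W) := fun e => h2 ⟨ha, e⟩
      have h5 : ¬ (b ∈ W ↔ b ∈ cj[m] W) := fun e => h3 ⟨hb, e⟩
      tauto⟩⟩
    have hzH : z ∈ H := ⟨hz, iff_of_false hzW hz'⟩
    obtain ⟨t, ht, e⟩ := h.tv hH hzH
    have htQ : t ∈ Q := ⟨(e z hz).1 hzH, fun u hu => by
      by_cases h4 : u ∈ H
      exacts [Or.inl ((e u hu).1 h4), Or.inr ((e u hu).2 h4)]⟩
    have hk : m⁻¹ * t ∈ K := ⟨⟨M.mul_mem (M.inv_mem hm) ht,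
      C1[z].mul_mem (C1[z].inv_mem h1) (hQC htQ)⟩,
      mem_normalizer_of_conj_le (by
        rw [mul_conj, ← le_conj_iff, conj_le_iff_forall]
        intro w hw
        by_cases h4 : w ∈ H
        · rw [(e w (hW.1 hw)).1 h4]; exact h4.2.1 hw
        · rw [(e w (hW.1 hw)).2 h4]
          exact hW'.2 w (hW.1 hw) z hz (fun h5 => h4 ⟨hW.1 hw, iff_of_true hw h5⟩) hz')⟩
    have := mul_mem (mem_sup_left (T := K) (mul_mem (hUQ hu) htQ)) (mem_sup_right (inv_mem hk))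
    rwa [show u * t * (m⁻¹ * t)⁻¹ = u * m by group] at this
  have hO : piCoreOf {2} C1[z] = Q := by
    have h1 : Q ≤ piCoreOf {2} C1[z] := le_piCoreOf_single Nat.prime_two hQC hnQ hES.isPGroup
    have h2 := dedekind (Or.inr (hKC.trans hnQ)) h1
    rw [hsup, inf_eq_right.2 (piCoreOf_le _ _)] at h2
    set B := K ⊓ piCoreOf {2} C1[z]
    have hBn : K ≤ N[B] := le_norm_inf le_normalizer (hKC.trans (self_le_norm_piCoreOf _ _))
    obtain ⟨v, ⟨hv, hvB⟩, hv1⟩ := exists_ne_one_of_ne_bot (inf_cent_ne_bot_of_isPGroup (K := B)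
      Nat.prime_two ((isPGroup_of_elementary h.el).to_le hW.1)
      ((piCoreOf_isPGroup Nat.prime_two _).to_le inf_le_right) (inf_le_left.trans inf_le_right) hW1)
    have h3 : B = ⊥ := eq_bot_iff.2 fun b hb => triv b hb.1.1.1 ((cz b).1 hb.1.1.2) fun w hw => by
      by_cases hw1 : w = 1
      · simp [hw1]
      have hvw := mul_mem hv hw
      obtain ⟨H, hH, h4, h5⟩ := exists_idx2 (W := closure {z, v * w}) h.el
        ((closure_le _).2 (Set.pair_subset hz (hW.1 hvw))) (hW.1 hv) (by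
          rw [mem_closure_pair zz (h.sq _ (hW.1 hvw)) (h.cm z hz _ (hW.1 hvw))]
          rintro (e | e | e | e)
          · exact hv1 e
          · exact hzW (e ▸ hv)
          · exact hw1 (left_eq_mul.1 e)
          · exact hzW ((W.mul_mem_cancel_left hvw).1 (e ▸ hv)))
      obtain ⟨k, hk, e⟩ := h.tv hH (h4 (subset_closure (Or.inr rfl)))
      have hkK : k ∈ K := ⟨⟨hk, (cz k).2 ((e z hz).1 (h4 (subset_closure (Or.inl rfl))))⟩,
        mem_normalizer_of_conj_le (conj_le_iff_forall.2 fun y hy => by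
          by_cases h6 : y ∈ H
          · rwa [(e y (hW.1 hy)).1 h6]
          · rw [(e y (hW.1 hy)).2 h6]; exact mul_mem hy hvw)⟩
      have h6 := (e v (hW.1 hv)).2 h5
      rw [← mul_assoc, h.sq v (hW.1 hv), one_mul] at h6
      have h7 := hvB _ (conj_mem_of_le_norm' hBn hkK hb)
      rw [← h6, show b * (k * v * k⁻¹) * b⁻¹ = k * (k⁻¹ * b * k * v) * k⁻¹ * b⁻¹ by group, h7]
      group
    rw [h2, h3, sup_bot_eq]
  rw [hO]
  refine ⟨?_, hcard, hUQ, K, hKC, hQK, hsup, ?_⟩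
  · obtain ⟨m, hm, e⟩ := h.tv hW hw
    refine hL.large_of (hUQ (mul_mem hz (hW.1 hw))) (h.sq _ (mul_mem hz (hW.1 hw)))
      (fun h1 => hWz w hw hw1 ((mul_mem_cancel_left (mem_zpowers z)).1 h1))
      (isPGroup_of_elementary h.el) hz ?_
    rw [← (e z hz).2 hzW, ← conj_cent1]
    exact conj_le_of_mem (h.nrm hm) (hC.trans hPn)
  let _ : CommGroup U := { (inferInstance : Group U) with mul_comm := h.el.1.is_comm.comm }
  let _ : CommGroup W := { (inferInstance : Group W) with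
    mul_comm := (isMulCommutative_of_le h.el.1 hW.1).is_comm.comm }
  obtain ⟨ψ⟩ := nonempty_mulAut_equiv_GL (p := 2) (W := W)
    (fun x => Subtype.ext (h.el.2 x (hW.1 x.2))) hWc
  refine ⟨(MulEquiv.ofBijective (W.normalizerMonoidHom.comp (inclusion (inf_le_right : K ≤ _)))
    ⟨(injective_iff_map_eq_one _).2 fun k e => Subtype.ext (triv k k.2.1.1 ((cz k).1 k.2.1.2)
      fun w hw => congrArg Subtype.val (DFunLike.congr_fun e (⟨w, hw⟩ : W))), fun σ => ?_⟩).trans ψ⟩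
  let π : U →* W := MonoidHom.mk' (fun u => ⟨if (u : G) ∈ W then u else u * z, by
    split_ifs with h1; exacts [h1, hW.2 u u.2 z hz h1 hzW]⟩)
    fun u v => Subtype.ext (h.ite_mul hW hz u.2 v.2)
  have π1 : ∀ u : U, ∀ hu : (u : G) ∈ W, π u = ⟨u, hu⟩ := fun u hu => Subtype.ext (if_pos hu)
  obtain ⟨m, hm, e⟩ := h.realize' (MonoidHom.id U * (inclusion hW.1).comp π *
    (inclusion hW.1).comp (σ.toMonoidHom.comp π)) fun u e => by
      have e' : (u : G) * π u * σ (π u) = 1 := congrArg Subtype.val e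
      have h1 : (u : G) ∈ W := (mul_mem_cancel_right (π u).2).1
        ((mul_mem_cancel_right (σ (π u)).2).1 (e' ▸ one_mem W))
      rw [π1 u h1, h.sq u u.2, one_mul] at e'
      have h2 : (⟨u, h1⟩ : W) = 1 := σ.map_eq_one_iff.1 (Subtype.ext e')
      exact Subtype.ext (congrArg (fun x : W => (x : G)) h2)
  have e1 : ∀ w (hw : w ∈ W), m * w * m⁻¹ = σ ⟨w, hw⟩ := fun w hw => by
    have e' : m * w * m⁻¹ = w * π ⟨w, hW.1 hw⟩ * σ (π ⟨w, hW.1 hw⟩) := e ⟨w, hW.1 hw⟩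
    rwa [π1 _ hw, h.sq w (hW.1 hw), one_mul] at e'
  have e2 : m * z * m⁻¹ = z := by
    have e' : m * z * m⁻¹ = z * π ⟨z, hz⟩ * σ (π ⟨z, hz⟩) := e ⟨z, hz⟩
    have : π ⟨z, hz⟩ = 1 := Subtype.ext ((if_neg hzW).trans zz)
    simpa [this] using e'
  exact ⟨⟨m, ⟨hm, (cz m).2 e2⟩, mem_normalizer_of_conj_le (conj_le_iff_forall.2 fun w hw =>
    e1 w hw ▸ (σ ⟨w, hw⟩).2)⟩, MulEquiv.ext fun w => Subtype.ext (e1 w w.2)⟩

end Cfsg.Agent.Cls
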