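import Cfsg.Agent.Cls.Holo

/-! The centraliser of a transvection in `SL_{n+2}(2)`. -/

set_option autoImplicit false
set_option linter.unusedSectionVars false
set_option linter.unusedVariables false

namespace Cfsg.Agent.Cls

open Cfsg Subgroup Cfsg.Agent.GT Matrix

variable {n : ℕ}

/-- the block matrix with first row `(1, r)` and lower right block `A` -/
def blkM (r : Fin n → ZMod 2) (A : Matrix (Fin n) (Fin n) (ZMod 2)) :
    Matrix (Fin (n + 1)) (Fin (n + 1)) (ZMod 2) :=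
  Matrix.of (Fin.cons (Fin.cons 1 r) fun i => Fin.cons 0 (A i))

theorem blkM_mul (r s : Fin n → ZMod 2) (A B : Matrix (Fin n) (Fin n) (ZMod 2)) :
    blkM r A * blkM s B = blkM (s + r ᵥ* B) (A * B) := by
  ext i j
  refine Fin.cases ?_ (fun i => ?_) i <;> refine Fin.cases ?_ (fun j => ?_) j <;>
    simp [blkM, Matrix.mul_apply, Fin.sum_univ_succ, vecMul, dotProduct]

theorem blkM_one : blkM (0 : Fin n → ZMod 2) 1 = 1 := by
  ext i j
  refine Fin.cases ?_ (fun i => ?_) i <;> refine Fin.cases ?_ (fun j => ?_) j <;>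
    simp [blkM, Matrix.one_apply, eq_comm, Fin.succ_ne_zero]

theorem det_blkM (r : Fin n → ZMod 2) (A : Matrix (Fin n) (Fin n) (ZMod 2)) :
    (blkM r A).det = A.det := by
  rw [Matrix.det_succ_column_zero, Fin.sum_univ_succ]
  simp only [blkM, of_apply, Fin.cons_zero, Fin.cons_succ, mul_zero, zero_mul, Finset.sum_const_zero,
    add_zero, Fin.val_zero, pow_zero, one_mul, Fin.succAbove_zero]
  rfl

theorem blkM_inj {r s : Fin n → ZMod 2} {A B : Matrix (Fin n) (Fin n) (ZMod 2)}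
    (h : blkM r A = blkM s B) : r = s ∧ A = B :=
  ⟨funext fun j => by simpa [blkM] using congrFun (congrFun h 0) j.succ,
    Matrix.ext fun i j => by simpa [blkM] using congrFun (congrFun h i.succ) j.succ⟩

/-- as an element of the special linear group -/
def blk (r : Fin n → ZMod 2) (A : SpecialLinearGroup (Fin n) (ZMod 2)) :
    SpecialLinearGroup (Fin (n + 1)) (ZMod 2) := ⟨blkM r A, by rw [det_blkM, A.2]⟩

theorem blk_mul (r s : Fin n → ZMod 2) (A B : SpecialLinearGroup (Fin n) (ZMod 2)) :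
    blk r A * blk s B = blk (s + r ᵥ* B.1) (A * B) := Subtype.ext (blkM_mul r s A B)

theorem blk_inj {r s : Fin n → ZMod 2} {A B : SpecialLinearGroup (Fin n) (ZMod 2)}
    (h : blk r A = blk s B) : r = s ∧ A = B :=
  (blkM_inj (congrArg Subtype.val h)).imp_right Subtype.ext

/-- the unipotent radical -/
def blkU (n : ℕ) : Multiplicative (Fin n → ZMod 2) →* SpecialLinearGroup (Fin (n + 1)) (ZMod 2) :=
  MonoidHom.mk' (fun r => blk r.toAdd 1) fun r s => by
    rw [blk_mul]; simp [add_comm]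

/-- the Levi factor -/
def blkL (n : ℕ) :
    SpecialLinearGroup (Fin n) (ZMod 2) →* SpecialLinearGroup (Fin (n + 1)) (ZMod 2) :=
  MonoidHom.mk' (fun A => blk 0 A) fun r s => by
    rw [blk_mul]; simp

theorem blkU_inj : Function.Injective (blkU n) := fun r s h => (blk_inj h).1

theorem blk_conj (A : SpecialLinearGroup (Fin n) (ZMod 2)) (r : Fin n → ZMod 2) :
    (blkL n A)⁻¹ * blkU n (.ofAdd r) * blkL n A = blkU n (.ofAdd (r ᵥ* A.1)) := by
  rw [mul_assoc, inv_mul_eq_iff_eq_mul]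
  change blk r 1 * blk 0 A = blk 0 A * blk (r ᵥ* A.1) 1
  simp [blk_mul]

theorem det_eq_one_of_isUnit {A : Matrix (Fin n) (Fin n) (ZMod 2)} (h : IsUnit A) : A.det = 1 := by
  have := ((Matrix.isUnit_iff_isUnit_det A).1 h).ne_zero
  revert this
  generalize A.det = x
  decide +revert

theorem hol_blk (hn : 1 ≤ n) : Hol (blkU (n + 1)).range (blkL (n + 1)).range n := by
  have cj : ∀ (A : SpecialLinearGroup (Fin (n + 1)) (ZMod 2)) r, blkL _ A * blkU _ r * (blkL _ A)⁻¹ =
      blkU _ (.ofAdd (r.toAdd ᵥ* (A⁻¹).1)) := fun A r => by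
    rw [← blk_conj, map_inv, inv_inv]; rfl
  let e := MonoidHom.ofInjective (blkU_inj (n := n + 1))
  refine ⟨⟨inferInstance, ?_⟩, ?_, hn, le_norm_iff.2 ?_, ?_, fun φ => ?_⟩
  · rintro _ ⟨r, rfl⟩
    rw [← map_pow, show r ^ 2 = 1 from ?_, map_one]
    exact Multiplicative.toAdd.injective (by ext i; simp [two_smul, CharTwo.add_self_eq_zero])
  · rw [← Nat.card_congr e.toEquiv]; simp
  · rintro _ ⟨A, rfl⟩ _ ⟨r, rfl⟩
    exact ⟨_, (cj A r).symm⟩
  · rintro _ ⟨A, rfl⟩ h
    have : A⁻¹ = 1 := Subtype.ext (Matrix.ext_iff_vecMul.2 fun r => by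
      have := h _ ⟨.ofAdd r, rfl⟩
      rw [cj] at this
      simpa using blkU_inj this)
    rw [inv_eq_one.1 this, map_one]
  · let ψ := (e.trans φ).trans e.symm
    let f : (Fin (n + 1) → ZMod 2) →+ (Fin (n + 1) → ZMod 2) :=
      AddMonoidHom.mk' (fun r => (ψ (.ofAdd r)).toAdd) fun r s => by simp [ofAdd_add]
    obtain ⟨A, hA⟩ := Matrix.toLinearMapRight'.surjective (f.toZModLinearMap 2)
    have hA' : ∀ r, r ᵥ* A = (ψ (.ofAdd r)).toAdd := fun r => LinearMap.congr_fun hA r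
    have hu : IsUnit A := vecMul_injective_iff_isUnit.1 fun r s h => by
      simpa [hA'] using h
    obtain ⟨B, rfl⟩ : ∃ B : SpecialLinearGroup (Fin (n + 1)) (ZMod 2), B.1 = A :=
      ⟨⟨_, det_eq_one_of_isUnit hu⟩, rfl⟩
    refine ⟨blkL _ B⁻¹, ⟨_, rfl⟩, fun u => ?_⟩
    obtain ⟨r, rfl⟩ := e.surjective u
    rw [show (e r).1 = blkU _ r from rfl, cj, inv_inv, hA']
    exact congrArg Subtype.val (e.apply_symm_apply (φ (e r))).symm

theorem cent_le_blk (z : SpecialLinearGroup (Fin (n + 2)) (ZMod 2))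
    (hz : z.1 = Matrix.transvection 0 1 1) :
    z ∈ (blkU (n + 1)).range ∧ z ≠ 1 ∧ C1[z] ≤ (blkU (n + 1)).range ⊔ (blkL (n + 1)).range := by
  refine ⟨⟨.ofAdd (Pi.single 0 1), Subtype.ext ?_⟩, fun e => ?_, fun g hg => ?_⟩
  · rw [hz]
    change blkM (Pi.single 0 1) 1 = _
    ext i j
    refine Fin.cases ?_ (fun i => ?_) i <;> refine Fin.cases ?_ (fun j => ?_) j <;>
      simp [blkM, transvection, Matrix.one_apply, eq_comm, Fin.succ_ne_zero, single,
        Pi.single_apply]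
    rw [← Fin.succ_zero_eq_one]
    simp only [Fin.succ_inj]
  · have := congrFun (congrFun hz 0) 1
    simp [e, transvection] at this
  · have h1 : g.1 * z.1 = z.1 * g.1 :=
      congrArg (fun x : SpecialLinearGroup (Fin (n + 2)) (ZMod 2) => x.1) (mem_cent1.1 hg)
    simp only [hz, transvection, mul_add, add_mul, mul_one, one_mul, add_right_inj] at h1
    have h2 : ∀ i : Fin (n + 1), g.1 i.succ 0 = 0 := fun i => by
      simpa [Fin.succ_ne_zero] using congrFun (congrFun h1 i.succ) 1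
    have h3 : g.1 0 0 * (g.1.submatrix Fin.succ Fin.succ).det = 1 := by
      have := g.2
      rw [Matrix.det_succ_column_zero, Fin.sum_univ_succ] at this
      simpa [h2] using this
    have h4 : ∀ x y : ZMod 2, x * y = 1 → x = 1 ∧ y = 1 := by decide
    obtain ⟨h5, h6⟩ := h4 _ _ h3
    have h7 : g = blkL _ ⟨_, h6⟩ * blkU _ (.ofAdd fun j => g.1 0 j.succ) := by
      refine Subtype.ext ((blkM_mul 0 (fun j => g.1 0 j.succ) _ 1).trans ?_).symm
      ext i j
      refine Fin.cases ?_ (fun i => ?_) i <;> refine Fin.cases ?_ (fun j => ?_) j <;>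
        simp [blkM, h2, h5]
    rw [h7]
    exact mul_mem (mem_sup_right ⟨_, rfl⟩) (mem_sup_left ⟨_, rfl⟩)

theorem nonempty_GL_equiv_SL : Nonempty (GL (Fin n) (ZMod 2) ≃* SpecialLinearGroup (Fin n) (ZMod 2)) :=
  ⟨(MulEquiv.ofBijective SpecialLinearGroup.toGL ⟨SpecialLinearGroup.toGL_injective, fun g =>
    ⟨⟨g.1, det_eq_one_of_isUnit g.isUnit⟩, Units.ext rfl⟩⟩).symm⟩

end Cfsg.Agent.Cls
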