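import Cfsg.Agent.GT.PStab5
import Cfsg.Agent.GT.Constt
import Cfsg.Agent.GT.Transfer
import Cfsg.Agent.PG.Misc
import Cfsg.Agent.PG.Critical

/-! Solvable groups with cyclic Sylow `p`-subgroups (`p` odd): `p`-regular elements. -/

set_option autoImplicit false
set_option linter.unusedSectionVars false

namespace Cfsg.Agent.TwoGen

open Subgroup Cfsg.Agent.GT

universe u

variable {G : Type u} [Group G] [Finite G] {p : ℕ} {H : Subgroup G} {a b c g k v : G}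

/-- `p`-regular elements -/
abbrev Rg (p : ℕ) (x : G) : Prop := PiNat {p}ᶜ (orderOf x)

/-- all `p`-subgroups of `H` are cyclic -/
def CycS (p : ℕ) (H : Subgroup G) : Prop := ∀ T : Subgroup G, T ≤ H → IsPGroup p T → IsCyclic T

theorem card_zpowers_eq (ha : orderOf a = p) : Nat.card (zpowers a) = p := by
  rw [Nat.card_zpowers, ha]

theorem isPGroup_zpowers_of (ha : orderOf a = p) : IsPGroup p (zpowers a) :=
  isPGroup_of_card_eq_prime (card_zpowers_eq ha)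

theorem ne_one_of_orderOf (hp : p.Prime) (ha : orderOf a = p) : a ≠ 1 := by
  rintro rfl
  rw [orderOf_one] at ha
  exact hp.one_lt.ne ha

theorem not_rg_of_orderOf (hp : p.Prime) (ha : orderOf a = p) : ¬ Rg p a := by
  rw [Rg, ha, piNat_single_compl_iff hp]
  exact fun h => h dvd_rfl

theorem base_facts (hp : p.Prime) (hp2 : p ≠ 2) (hs : Group.IsSolvable H)
    (h1 : piCoreOf {p}ᶜ H = ⊥) {S : Subgroup G} (hS : IsPiHallOf {p} S H) (hc : IsCyclic S)
    (ha : orderOf a = p) (haH : a ∈ H) :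
    H ≤ N[zpowers a] ∧ (∀ b ∈ H, b ^ p = 1 → b ∈ zpowers a) ∧
      ∀ c ∈ H, Rg p c → c ≠ 1 → ∀ v ∈ zpowers a, Rg p (c * v) := by
  haveI := Fact.mk hp
  have hT := piCoreOf_le_hall hS
  have hST : S = piCoreOf {p} H := le_antisymm
    ((le_inf hS.le ((comm_iff_le_cent.1 (isMulCommutative_of_isCyclic hc)).trans
      (cent_anti hT))).trans (inf_cent_piCoreOf_le hs h1)) hT
  have hn : H ≤ N[S] := hST ▸ self_le_norm_piCoreOf _ _
  have haS : a ∈ S := hS.mem_of_normal hn haH (by rw [ha]; exact piNat_single_self hp)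
  have hV : zpowers a = omegaOne p S :=
    PG.eq_omegaOne_of_isCyclic hp hc (zpowers_le.2 haS) (card_zpowers_eq ha)
  have hVn : H ≤ N[zpowers a] := hV ▸ PG.le_norm_omegaOne hn
  refine ⟨hVn, fun b hb hbp => ?_, fun c hcH hc1 hc2 v hv => ?_⟩
  · rw [hV]
    exact PG.mem_omegaOne (hS.mem_of_normal hn hb
      ((piNat_single_self hp).of_dvd (orderOf_dvd_of_pow_eq_one hbp))) hbp
  have hcn : zpowers c ≤ N[zpowers a] := (zpowers_le.2 hcH).trans hVn
  have hH : IsPiHallOf {p} (zpowers a) (zpowers a ⊔ zpowers c) :=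
    isPiHallOf_sup_left (Or.inr hcn) (isPi_of_isPGroup hp (isPGroup_zpowers_of ha))
      (isPiSubgroup_zpowers_iff.2 hc1)
  have hw := hH.constt_mem (sup_le le_normalizer hcn)
    (mul_mem (mem_sup_right (mem_zpowers c)) (mem_sup_left hv))
  by_contra hne
  have hw1 : constt {p} (c * v) ≠ 1 := fun e => hne (constt_eq_one_iff.1 e)
  have h2 : Commute (constt {p} (c * v)) c := by
    have e1 := commute_constt {p} (c * v)
    have e2 := commute_of_mem_zpowers hw hv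
    have := e1.mul_right e2.inv_right
    rwa [mul_inv_cancel_right] at this
  have h3 : c ∈ C[omegaOne p S] := by
    rw [← hV, cent_eq_cent1_of_card_prime (by rw [card_zpowers_eq ha]; exact hp) hw hw1, mem_cent1]
    exact h2.eq.symm
  have h4 := PG.mem_cent_of_mem_cent_omegaOne hp2 (syl_isPGroup hp hS) (hn hcH)
    ((piNat_single_compl_iff_coprime hp).1 hc1) h3
  rw [hST] at h4
  exact hc2 (eq_one_of_piNat_orderOf ((piCoreOf_isPi {p} H).orderOf
    (inf_cent_piCoreOf_le hs h1 ⟨hcH, h4⟩)) hc1)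

theorem rg_iff_of_kr {Q : Type*} [Group Q] [Finite Q] {f : H →* Q}
    (hk : IsPiSubgroup {p}ᶜ (kr f)) (hg : g ∈ H) : Rg p (f ⟨g, hg⟩) ↔ Rg p g := by
  have e1 := constt_map f {p} ⟨g, hg⟩
  have e2 : constt {p} g = (constt {p} (⟨g, hg⟩ : H) : H) := constt_map H.subtype {p} ⟨g, hg⟩
  rw [Rg, Rg, ← constt_eq_one_iff, ← constt_eq_one_iff, e1, e2]
  constructor
  · intro h
    have h1 : ((constt {p} (⟨g, hg⟩ : H) : H) : G) ∈ kr f := (mem_kr' (Subtype.prop _)).2 h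
    exact eq_one_of_piNat_orderOf (e2 ▸ piNat_constt {p} g) (hk.orderOf h1)
  · intro h
    rw [show constt {p} (⟨g, hg⟩ : H) = 1 from Subtype.ext h, map_one]

theorem CycS.facts (hp : p.Prime) (hp2 : p ≠ 2) (hs : Group.IsSolvable H) (hc : CycS p H)
    (ha : orderOf a = p) (haH : a ∈ H) :
    H ≤ N[piCoreOf {p}ᶜ H ⊔ zpowers a] ∧
      (∀ b ∈ H, b ^ p = 1 → b ∈ piCoreOf {p}ᶜ H ⊔ zpowers a) ∧
      (∀ c ∈ H, Rg p c → c ∉ piCoreOf {p}ᶜ H → ∀ v ∈ zpowers a, Rg p (c * v)) ∧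
      ∀ k ∈ piCoreOf {p}ᶜ H, ∀ v ∈ zpowers a, Rg p (k * v) → v = 1 := by
  obtain ⟨Q, _, _, f, -, hk⟩ := exists_quo' H (piCoreOf {p}ᶜ H) (piCoreOf_le _ _)
    (self_le_norm_piCoreOf _ _)
  have hkp : IsPiSubgroup {p}ᶜ (kr f) := hk ▸ piCoreOf_isPi _ _
  obtain ⟨S, hS⟩ := exists_syl hp H
  have hVH : zpowers a ≤ H := zpowers_le.2 haH
  have hVp := isPi_of_isPGroup hp (isPGroup_zpowers_of ha)
  have ha' : orderOf (f ⟨a, haH⟩) = p := by
    rw [← Nat.card_zpowers, ← im_zpowers haH, card_im_of_inf_eq_bot hVH (hVp.inf_eq_bot hkp),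
      card_zpowers_eq ha]
  obtain ⟨h1, h2, h3⟩ := base_facts hp hp2 (solvable_im hs) (piCoreOf_im_eq_bot le_rfl hk)
    (hS.im (f := f) le_rfl) (cyclic_im (hc S hS.le (syl_isPGroup hp hS))) ha'
    (mem_im_of_mem haH haH)
  rw [← im_zpowers haH] at h1 h2 h3
  refine ⟨?_, fun b hb hbp => ?_, fun c hcH hc1 hc2 v hv => ?_, fun k hkK v hv h => ?_⟩
  · rwa [im_le_norm_iff le_rfl hVH, hk, sup_comm] at h1
  · have := h2 _ (mem_im_of_mem hb hb) (by
      rw [← map_pow, show (⟨b, hb⟩ : H) ^ p = 1 from Subtype.ext hbp, map_one])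
    rwa [mem_im_iff_mem_sup hb hVH, hk, sup_comm] at this
  · have := h3 _ (mem_im_of_mem hcH hcH) ((rg_iff_of_kr hkp hcH).2 hc1)
      (fun e => hc2 (hk ▸ (mem_kr' hcH).2 e)) _ (mem_im_of_mem (hVH hv) hv)
    rw [← map_mul] at this
    exact (rg_iff_of_kr hkp (mul_mem hcH (hVH hv))).1 this
  · have hkH := piCoreOf_le _ _ hkK
    have e : f ⟨k * v, mul_mem hkH (hVH hv)⟩ = f ⟨v, hVH hv⟩ := by
      rw [show (⟨k * v, mul_mem hkH (hVH hv)⟩ : H) = ⟨k, hkH⟩ * ⟨v, hVH hv⟩ from rfl, map_mul,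
        (mem_kr' hkH).1 (hk ▸ hkK), one_mul]
    have := (rg_iff_of_kr hkp (mul_mem hkH (hVH hv))).2 h
    rw [e, rg_iff_of_kr hkp] at this
    exact eq_one_of_piNat_orderOf (hVp.orderOf hv) this

theorem CycS.exists_mul (hp : p.Prime) (hp2 : p ≠ 2) (hs : Group.IsSolvable H) (hc : CycS p H)
    (ha : orderOf a = p) (haH : a ∈ H) (hg : g ∈ H) :
    ∃ k ∈ piCoreOf {p}ᶜ H, ∃ n ∈ H ⊓ N[zpowers a], g = k * n := by
  have hVH : zpowers a ≤ H := zpowers_le.2 haH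
  have hn : zpowers a ≤ N[piCoreOf {p}ᶜ H] := hVH.trans (self_le_norm_piCoreOf _ _)
  have h1 := frattini_arg hp (isPiHallOf_sup_right (Or.inr hn) (piCoreOf_isPi _ _)
    (isPi_of_isPGroup hp (isPGroup_zpowers_of ha))) (sup_le (piCoreOf_le _ _) hVH)
    (hc.facts hp hp2 hs ha haH).1
  rw [sup_assoc, sup_eq_right.2 (le_inf hVH le_normalizer)] at h1
  rw [← h1] at hg
  exact (mem_sup_of_le_norm' (inf_le_left.trans (self_le_norm_piCoreOf _ _))).1 hg

end Cfsg.Agent.TwoGen
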