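import Cfsg.Agent.Cls.TwoGenA
import Cfsg.Agent.Char.Burnside
import Cfsg.Agent.BG.S03c

/-! A finite group in which any two elements generate a solvable subgroup is solvable. -/

set_option autoImplicit false
set_option linter.unusedSectionVars false

namespace Cfsg.Agent.TwoGen

open Subgroup Cfsg.Agent.GT

universe u

/-- A minimal simple group that is not generated by two elements; `p ≥ 5` divides its order. -/
structure Hyp (G : Type u) [Group G] (p : ℕ) : Prop where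
  simple : IsSimpleGroup G
  ncomm : ¬ IsMulCommutative G
  sol : ∀ K : Subgroup G, K ≠ ⊤ → Group.IsSolvable K
  two : ∀ x y : G, zpowers x ⊔ zpowers y ≠ ⊤
  prime : p.Prime
  five : 5 ≤ p
  dvd : p ∣ Nat.card G

variable {G : Type u} [Group G] [Finite G] {p : ℕ} {H M U S T : Subgroup G} {a b c g k v : G}

namespace Hyp

theorem ne_two (h : Hyp G p) : p ≠ 2 := by have := h.five; omega

theorem exists_order (h : Hyp G p) : ∃ a : G, orderOf a = p := by
  haveI := Fact.mk h.prime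
  exact exists_prime_orderOf_dvd_card' p h.dvd

theorem eq_top_of_normal (h : Hyp G p) (hn : ⊤ ≤ N[H]) (h1 : H ≠ ⊥) : H = ⊤ := by
  haveI := h.simple
  exact ((normal_iff_top_le_norm.2 hn).eq_bot_or_eq_top).resolve_left h1

theorem norm_ne_top (h : Hyp G p) (hU : IsPGroup p U) (h1 : U ≠ ⊥) : N[U] ≠ ⊤ := by
  intro e
  haveI := h.simple
  haveI := Fact.mk h.prime
  have := h.eq_top_of_normal e.ge h1
  subst this
  exact Cl.not_isPGroup_of_simple h.ncomm (hU.of_equiv topEquiv)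

/-- an element that lies in `O_{p'}` of all subgroups `⟨y, g⟩` is trivial -/
theorem eq_one_of_forall (h : Hyp G p) {y : G}
    (hb : ∀ g : G, b ∈ piCoreOf {p}ᶜ (zpowers y ⊔ zpowers g)) : b = 1 := by
  let B : Subgroup G :=
    { carrier := {b | ∀ g : G, Rg p g ↔ Rg p (g * b)}
      one_mem' := fun g => by rw [mul_one]
      mul_mem' := fun {x y} hx hy g => by rw [hx g, hy (g * x), mul_assoc]
      inv_mem' := fun {x} hx g => by rw [hx (g * x⁻¹), inv_mul_cancel_right] }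
  have key : ∀ x : G, (∀ g : G, x ∈ piCoreOf {p}ᶜ (zpowers y ⊔ zpowers g)) →
      ∀ g : G, Rg p g → Rg p (g * x) := fun x hx g hg => by
    have h1 : IsPiSubgroup {p}ᶜ (zpowers g ⊔ piCoreOf {p}ᶜ (zpowers y ⊔ zpowers g)) :=
      (isPiSubgroup_zpowers_iff.2 hg).sup (piCoreOf_isPi _ _)
        (Or.inl (le_sup_right.trans (self_le_norm_piCoreOf _ _)))
    exact h1.orderOf (mul_mem (mem_sup_left (mem_zpowers g)) (mem_sup_right (hx g)))
  have hbB : b ∈ B := fun g => ⟨key b hb g, fun hg => by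
    have := key b⁻¹ (fun g => inv_mem (hb g)) _ hg
    rwa [mul_inv_cancel_right] at this⟩
  by_contra hne
  have hn : ⊤ ≤ N[B] := le_norm_iff.2 fun x _ z hz g => by
    have e1 : orderOf (g * (x * z * x⁻¹)) = orderOf (x⁻¹ * g * x * z) := by
      rw [← orderOf_conj x (x⁻¹ * g * x * z)]; congr 1; group
    have e2 : orderOf g = orderOf (x⁻¹ * g * x) := by
      rw [← orderOf_conj x (x⁻¹ * g * x)]; congr 1; group
    rw [Rg, Rg, e1, e2]
    exact hz _
  have hB := h.eq_top_of_normal hn (ne_bot_of_mem hbB hne)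
  obtain ⟨a, ha⟩ := h.exists_order
  have := (hB ▸ mem_top a : a ∈ B) 1
  rw [one_mul, Rg, orderOf_one] at this
  exact not_rg_of_orderOf h.prime ha (this.1 PiNat.one)

theorem core_cent1 (h : Hyp G p) (ha : PiNat {p} (orderOf a)) (ha1 : a ≠ 1) :
    piCoreOf {p}ᶜ C1[a] = ⊥ := by
  refine (eq_bot_iff_forall _).2 fun b hb => h.eq_one_of_forall (y := a * b) fun g => ?_
  have hc : Commute a b := (mem_cent1.1 (piCoreOf_le _ _ hb)).symm
  have hb' := (piCoreOf_isPi _ _).orderOf hb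
  have h1 : a ∈ zpowers (a * b) := by
    have := constt_mem_zpowers {p} (a * b)
    rwa [constt_eq_of_mul hc ha hb' rfl] at this
  have h2 : b ∈ zpowers (a * b) := by
    have := mul_mem (inv_mem h1) (mem_zpowers (a * b))
    rwa [inv_mul_cancel_left] at this
  have h3 := piCoreOf_compl_cent_le h.prime (h.sol _ (h.two (a * b) g))
    ((zpowers_le.2 h1).trans le_sup_left) ((isPGroup_zpowers_iff h.prime).2 ha)
  rw [cent_zpowers] at h3
  exact h3 (piCoreOf_inf_le inf_le_right ⟨hb, mem_sup_left h2, piCoreOf_le _ _ hb⟩)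

theorem core_norm (h : Hyp G p) (hU : IsPGroup p U) (h1 : U ≠ ⊥) : piCoreOf {p}ᶜ N[U] = ⊥ := by
  obtain ⟨a, ha, ha1⟩ := exists_ne_one_of_ne_bot
    (center_ne_bot_of_nilpotent (nilpotent_of_isPGroup h.prime hU) h1)
  have hap := (isPi_of_isPGroup h.prime hU).orderOf ha.1
  have hC : C1[a] ≠ ⊤ := fun e => h.norm_ne_top ((isPGroup_zpowers_iff h.prime).2 hap)
    (ne_bot_of_mem (mem_zpowers a) ha1) (eq_top_iff.2 (e.ge.trans
      ((cent_zpowers a).ge.trans (cent_le_norm _))))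
  have h2 := piCoreOf_compl_cent_eq_bot h.prime (h.sol _ hC) (mem_cent_iff_le_cent1.1 ha.2) hU
    (h.core_cent1 hap ha1)
  rw [inf_eq_right.2 (cent_le_cent1 ha.1)] at h2
  have h3 := piCoreOf_compl_norm_le_cent (H := ⊤) le_top (isPi_of_isPGroup h.prime hU)
  rw [top_inf_eq, top_inf_eq, h2] at h3
  exact le_bot_iff.1 h3

/-- the maximal `p`-local subgroups -/
def Mx (p : ℕ) (M : Subgroup G) : Prop := ∃ S, IsPiHallOf {p} S ⊤ ∧ M = N[zPuigOf S]

theorem syl_ne_bot (h : Hyp G p) (hS : IsPiHallOf {p} S ⊤) : S ≠ ⊥ :=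
  (syl_ne_bot_iff h.prime hS).2 (by rw [card_top]; exact h.dvd)

theorem Mx.ne_top (h : Hyp G p) (hM : Mx p M) : M ≠ ⊤ := by
  obtain ⟨S, hS, rfl⟩ := hM
  have hSp := syl_isPGroup h.prime hS
  exact h.norm_ne_top (hSp.to_le (zPuigOf_le S)) (zPuigOf_ne_bot h.prime hSp (h.syl_ne_bot hS))

theorem Mx.exists_syl (h : Hyp G p) (hM : Mx p M) (hU : IsPGroup p U) (hUM : U ≤ M) :
    ∃ S, IsPiHallOf {p} S ⊤ ∧ U ≤ S ∧ S ≤ M ∧ M = N[zPuigOf S] := by
  obtain ⟨S, hS, rfl⟩ := hM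
  have hSM : S ≤ N[zPuigOf S] := le_normalizer.trans (norm_le_norm_zPuigOf S)
  obtain ⟨g, hg, hU'⟩ := syl_exists_le_conj h.prime (syl_of_le hS hSM le_top) hU hUM
  refine ⟨_, syl_conj_mem hS (by rw [norm_top]; exact mem_top g), hU', conj_le_of_mem hg hSM, ?_⟩
  rw [← conj_zPuigOf, conj_eq_self hg]

theorem exists_Mx_aux (h : Hyp G p) (n : ℕ) : ∀ U T : Subgroup G, IsPGroup p U → U ≠ ⊥ →
    IsPiHallOf {p} T N[U] → Nat.card G - Nat.card T = n → ∃ M, Mx p M ∧ N[U] ≤ M := by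
  induction n using Nat.strong_induction_on with | _ n ih =>
  intro U T hU h1 hT hn
  have hTp := syl_isPGroup h.prime hT
  have hUT : U ≤ T := le_syl_of_norm h.prime hT hU le_normalizer hT.le
  have h2 : N[U] ≤ N[zPuigOf T] := sol5_Puig_center_normal h.prime h.five
    (h.sol _ (h.norm_ne_top hU h1)) hT (h.core_norm hU h1)
  obtain ⟨S, hS, hTS⟩ := exists_syl_ge h.prime hTp (le_top (a := T))
  rcases hTS.eq_or_lt with e | hlt
  · exact ⟨_, ⟨T, e ▸ hS, rfl⟩, h2⟩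
  have h3 := lt_inf_norm_of_isPGroup h.prime (syl_isPGroup h.prime hS) hlt
  obtain ⟨T', hT', h4⟩ := exists_syl_ge h.prime
    ((syl_isPGroup h.prime hS).to_le (inf_le_left : S ⊓ N[T] ≤ S))
    (inf_le_right.trans (norm_le_norm_zPuigOf T))
  have h5 := card_lt_of_lt (h3.trans_le h4)
  have h6 : Nat.card T' ≤ Nat.card G := card_le_card_group T'
  obtain ⟨M, hM, h7⟩ := ih _ (by omega) _ T' (hTp.to_le (zPuigOf_le T))
    (zPuigOf_ne_bot h.prime hTp (ne_bot_of_le h1 hUT)) hT' rfl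
  exact ⟨M, hM, h2.trans h7⟩

theorem exists_Mx (h : Hyp G p) (hU : IsPGroup p U) (h1 : U ≠ ⊥) : ∃ M, Mx p M ∧ N[U] ≤ M := by
  obtain ⟨T, hT⟩ := exists_syl h.prime N[U]
  exact h.exists_Mx_aux _ U T hU h1 hT rfl

theorem Mx_unique_aux (h : Hyp G p) (n : ℕ) : ∀ U M M' : Subgroup G, IsPGroup p U → U ≠ ⊥ →
    Mx p M → Mx p M' → U ≤ M → U ≤ M' → Nat.card G - Nat.card U = n → M = M' := by
  induction n using Nat.strong_induction_on with | _ n ih =>
  intro U M M' hU h1 hM hM' hUM hUM' hn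
  obtain ⟨S, hS, hUS, hSM, e⟩ := hM.exists_syl h hU hUM
  obtain ⟨S', hS', hUS', hSM', e'⟩ := hM'.exists_syl h hU hUM'
  have hSp := syl_isPGroup h.prime hS
  have hSp' := syl_isPGroup h.prime hS'
  rcases hUS.eq_or_lt with e1 | hlt
  · rw [e, e', ← e1, syl_eq_of_le h.prime (e1 ▸ hS) hSp' le_top hUS']
  rcases hUS'.eq_or_lt with e1 | hlt'
  · rw [e, e', ← e1, syl_eq_of_le h.prime (e1 ▸ hS') hSp le_top hUS]
  obtain ⟨L, hL, hNL⟩ := h.exists_Mx hU h1
  have key : ∀ S M : Subgroup G, IsPGroup p S → U < S → S ≤ M → Mx p M → M = L := by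
    intro S M hS hlt hSM hM
    have h3 := lt_inf_norm_of_isPGroup h.prime hS hlt
    have h5 := card_lt_of_lt h3
    have h6 : Nat.card ↥(S ⊓ N[U]) ≤ Nat.card G := card_le_card_group _
    exact ih _ (by omega) (S ⊓ N[U]) M L (hS.to_le inf_le_left) (ne_bot_of_le h1 h3.le) hM hL
      (inf_le_left.trans hSM) (inf_le_right.trans hNL) rfl
  rw [key S M hSp hlt hSM hM, key S' M' hSp' hlt' hSM' hM']

theorem Mx.norm_le (h : Hyp G p) (hM : Mx p M) (hU : IsPGroup p U) (h1 : U ≠ ⊥) (hUM : U ≤ M) :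
    N[U] ≤ M := by
  obtain ⟨L, hL, hNL⟩ := h.exists_Mx hU h1
  rw [h.Mx_unique_aux _ U M L hU h1 hM hL hUM (le_normalizer.trans hNL) rfl]
  exact hNL

theorem Mx.cycS (h : Hyp G p) (hM : Mx p M) (hH : H ≠ ⊤) (ha : orderOf a = p) (haH : a ∈ H)
    (haM : a ∈ M) (hn : ¬ H ≤ M) : CycS p H := by
  haveI := Fact.mk h.prime
  have hs := h.sol H hH
  have ha1 := ne_bot_of_mem (mem_zpowers a) (ne_one_of_orderOf h.prime ha)
  obtain ⟨T, hT, haT⟩ := exists_syl_ge h.prime (isPGroup_zpowers_of ha) (zpowers_le.2 haH)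
  have hTp := syl_isPGroup h.prime hT
  have hTM : T ≤ M := by
    obtain ⟨L, hL, hNL⟩ := h.exists_Mx hTp (ne_bot_of_le ha1 haT)
    rw [h.Mx_unique_aux _ _ M L (isPGroup_zpowers_of ha) ha1 hM hL (zpowers_le.2 haM)
      (haT.trans (le_normalizer.trans hNL)) rfl]
    exact le_normalizer.trans hNL
  suffices IsCyclic T by
    intro X hX hXp
    obtain ⟨g, -, hg⟩ := syl_exists_le_conj h.prime hT hXp hX
    exact cyc_of_le (PG.isCyclic_conj_iff.2 this) hg
  by_contra hc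
  obtain ⟨E, hET, -, hE, hE2⟩ := PG.exists_normal_elemAb_sq' h.ne_two hTp hc
  have hK : piCoreOf {p}ᶜ H ≤ M := by
    refine coprime_abelian_gen_cent1 (PG.elemAb_comm hE)
      (PG.not_isCyclic_of_elemAb_sq h.prime hE hE2)
      ((hET.trans hT.le).trans (self_le_norm_piCoreOf _ _))
      ((piCoreOf_isPi _ _).coprime' (hT.isPi.of_le hET)) fun e he he1 => inf_le_right.trans ?_
    exact ((cent_zpowers e).ge.trans (cent_le_norm _)).trans (hM.norm_le h
      (hTp.to_le (zpowers_le.2 (hET he))) (ne_bot_of_mem (mem_zpowers e) he1)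
      (zpowers_le.2 (hTM (hET he))))
  have h0 := hall_inf_piCore2Of hT
  have h1 : T ⊓ piCore2Of {p}ᶜ {p} H ≠ ⊥ := by
    intro e
    have h2 := inf_cent_le_piCore2Of_of_hall hs hT
    rw [e, cent_bot, inf_top_eq] at h2
    rw [inf_eq_left.2 (hT.le.trans h2)] at e
    exact ne_bot_of_le ha1 haT e
  have h3 := frattini_arg h.prime h0 (piCore2Of_le _ _ _) (self_le_norm_piCore2Of _ _ _)
  exact hn (h3.ge.trans (sup_le ((piCoreOf_sup_eq_piCore2Of h0).ge.trans
    (sup_le hK (inf_le_left.trans hTM))) (inf_le_right.trans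
    (hM.norm_le h (hTp.to_le inf_le_left) h1 (inf_le_left.trans hTM)))))

theorem exists_order_not_mem (h : Hyp G p) (hH : H ≠ ⊤) : ∃ b : G, orderOf b = p ∧ b ∉ H := by
  by_contra! hc
  obtain ⟨a, ha⟩ := h.exists_order
  let B : Subgroup G := closure {b | orderOf b = p}
  have hn : ⊤ ≤ N[B] := fun g _ => mem_normalizer_of_conj_le (by
    rw [MonoidHom.map_closure]
    refine closure_mono ?_
    rintro _ ⟨x, hx, rfl⟩
    exact (orderOf_conj g x).trans hx)
  have := h.eq_top_of_normal hn (ne_bot_of_mem (subset_closure ha) (ne_one_of_orderOf h.prime ha))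
  exact hH (eq_top_iff.2 (this.ge.trans ((closure_le _).2 hc)))

theorem cycS_top (h : Hyp G p) : CycS p (⊤ : Subgroup G) := by
  haveI := Fact.mk h.prime
  have hp := h.prime
  intro T _ hTp
  by_contra hc
  obtain ⟨E, hET, -, hE, hE2⟩ := PG.exists_normal_elemAb_sq' h.ne_two hTp hc
  have hnc := PG.not_isCyclic_of_elemAb_sq h.prime hE hE2
  have hE1 : E ≠ ⊥ := fun e => hnc (by rw [e]; infer_instance)
  obtain ⟨M, hM, hEM⟩ := h.exists_Mx (hTp.to_le hET) hE1
  replace hEM := le_normalizer.trans hEM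
  obtain ⟨b, hb, hbM⟩ := h.exists_order_not_mem (hM.ne_top h)
  have ho : ∀ x ∈ E, x ≠ 1 → orderOf x = p := fun x hx hx1 =>
    orderOf_eq_prime (PG.elemAb_pow hE hx) hx1
  have hcomm : ∀ x ∈ E, ∀ y ∈ E, x * y = y * x := isMulCommutative_iff_forall.1 (PG.elemAb_comm hE)
  have fa : ∀ x ∈ E, x ≠ 1 → ∀ c, c ∉ M → _ := fun x hx hx1 c hc =>
    (hM.cycS h (h.two x c) (ho x hx hx1) (mem_sup_left (mem_zpowers x)) (hEM hx)
      fun hle => hc (hle (mem_sup_right (mem_zpowers c)))).facts hp h.ne_two (h.sol _ (h.two x c))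
      (ho x hx hx1) (mem_sup_left (mem_zpowers x))
  have P1 : ∀ x ∈ E, x ≠ 1 → ∃ v ∈ zpowers x, v ≠ 1 ∧ Rg p (b * v) ∧
      ∀ w ∈ zpowers x, Rg p (b * w) → w = v := by
    intro x hx hx1
    obtain ⟨h1, h2, -, h4⟩ := fa x hx hx1 b hbM
    obtain ⟨k, hk, u, hu, e⟩ := (mem_sup_of_le_norm' (le_sup_left.trans
      (self_le_norm_piCoreOf _ _))).1 (h2 b (mem_sup_right (mem_zpowers b))
        (hb ▸ pow_orderOf_eq_one b))
    have h5 : Rg p (b * u⁻¹) := by
      rw [e, mul_inv_cancel_right]; exact (piCoreOf_isPi _ _).orderOf hk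
    refine ⟨u⁻¹, inv_mem hu, fun e' => not_rg_of_orderOf hp hb (by simpa [e'] using h5), h5,
      fun w hw h6 => ?_⟩
    rw [e, mul_assoc] at h6
    exact eq_inv_of_mul_eq_one_right (h4 k hk _ (mul_mem hu hw) h6)
  have P2 : ∀ x ∈ E, Rg p (b * x) → ∀ y ∈ E, Rg p (b * x * y) → ∀ v ∈ zpowers y,
      Rg p (b * x * v) := by
    intro x hx h1 y hy h2 v hv
    by_cases hy1 : y = 1
    · rw [hy1, zpowers_one_eq_bot, mem_bot] at hv
      rwa [hv, mul_one]
    have hc : b * x ∉ M := fun e => hbM (by simpa using mul_mem e (inv_mem (hEM hx)))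
    obtain ⟨-, -, h3, h4⟩ := fa y hy hy1 _ hc
    exact h3 _ (mem_sup_right (mem_zpowers _)) h1
      (fun hk => hy1 (h4 _ hk y (mem_zpowers y) h2)) v hv
  obtain ⟨e1, he1, he1'⟩ := exists_ne_one_of_ne_bot hE1
  obtain ⟨x, hx, hx1, hxR, -⟩ := P1 e1 he1 he1'
  have hxE : x ∈ E := zpowers_le.2 he1 hx
  obtain ⟨e2, he2, he2'⟩ : ∃ e2 ∈ E, e2 ∉ zpowers x := by
    by_contra! hc
    exact hnc (cyc_of_le inferInstance hc)
  have he21 : e2 ≠ 1 := fun e => he2' (e ▸ one_mem _)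
  obtain ⟨y, hy, hy1, hyR, -⟩ := P1 e2 he2 he21
  have hyE : y ∈ E := zpowers_le.2 he2 hy
  have hxy : x⁻¹ * y ≠ 1 := by
    intro e
    rw [inv_mul_eq_one] at e
    apply he2'
    rw [e, ← eq_zpowers_of_card_prime (by rw [card_zpowers_eq (ho e2 he2 he21)]; exact hp) hy hy1]
    exact mem_zpowers e2
  have hdE : x⁻¹ * y ∈ E := mul_mem (inv_mem hxE) hyE
  obtain ⟨w, hw, -, hwR, -⟩ := P1 _ hdE hxy
  have hwE : w ∈ E := zpowers_le.2 hdE hw
  obtain ⟨j, hj⟩ : ∃ j, p = 2 * j + 1 := hp.odd_of_ne_two h.ne_two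
  have h1 := P2 x hxE hxR _ hdE (by rwa [mul_assoc, mul_inv_cancel_left]) _ (pow_mem hw (j + 1))
  have h2 := P2 w hwE hwR (w⁻¹ * (x * w ^ (j + 1)))
    (mul_mem (inv_mem hwE) (mul_mem hxE (pow_mem hwE _)))
    (by rwa [mul_assoc, mul_inv_cancel_left, ← mul_assoc]) _ (pow_mem (mem_zpowers _) 2)
  have h3 : w * (w⁻¹ * (x * w ^ (j + 1))) ^ 2 = x ^ 2 := by
    have c : Commute x w := hcomm x hxE w hwE
    have e : w⁻¹ * (x * w ^ (j + 1)) = x * w ^ j := by
      rw [← mul_assoc, ← c.inv_right.eq, mul_assoc, pow_succ', inv_mul_cancel_left]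
    rw [e, (c.pow_right j).mul_pow, ← mul_assoc, ← (c.pow_left 2).eq, mul_assoc, ← pow_mul,
      ← pow_succ', show j * 2 + 1 = p by omega, PG.elemAb_pow hE hwE, mul_one]
  rw [mul_assoc, h3] at h2
  obtain ⟨v, -, -, -, hv⟩ := P1 x hxE hx1
  have h4 := (hv _ (pow_mem (mem_zpowers x) 2) h2).trans (hv _ (mem_zpowers x) hxR).symm
  rw [pow_two, mul_eq_left] at h4
  exact hx1 h4

end Hyp

end Cfsg.Agent.TwoGen
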