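import Cfsg.Agent.Cls.TwoGenB

/-! A finite group in which any two elements generate a solvable subgroup is solvable (end). -/

set_option autoImplicit false
set_option linter.unusedSectionVars false

namespace Cfsg.Agent.TwoGen

open Subgroup Cfsg.Agent.GT

universe u

variable {G : Type u} [Group G] [Finite G] {p : ℕ} {H L M U S T : Subgroup G}
  {a b c g k m t v : G}

/-- `c` lies in `O_{p'}(H)` for the proper subgroups `H` containing `a` and `c`. -/
def Lam (p : ℕ) (a c : G) : Prop := Rg p c ∧ ¬ Rg p (c * a)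

namespace Hyp

theorem cycS (h : Hyp G p) (H : Subgroup G) : CycS p H := fun T _ hT => h.cycS_top T le_top hT

theorem lam_iff (h : Hyp G p) (hH : H ≠ ⊤) (ha : orderOf a = p) (haH : a ∈ H) (hc : c ∈ H) :
    Lam p a c ↔ c ∈ piCoreOf {p}ᶜ H := by
  obtain ⟨-, -, h3, h4⟩ := (h.cycS H).facts h.prime h.ne_two (h.sol H hH) ha haH
  refine ⟨fun hl => by_contra fun hn => hl.2 (h3 c hc hl.1 hn a (mem_zpowers a)), fun hk =>
    ⟨(piCoreOf_isPi _ _).orderOf hk, fun h5 =>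
      ne_one_of_orderOf h.prime ha (h4 c hk a (mem_zpowers a) h5)⟩⟩

theorem zp_ne_bot (h : Hyp G p) (ha : orderOf a = p) : zpowers a ≠ ⊥ :=
  ne_bot_of_mem (mem_zpowers a) (ne_one_of_orderOf h.prime ha)

theorem normV_ne_top (h : Hyp G p) (ha : orderOf a = p) : N[zpowers a] ≠ ⊤ :=
  h.norm_ne_top (isPGroup_zpowers_of ha) (h.zp_ne_bot ha)

theorem coreV (h : Hyp G p) (ha : orderOf a = p) : piCoreOf {p}ᶜ N[zpowers a] = ⊥ :=
  h.core_norm (isPGroup_zpowers_of ha) (h.zp_ne_bot ha)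

theorem mem_of_pow (h : Hyp G p) (ha : orderOf a = p) (hb : b ∈ N[zpowers a]) (hp : b ^ p = 1) :
    b ∈ zpowers a := by
  have := ((h.cycS _).facts h.prime h.ne_two (h.sol _ (h.normV_ne_top ha)) ha
    (le_normalizer (mem_zpowers a))).2.1 b hb hp
  rwa [h.coreV ha, bot_sup_eq] at this

theorem zp_eq (h : Hyp G p) (ha : orderOf a = p) (hb : b ∈ zpowers a) (hb1 : b ≠ 1) :
    zpowers a = zpowers b :=
  eq_zpowers_of_card_prime (by rw [card_zpowers_eq ha]; exact h.prime) hb hb1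

theorem eq_one_of_comm (h : Hyp G p) (ha : orderOf a = p) (hc : Rg p c) (hca : Commute c a) :
    c = 1 := by
  have hcN : c ∈ N[zpowers a] := cent_le_norm _ (by rw [cent_zpowers, mem_cent1]; exact hca)
  by_contra hne
  have h1 := ((h.cycS _).facts h.prime h.ne_two (h.sol _ (h.normV_ne_top ha)) ha
    (le_normalizer (mem_zpowers a))).2.2.1 c hcN hc (by rwa [h.coreV ha, mem_bot]) a
    (mem_zpowers a)
  have h2 := PiNat.orderOf_mul ((Commute.refl c).mul_right hca).inv_left (PiNat.orderOf_inv hc) h1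
  rw [inv_mul_cancel_left] at h2
  exact not_rg_of_orderOf h.prime ha h2

theorem lam_one (h : Hyp G p) (ha : orderOf a = p) : Lam p a 1 :=
  ⟨by rw [Rg, orderOf_one]; exact PiNat.one, by rw [one_mul]; exact not_rg_of_orderOf h.prime ha⟩

theorem lam_conj (h : Hyp G p) (ha : orderOf a = p) (hk : Lam p a k) (hv : v ∈ zpowers a) :
    k * v * k⁻¹ * v⁻¹ ∈ piCoreOf {p}ᶜ (zpowers a ⊔ zpowers k) := by
  have h1 := (h.lam_iff (h.two a k) ha (mem_sup_left (mem_zpowers a))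
    (mem_sup_right (mem_zpowers k))).1 hk
  have := mul_mem h1 (conj_mem_of_le_norm (self_le_norm_piCoreOf _ _) (mem_sup_left hv)
    (inv_mem h1))
  simpa only [mul_assoc] using this

theorem lam_unique (h : Hyp G p) (ha : orderOf a = p) (hk : Lam p a k) (hm : m ∈ N[zpowers a])
    (hk' : Lam p a (k * m)) : m = 1 := by
  have hv : m * a * m⁻¹ ∈ zpowers a := conj_mem_of_le_norm le_rfl hm (mem_zpowers a)
  have h1 := (piCoreOf_isPi _ _).orderOf (h.lam_conj ha hk' (mem_zpowers a))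
  have h2 := ((h.cycS _).facts h.prime h.ne_two (h.sol _ (h.two a k)) ha
    (mem_sup_left (mem_zpowers a))).2.2.2 _ (h.lam_conj ha hk hv) _
    (mul_mem hv (inv_mem (mem_zpowers a))) (by
      rw [Rg]; convert h1 using 2; group)
  have hc : Commute m a := by
    rw [mul_inv_eq_one, mul_inv_eq_iff_eq_mul] at h2; exact h2
  by_contra hne
  have h3 : p ∣ orderOf m := by
    by_contra hd
    exact hne (h.eq_one_of_comm ha ((piNat_single_compl_iff h.prime).2 hd) hc)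
  have h4 : orderOf (m ^ (orderOf m / p)) = p := orderOf_pow_orderOf_div (orderOf_pos m).ne' h3
  have h5 := h.zp_eq ha (h.mem_of_pow ha (pow_mem hm _) (orderOf_dvd_iff_pow_eq_one.1 h4.dvd))
    (ne_one_of_orderOf h.prime h4)
  have haH : a ∈ zpowers k ⊔ zpowers m := mem_sup_right
    (zpowers_le.2 (pow_mem (mem_zpowers m) _) (h5 ▸ mem_zpowers a))
  have hkH : k ∈ zpowers k ⊔ zpowers m := mem_sup_left (mem_zpowers k)
  have h6 := mul_mem (inv_mem ((h.lam_iff (h.two k m) ha haH hkH).1 hk))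
    ((h.lam_iff (h.two k m) ha haH (mul_mem hkH (mem_sup_right (mem_zpowers m)))).1 hk')
  rw [inv_mul_cancel_left] at h6
  exact hne (h.eq_one_of_comm ha ((piCoreOf_isPi _ _).orderOf h6) hc)

theorem exists_lam_mul (h : Hyp G p) (ha : orderOf a = p) (g : G) :
    ∃ k ∈ zpowers a ⊔ zpowers g, Lam p a k ∧ ∃ n ∈ N[zpowers a], g = k * n := by
  have haH : a ∈ zpowers a ⊔ zpowers g := mem_sup_left (mem_zpowers a)
  obtain ⟨k, hk, n, hn, e⟩ := (h.cycS _).exists_mul h.prime h.ne_two (h.sol _ (h.two a g)) ha haH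
    (mem_sup_right (mem_zpowers g))
  exact ⟨k, piCoreOf_le _ _ hk, (h.lam_iff (h.two a g) ha haH (piCoreOf_le _ _ hk)).2 hk, n,
    hn.2, e⟩

theorem exists_coatom (h : Hyp G p) (ha : orderOf a = p) (hk : Lam p a k)
    (hm : m ∈ N[zpowers a]) : ∃ L : Subgroup G, IsCoatom L ∧ a ∈ L ∧ k ∈ L ∧ m ∈ L := by
  obtain ⟨k', hk', hl, n, hn, e⟩ := h.exists_lam_mul ha (k * m)
  obtain ⟨L, hL, hle⟩ := exists_coatom_ge (h.two a (k * m))
  have e1 : k' = k * (m * n⁻¹) := by rw [← mul_assoc, e, mul_inv_cancel_right]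
  have e2 := h.lam_unique ha hk (mul_mem hm (inv_mem hn)) (e1 ▸ hl)
  rw [e2, mul_one] at e1
  have h1 : k ∈ L := e1 ▸ hle hk'
  refine ⟨L, hL, hle (mem_sup_left (mem_zpowers a)), h1, ?_⟩
  simpa using mul_mem (inv_mem h1) (hle (mem_sup_right (mem_zpowers (k * m))))

theorem exists_coatom' (h : Hyp G p) (ha : orderOf a = p) (hb : orderOf b = p)
    (hm : m ∈ N[zpowers a]) : ∃ L : Subgroup G, IsCoatom L ∧ a ∈ L ∧ b ∈ L ∧ m ∈ L := by
  have haH : a ∈ zpowers a ⊔ zpowers b := mem_sup_left (mem_zpowers a)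
  obtain ⟨k, hk, u, hu, e⟩ := (mem_sup_of_le_norm' (le_sup_left.trans
    (self_le_norm_piCoreOf _ _))).1 (((h.cycS _).facts h.prime h.ne_two (h.sol _ (h.two a b)) ha
      haH).2.1 b (mem_sup_right (mem_zpowers b)) (hb ▸ pow_orderOf_eq_one b))
  obtain ⟨L, hL, h1, h2, h3⟩ := h.exists_coatom ha
    ((h.lam_iff (h.two a b) ha haH (piCoreOf_le _ _ hk)).2 hk) hm
  exact ⟨L, hL, h1, e ▸ mul_mem h2 (zpowers_le.2 h1 hu), h3⟩

theorem core_nilpotent (h : Hyp G p) (hH : H ≠ ⊤) (ha : orderOf a = p) (haH : a ∈ H) :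
    Group.IsNilpotent (piCoreOf {p}ᶜ H) := by
  refine BG.prime_regular_sol_nil ((zpowers_le.2 haH).trans (self_le_norm_piCoreOf _ _))
    (solv_of_le (h.sol H hH) (piCoreOf_le _ _)) (by rw [card_zpowers_eq ha]; exact h.prime)
    ((eq_bot_iff_forall _).2 fun c hc => h.eq_one_of_comm ha ((piCoreOf_isPi _ _).orderOf hc.1) ?_)
  have := hc.2
  rw [cent_zpowers] at this
  exact mem_cent1.1 this

theorem coatom_eq_aux (h : Hyp G p) (ha : orderOf a = p) (n : ℕ) : ∀ L M : Subgroup G,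
    IsCoatom L → IsCoatom M → a ∈ L → a ∈ M → piCoreOf {p}ᶜ L ⊓ piCoreOf {p}ᶜ M ≠ ⊥ →
    Nat.card G - Nat.card ↥(piCoreOf {p}ᶜ L ⊓ piCoreOf {p}ᶜ M) = n → L = M := by
  induction n using Nat.strong_induction_on with | _ n ih =>
  intro L M hL hM haL haM hD hn
  set D := piCoreOf {p}ᶜ L ⊓ piCoreOf {p}ᶜ M with hDdef
  have hN : N[D] ≠ ⊤ := fun e => hL.1 (eq_top_iff.2 ((h.eq_top_of_normal e.ge hD).ge.trans
    (inf_le_left.trans (piCoreOf_le _ _))))
  obtain ⟨X, hX, hDX⟩ := exists_coatom_ge hN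
  have haX : a ∈ X := hDX (zpowers_le.1 (le_norm_inf
    ((zpowers_le.2 haL).trans (self_le_norm_piCoreOf _ _))
    ((zpowers_le.2 haM).trans (self_le_norm_piCoreOf _ _))))
  have key : ∀ Y : Subgroup G, IsCoatom Y → a ∈ Y → D ≤ piCoreOf {p}ᶜ Y → Y = X := by
    intro Y hY haY hle
    rcases hle.eq_or_lt with e | hlt
    · exact (hY.le_iff_eq hX.1).1 ((self_le_norm_piCoreOf {p}ᶜ Y).trans (e ▸ hDX)) |>.symm
    have h1 := lt_inf_norm_of_nilpotent (h.core_nilpotent hY.1 ha haY) hlt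
    have h2 : D < piCoreOf {p}ᶜ Y ⊓ piCoreOf {p}ᶜ X := h1.trans_le fun c hc =>
      ⟨hc.1, (h.lam_iff hX.1 ha haX (hDX hc.2)).1
        ((h.lam_iff hY.1 ha haY (piCoreOf_le _ _ hc.1)).2 hc.1)⟩
    have h3 := card_lt_of_lt h2
    have h4 : Nat.card ↥(piCoreOf {p}ᶜ Y ⊓ piCoreOf {p}ᶜ X) ≤ Nat.card G := card_le_card_group _
    exact ih _ (by omega) Y X hY hX haY haX (ne_bot_of_le hD h2.le) rfl
  rw [key L hL haL inf_le_left, key M hM haM inf_le_right]

theorem inf_le_normV (h : Hyp G p) (ha : orderOf a = p) (hL : IsCoatom L) (hM : IsCoatom M)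
    (haL : a ∈ L) (haM : a ∈ M) (hne : L ≠ M) : L ⊓ M ≤ N[zpowers a] := by
  have hH : L ⊓ M ≠ ⊤ := fun e => hL.1 (eq_top_iff.2 (e.ge.trans inf_le_left))
  have h1 : piCoreOf {p}ᶜ (L ⊓ M) = ⊥ := by
    by_contra hc
    refine hne (h.coatom_eq_aux ha _ L M hL hM haL haM (ne_bot_of_le hc fun c hc => ?_) rfl)
    have h2 := piCoreOf_le _ _ hc
    have h3 := (h.lam_iff hH ha ⟨haL, haM⟩ h2).2 hc
    exact ⟨(h.lam_iff hL.1 ha haL h2.1).1 h3, (h.lam_iff hM.1 ha haM h2.2).1 h3⟩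
  have := ((h.cycS _).facts h.prime h.ne_two (h.sol _ hH) ha ⟨haL, haM⟩).1
  rwa [h1, bot_sup_eq] at this

theorem mem_of_coatoms (h : Hyp G p) (ha : orderOf a = p) (hb : orderOf b = p) (hL : IsCoatom L)
    (hM : IsCoatom M) (haL : a ∈ L) (haM : a ∈ M) (hbL : b ∈ L) (hbM : b ∈ M) (hne : L ≠ M) :
    zpowers a = zpowers b :=
  h.zp_eq ha (h.mem_of_pow ha (h.inf_le_normV ha hL hM haL haM hne ⟨hbL, hbM⟩)
    (hb ▸ pow_orderOf_eq_one b)) (ne_one_of_orderOf h.prime hb)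

theorem norm_of_not_mem (h : Hyp G p) (ha : orderOf a = p) (hb : orderOf b = p)
    (hc : orderOf c = p) (hab : zpowers a ≠ zpowers b) (hta : t ∈ N[zpowers a])
    (htb : t ∈ N[zpowers b]) (hL : IsCoatom L) (haL : a ∈ L) (hbL : b ∈ L) (hcL : c ∉ L) :
    t ∈ N[zpowers c] := by
  obtain ⟨X, hX, h1, h2, h3⟩ := h.exists_coatom' ha hc hta
  obtain ⟨Y, hY, h4, h5, h6⟩ := h.exists_coatom' hb hc htb
  refine h.inf_le_normV hc hX hY h2 h5 ?_ ⟨h3, h6⟩
  rintro rfl
  exact hab (h.mem_of_coatoms ha hb hX hL h1 haL h4 hbL fun e => hcL (e ▸ h2))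

theorem eq_one_of_norm_two (h : Hyp G p) (ha : orderOf a = p) (hb : orderOf b = p)
    (hab : zpowers a ≠ zpowers b) (hta : t ∈ N[zpowers a]) (htb : t ∈ N[zpowers b]) : t = 1 := by
  obtain ⟨L, hL, haL, hbL, -⟩ := h.exists_coatom' ha hb hta
  obtain ⟨c, hc, hcL⟩ := h.exists_order_not_mem hL.1
  have htc := h.norm_of_not_mem ha hb hc hab hta htb hL haL hbL hcL
  obtain ⟨M, hM, haM, hcM, -⟩ := h.exists_coatom' ha hc hta
  have hac : zpowers a ≠ zpowers c := fun e => hcL (zpowers_le.2 haL (e ▸ mem_zpowers c))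
  have key : ∀ d : G, orderOf d = p → t ∈ N[zpowers d] := by
    intro d hd
    by_cases hdL : d ∈ L
    · by_cases hdM : d ∈ M
      · rwa [← h.mem_of_coatoms ha hd hL hM haL haM hdL hdM fun e => hcL (e ▸ hcM)]
      · exact h.norm_of_not_mem ha hc hd hac hta htc hM haM hcM hdM
    · exact h.norm_of_not_mem ha hb hd hab hta htb hL haL hbL hdL
  let B : Subgroup G := ⨅ d : {d : G // orderOf d = p}, N[zpowers d.1]
  have hn : ⊤ ≤ N[B] := le_norm_iff.2 fun g _ x hx => mem_iInf.2 fun d => by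
    have h1 := mem_iInf.1 hx ⟨g⁻¹ * d.1 * g⁻¹⁻¹, (orderOf_conj g⁻¹ d.1).trans d.2⟩
    rw [← conj_zpowers, ← conj_normalizer, mem_conj, inv_inv] at h1
    exact h1
  by_contra hne
  have := h.eq_top_of_normal hn (ne_bot_of_mem (mem_iInf.2 fun d => key d.1 d.2) hne)
  exact h.normV_ne_top ha (eq_top_iff.2 (this.ge.trans (iInf_le _ (⟨a, ha⟩ : {d : G // orderOf d = p}))))

theorem exists_reg (h : Hyp G p) (ha : orderOf a = p) :
    ∃ t ∈ N[zpowers a], Rg p t ∧ t ≠ 1 := by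
  haveI := Fact.mk h.prime
  haveI := h.simple
  by_contra! hc
  obtain ⟨P, hP⟩ := (isPGroup_zpowers_of ha).exists_le_sylow
  have hS := syl_top_of_sylow h.prime P
  have hcy := h.cycS_top P le_top P.isPGroup'
  refine Cl.not_normalizer_le_centralizer h.ncomm h.dvd P fun g hg => ?_
  have h1 : zpowers g ≤ N[zpowers a] := by
    rw [PG.eq_omegaOne_of_isCyclic h.prime hcy hP (card_zpowers_eq ha)]
    exact PG.le_norm_omegaOne (zpowers_le.2 hg)
  have h2 := hc _ (h1 (constt_mem_zpowers {p}ᶜ g)) (piNat_constt _ g)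
  rw [constt_eq_one_iff, compl_compl] at h2
  exact comm_iff_le_cent.1 (isMulCommutative_of_isCyclic hcy) (zpowers_le.1
    (le_syl_of_le_norm h.prime hS ((isPGroup_zpowers_iff h.prime).2 h2) le_top (zpowers_le.2 hg)))

theorem false (h : Hyp G p) : False := by
  obtain ⟨a, ha⟩ := h.exists_order
  obtain ⟨t, ht, htR, ht1⟩ := h.exists_reg ha
  obtain ⟨g, hg⟩ : ∃ g, g ∉ N[zpowers a] := by
    by_contra! hc
    exact h.normV_ne_top ha (eq_top_iff.2 fun g _ => hc g)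
  obtain ⟨k, -, hk, n, hn, e⟩ := h.exists_lam_mul ha g
  obtain ⟨L, hL, haL, hkL, htL⟩ := h.exists_coatom ha hk ht
  have hK : piCoreOf {p}ᶜ L ≠ ⊥ := ne_bot_of_mem ((h.lam_iff hL.1 ha haL hkL).1 hk)
    (by rintro rfl; exact hg (by rwa [e, one_mul]))
  obtain ⟨V, q, hV, hmin, hq, hVe⟩ := exists_minNormal_elementary hK (self_le_norm_piCoreOf _ _)
    (solv_of_le (h.sol L hL.1) (piCoreOf_le _ _))
  have hVp := (piCoreOf_isPi {p}ᶜ L).of_le hV
  have hqp : q ≠ p := by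
    rintro rfl
    exact (isPiSubgroup_single_compl_iff hq).1 hVp
      (prime_dvd_card_of_isPGroup hq (isPGroup_of_elementary hVe) hmin.ne_bot)
  have hC : V ⊓ C[zpowers t] ≠ ⊥ := by
    intro hC
    have h1 := BG.semiregular_cent_compl (K := zpowers a) hq hVe (zpowers_le.2 ht) (by
      intro x hx hx1
      refine (eq_bot_iff_forall _).2 fun v hv => by_contra fun hv1 => hx1 ?_
      refine h.eq_one_of_comm (a := v) ?_ (PiNat.orderOf_of_mem_zpowers htR hx)
        (mem_cent1.1 hv.2).symm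
      rw [← Nat.card_zpowers, ← h.zp_eq ha hv.1 hv1, card_zpowers_eq ha])
      ((sup_le (zpowers_le.2 haL) (zpowers_le.2 htL)).trans hmin.norm) (by
        rw [card_zpowers_eq ha]
        exact fun hd => hqp ((Nat.prime_dvd_prime_iff_eq hq h.prime).1 hd)) hC
    exact hmin.ne_bot ((eq_bot_iff_forall _).2 fun v hv =>
      h.eq_one_of_comm ha (hVp.orderOf hv) (h1 (mem_zpowers a) v hv))
  obtain ⟨v, hv, hv1⟩ := exists_ne_one_of_ne_bot hC
  have hvt : v * t = t * v := (hv.2 t (mem_zpowers t)).symm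
  refine ht1 (h.eq_one_of_norm_two ha ((orderOf_conj v a).trans ha) (fun e => hv1 ?_) ht ?_)
  · refine h.lam_unique ha (h.lam_one ha) (PG.mem_norm_zpowers_of_conj_mem (e ▸ mem_zpowers _)) ?_
    rw [one_mul]
    exact (h.lam_iff hL.1 ha haL (piCoreOf_le _ _ (hV hv.1))).2 (hV hv.1)
  · rw [← conj_zpowers, ← conj_normalizer, mem_conj, mul_assoc, ← hvt, inv_mul_cancel_left]
    exact ht

end Hyp

theorem solvable_of_two_generated (G : Type u) [Group G] [Finite G]
    (h : ∀ a b : G, Group.IsSolvable (closure ({a, b} : Set G))) : Group.IsSolvable G := by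
  refine Char.isSolvable_of_min
    (fun H _ => ∀ a b : H, Group.IsSolvable (closure ({a, b} : Set H))) ?_ ?_ ?_ G h
  · intro H _ _ K hH a b
    have := hH a b
    rw [← K.coe_subtype, ← Set.image_pair, ← MonoidHom.map_closure] at this
    exact (isSolvable_map_iff K.subtype_injective).1 this
  · intro H _ _ N _ hH a b
    obtain ⟨a, rfl⟩ := QuotientGroup.mk'_surjective N a
    obtain ⟨b, rfl⟩ := QuotientGroup.mk'_surjective N b
    rw [← Set.image_pair, ← MonoidHom.map_closure]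
    exact isSolvable_map (hH a b) _
  · intro H _ _ hs hH hsol
    by_contra hc
    have hns : ¬ Group.IsSolvable H := fun e => hc ⟨⟨IsSimpleGroup.comm_iff_isSolvable.2 e⟩⟩
    obtain ⟨p, hp, h5, hd⟩ := Char.exists_prime_five_le_of_not_solvable hns
    refine Hyp.false (G := H) (p := p) ⟨hs, hc, hsol, fun x y e => hns ?_, hp, h5, hd⟩
    have := hH x y
    rwa [Set.insert_eq, Subgroup.closure_union, ← zpowers_eq_closure, ← zpowers_eq_closure, e,
      isSolvable_top_iff] at this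

end Cfsg.Agent.TwoGen
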