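import Cfsg.Agent.GT.Fitting
import Cfsg.Agent.GT.CoprimeGen

/-! Failure of factorization modules over the field with two elements for solvable groups:
transvection calculus and Glauberman's structure theorem (case p = 2). -/

set_option autoImplicit false
set_option linter.unusedSectionVars false
set_option linter.unusedVariables false

namespace Cfsg.Agent.Cls
open Cfsg Subgroup Cfsg.Agent.GT

universe u v

theorem zmod2_cases (c : ZMod 2) : c = 0 ∨ c = 1 := by revert c; decide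

variable {X : Type u} [Group X] {V : Type v} [AddCommGroup V] [Module (ZMod 2) V]

theorem add_self_zmod2 (v : V) : v + v = 0 := by
  have h : (1 + 1 : ZMod 2) = 0 := by decide
  rw [← one_smul (ZMod 2) v, ← add_smul, h, zero_smul]

/-- `a` acts as the transvection `v ↦ v + f v • u`. -/
structure Tv (ρ : X →* Module.End (ZMod 2) V) (a : X) (u : V) (f : V →ₗ[ZMod 2] ZMod 2) : Prop where
  sq : a * a = 1
  ne : u ≠ 0
  act : ∀ v, ρ a v = v + f v • u
  ex : ∃ v, f v = 1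

/-- the standing hypotheses -/
structure FFH (ρ : X →* Module.End (ZMod 2) V) : Prop where
  solv : Group.IsSolvable X
  core : piCoreOf {2} (⊤ : Subgroup X) = ⊥
  ker : ∀ c a : X, ρ c = 1 → a * a = 1 → a * c * a⁻¹ = c⁻¹ → c = 1

variable {ρ : X →* Module.End (ZMod 2) V} {a b c : X} {u w : V} {f g : V →ₗ[ZMod 2] ZMod 2}

theorem rho_mul (ρ : X →* Module.End (ZMod 2) V) (a b : X) (v : V) : ρ (a * b) v = ρ a (ρ b v) := by
  rw [map_mul]; rfl

theorem rho_inv_apply (ρ : X →* Module.End (ZMod 2) V) (a : X) (v : V) : ρ a⁻¹ (ρ a v) = v := by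
  rw [← rho_mul, inv_mul_cancel, map_one]; rfl

theorem rho_apply_inv (ρ : X →* Module.End (ZMod 2) V) (a : X) (v : V) : ρ a (ρ a⁻¹ v) = v := by
  rw [← rho_mul, mul_inv_cancel, map_one]; rfl

theorem Tv.inv (h : Tv ρ a u f) : a⁻¹ = a := inv_eq_of_mul_eq_one_right h.sq

theorem Tv.self (h : Tv ρ a u f) : f u = 0 := by
  obtain ⟨v, hv⟩ := h.ex
  have h1 : ρ a (ρ a v) = v := by rw [← rho_mul, h.sq, map_one]; rfl
  rw [h.act, h.act, map_add, map_smul, hv] at h1
  rcases zmod2_cases (f u) with h0 | h0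
  · exact h0
  · exfalso
    rw [h0] at h1
    have h2 : (1 + (1 : ZMod 2) • (1 : ZMod 2)) = 0 := by decide
    rw [h2, zero_smul, add_zero, one_smul] at h1
    exact h.ne (by simpa using h1)

theorem Tv.fix_iff (h : Tv ρ a u f) {v : V} : ρ a v = v ↔ f v = 0 := by
  rw [h.act]
  rcases zmod2_cases (f v) with h0 | h0 <;> simp [h0, h.ne]

theorem Tv.fix_self (h : Tv ρ a u f) : ρ a u = u := h.fix_iff.2 h.self

theorem Tv.ne_one (h : Tv ρ a u f) : a ≠ 1 := by
  rintro rfl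
  obtain ⟨v, hv⟩ := h.ex
  have := h.fix_iff.1 (show ρ 1 v = v by rw [map_one]; rfl)
  rw [hv] at this; exact absurd this (by decide)

theorem Tv.cnj (h : Tv ρ a u f) (x : X) : Tv ρ (x * a * x⁻¹) (ρ x u) (f ∘ₗ ρ x⁻¹) where
  sq := by
    calc x * a * x⁻¹ * (x * a * x⁻¹) = x * (a * a) * x⁻¹ := by group
      _ = 1 := by rw [h.sq]; group
  ne := fun h0 => h.ne (by rw [← rho_inv_apply ρ x u, h0, map_zero])
  act := fun v => by
    rw [rho_mul, rho_mul, h.act, map_add, map_smul, rho_apply_inv]; rfl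
  ex := by
    obtain ⟨v, hv⟩ := h.ex
    exact ⟨ρ x v, by rw [LinearMap.comp_apply, rho_inv_apply, hv]⟩

theorem Tv.vec_eq (h : Tv ρ a u f) (h' : Tv ρ a w g) : u = w := by
  obtain ⟨v, hv⟩ := h.ex
  have h1 := h.act v
  rw [h'.act, hv, one_smul] at h1
  rcases zmod2_cases (g v) with h0 | h0
  · rw [h0, zero_smul] at h1; exact absurd (by simpa using h1) h.ne
  · rw [h0, one_smul] at h1; exact (add_left_cancel h1).symm

theorem FFH.eq_of_act (H : FFH ρ) (ha : a * a = 1) (hb : b * b = 1) (h : ∀ v, ρ a v = ρ b v) : a = b := by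
  have hai : a⁻¹ = a := inv_eq_of_mul_eq_one_right ha
  have hbi : b⁻¹ = b := inv_eq_of_mul_eq_one_right hb
  have h1 : a * b = 1 := by
    refine H.ker _ a ?_ ha ?_
    · ext v
      rw [rho_mul, h, ← rho_mul, hb, map_one]
    · rw [mul_inv_rev, hai, hbi, ← mul_assoc, ha, one_mul]
  calc a = a * (b * b) := by rw [hb, mul_one]
    _ = b := by rw [← mul_assoc, h1, one_mul]

theorem FFH.comm (H : FFH ρ) (ha : Tv ρ a u f) (hb : Tv ρ b w g) (h1 : f w = 0) (h2 : g u = 0) :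
    a * b = b * a := by
  have h3 : b * a * b⁻¹ = a := by
    refine H.eq_of_act (ha.cnj b).sq ha.sq fun v => ?_
    rw [(ha.cnj b).act, ha.act, hb.fix_iff.2 h2, LinearMap.comp_apply, hb.inv, hb.act, map_add,
      map_smul, h1, smul_zero, add_zero]
  calc a * b = b * a * b⁻¹ * b := by rw [h3]
    _ = b * a := by group

theorem FFH.pow_four (H : FFH ρ) (ha : Tv ρ a u f) (hb : Tv ρ b w g) (h2 : g u = 0) :
    (a * b) ^ 4 = 1 := by
  have hc := ha.cnj b
  rw [hb.fix_iff.2 h2] at hc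
  have h3 := H.comm ha hc ha.self hc.self
  have h4 := hc.sq
  rw [hb.inv] at h3 h4
  calc (a * b) ^ 4 = a * (b * a * b) * (a * (b * a * b)) := by simp only [pow_succ, pow_zero]; group
    _ = a * ((b * a * b) * a) * (b * a * b) := by group
    _ = a * (a * (b * a * b)) * (b * a * b) := by rw [← h3]
    _ = (a * a) * ((b * a * b) * (b * a * b)) := by group
    _ = 1 := by rw [ha.sq, h4, one_mul]

theorem eq_one_of_odd_of_pow_four (ho : Odd (orderOf c)) (h : c ^ 4 = 1) : c = 1 := by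
  have h1 : orderOf c ∣ 2 ^ 2 := orderOf_dvd_of_pow_eq_one h
  have h2 : (orderOf c).Coprime (2 ^ 2) := Nat.Coprime.pow_right _ ((Nat.coprime_two_right).2 ho)
  exact orderOf_eq_one_iff.1 (Nat.Coprime.eq_one_of_dvd h2 h1)

theorem FFH.pair (H : FFH ρ) (ha : Tv ρ a u f) (hb : Tv ρ b w g) (hne : a ≠ b)
    (ho : Odd (orderOf (a * b))) : f w = 1 ∧ g u = 1 := by
  have hne' : a * b ≠ 1 := fun h => hne (by rw [← ha.inv]; exact inv_eq_of_mul_eq_one_right h)
  constructor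
  · rcases zmod2_cases (f w) with h0 | h0
    · exfalso
      have h1 := H.pow_four hb ha h0
      have h2 : b * a = (a * b)⁻¹ := by rw [mul_inv_rev, ha.inv, hb.inv]
      rw [h2, inv_pow, inv_eq_one] at h1
      exact hne' (eq_one_of_odd_of_pow_four ho h1)
    · exact h0
  · rcases zmod2_cases (g u) with h0 | h0
    · exact absurd (eq_one_of_odd_of_pow_four ho (H.pow_four ha hb h0)) hne'
    · exact h0

theorem FFH.braid (H : FFH ρ) (ha : Tv ρ a u f) (hb : Tv ρ b w g) (h1 : f w = 1) (h2 : g u = 1) :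
    a * b * a = b * a * b := by
  have h3 := hb.cnj a
  have h4 := ha.cnj b
  rw [ha.inv] at h3
  rw [hb.inv] at h4
  refine H.eq_of_act h3.sq h4.sq fun v => ?_
  rw [h3.act, h4.act, LinearMap.comp_apply, LinearMap.comp_apply, ha.act, ha.act, hb.act, hb.act,
    map_add, map_add, map_smul, map_smul, h1, h2, one_smul, one_smul, smul_eq_mul, smul_eq_mul, mul_one,
    mul_one, add_comm w u, add_comm (g v)]

/-- the class of `a` under the Fitting subgroup -/
def cls (a : X) : Set X := {b | ∃ x ∈ fittingOf (⊤ : Subgroup X), b = x * a * x⁻¹}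

theorem self_mem_cls (a : X) : a ∈ cls a := ⟨1, one_mem _, by simp⟩

theorem fit_conj_mem {x : X} (hx : x ∈ fittingOf (⊤ : Subgroup X)) (y : X) :
    y * x * y⁻¹ ∈ fittingOf (⊤ : Subgroup X) :=
  conj_mem_of_le_norm (self_le_norm_fittingOf ⊤) (mem_top y) hx

theorem cls_conj {x : X} (hx : x ∈ fittingOf (⊤ : Subgroup X)) (hb : b ∈ cls a) : x * b * x⁻¹ ∈ cls a := by
  obtain ⟨y, hy, rfl⟩ := hb
  exact ⟨x * y, mul_mem hx hy, by group⟩

theorem cls_symm (hb : b ∈ cls a) : a ∈ cls b := by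
  obtain ⟨y, hy, rfl⟩ := hb
  exact ⟨y⁻¹, inv_mem hy, by group⟩

theorem cls_trans (hb : b ∈ cls a) (hc : c ∈ cls b) : c ∈ cls a := by
  obtain ⟨y, hy, rfl⟩ := hc
  exact cls_conj hy hb

theorem cls_eq (hb : b ∈ cls a) : cls b = cls a :=
  Set.ext fun _ => ⟨cls_trans hb, cls_trans (cls_symm hb)⟩

theorem mem_cls_conj (y : X) (hb : b ∈ cls a) : y * b * y⁻¹ ∈ cls (y * a * y⁻¹) := by
  obtain ⟨x, hx, rfl⟩ := hb
  exact ⟨y * x * y⁻¹, fit_conj_mem hx y, by group⟩

theorem mul_mem_fit (ha : a * a = 1) (hb : b ∈ cls a) (hc : c ∈ cls a) :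
    b * c ∈ fittingOf (⊤ : Subgroup X) := by
  obtain ⟨x, hx, rfl⟩ := hb
  obtain ⟨y, hy, rfl⟩ := hc
  have hai : a⁻¹ = a := inv_eq_of_mul_eq_one_right ha
  have : x * a * x⁻¹ * (y * a * y⁻¹) = x * (a * (x⁻¹ * y) * a⁻¹) * y⁻¹ := by rw [hai]; group
  rw [this]
  exact mul_mem (mul_mem hx (fit_conj_mem (mul_mem (inv_mem hx) hy) a)) (inv_mem hy)

theorem Tv.of_cls (h : Tv ρ a u f) (hb : b ∈ cls a) : ∃ w g, Tv ρ b w g := by
  obtain ⟨x, hx, rfl⟩ := hb
  exact ⟨_, _, h.cnj x⟩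

theorem sq_of_cls (ha : a * a = 1) (hb : b ∈ cls a) : b * b = 1 := by
  obtain ⟨x, hx, rfl⟩ := hb
  calc x * a * x⁻¹ * (x * a * x⁻¹) = x * (a * a) * x⁻¹ := by group
    _ = 1 := by rw [ha]; group

theorem conj_mem_cls (ha : a * a = 1) (hb : b ∈ cls a) (hc : c ∈ cls a) : b * c * b ∈ cls a := by
  have hbi : b⁻¹ = b := inv_eq_of_mul_eq_one_right (sq_of_cls ha hb)
  have h := cls_conj (mul_mem_fit ha hb hc) hc
  rwa [show b * c * c * (b * c)⁻¹ = b * c * b⁻¹ by group, hbi] at h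

variable [Finite X]

theorem FFH.odd (H : FFH ρ) {x : X} (hx : x ∈ fittingOf (⊤ : Subgroup X)) : Odd (orderOf x) := by
  have h1 : fittingOf (⊤ : Subgroup X) ≤ piCoreOf {2}ᶜ ⊤ :=
    fittingOf_le_piCoreOf (by rw [compl_compl]; exact H.core)
  have h2 := (piCoreOf_isPi {2}ᶜ (⊤ : Subgroup X)).orderOf (h1 hx)
  rw [piNat_single_compl_iff Nat.prime_two] at h2
  exact Nat.odd_iff.2 (by omega)

theorem FFH.solv' (H : FFH ρ) : Group.IsSolvable (⊤ : Subgroup X) := isSolvable_top_iff.2 H.solv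

theorem FFH.eq_one_of_cent (H : FFH ρ) (ha : a * a = 1) (h : a ∈ C[fittingOf (⊤ : Subgroup X)]) : a = 1 := by
  have h1 := H.odd (inf_cent_fittingOf_le H.solv' (mem_inf.2 ⟨mem_top a, h⟩))
  refine eq_one_of_odd_of_pow_four h1 ?_
  calc a ^ 4 = a * a * (a * a) := by simp only [pow_succ, pow_zero]; group
    _ = 1 := by rw [ha, one_mul]

theorem FFH.exists_ne (H : FFH ρ) (ha : Tv ρ a u f) : ∃ b ∈ cls a, b ≠ a := by
  by_contra h
  push Not at h
  refine ha.ne_one (H.eq_one_of_cent ha.sq fun x hx => ?_)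
  have := h _ ⟨x, hx, rfl⟩
  calc x * a = x * a * x⁻¹ * x := by group
    _ = a * x := by rw [this]

theorem FFH.pair_cls (H : FFH ρ) {d : X} (hd : d * d = 1) (ha : Tv ρ a u f) (hb : Tv ρ b w g)
    (h1 : a ∈ cls d) (h2 : b ∈ cls d) (hne : a ≠ b) : f w = 1 ∧ g u = 1 :=
  H.pair ha hb hne (H.odd (mul_mem_fit hd h1 h2))

theorem FFH.braid_cls (H : FFH ρ) {d : X} (hd : Tv ρ d u f) (h1 : a ∈ cls d) (h2 : b ∈ cls d) :
    a * b * a = b * a * b := by
  by_cases hne : a = b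
  · rw [hne]
  obtain ⟨_, _, ha⟩ := hd.of_cls h1
  obtain ⟨_, _, hb⟩ := hd.of_cls h2
  have := H.pair_cls hd.sq ha hb h1 h2 hne
  exact H.braid ha hb this.1 this.2

theorem FFH.three (H : FFH ρ) {d : X} (hd : Tv ρ d u f) (h1 : a ∈ cls d) (h2 : b ∈ cls d)
    (h3 : c ∈ cls d) (hab : a ≠ b) (hca : c ≠ a) (hcb : c ≠ b) : c = a * b * a := by
  obtain ⟨ua, fa, ha⟩ := hd.of_cls h1
  obtain ⟨ub, fb, hb⟩ := hd.of_cls h2
  obtain ⟨uc, fc, hc⟩ := hd.of_cls h3
  by_contra hne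
  have h4 := hb.cnj a
  rw [ha.inv] at h4
  have h5 := (H.pair_cls hd.sq hc h4 h3 (conj_mem_cls hd.sq h1 h2) hne).1
  rw [ha.act, (H.pair_cls hd.sq ha hb h1 h2 hab).1, one_smul, map_add,
    (H.pair_cls hd.sq hc hb h3 h2 hcb).1, (H.pair_cls hd.sq hc ha h3 h1 hca).1] at h5
  exact absurd h5 (by decide)

theorem fix_of_mul {b' : X} {w' : V} {g' : V →ₗ[ZMod 2] ZMod 2} (hb : Tv ρ b w g) (hb' : Tv ρ b' w' g')
    (h1 : g w' = 1) {v : V} (h : ρ (b * b') v = v) : g v = 0 ∧ g' v = 0 := by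
  rw [rho_mul, hb'.act, hb.act, map_add, map_smul, h1] at h
  have h2 := congrArg g h
  rw [map_add, map_add, map_smul, map_smul, h1, hb.self] at h2
  have h3 : g' v = 0 := by simpa using h2
  refine ⟨?_, h3⟩
  rw [h3] at h
  rcases zmod2_cases (g v) with h0 | h0
  · exact h0
  · rw [h0] at h; exact absurd (by simpa using h) hb.ne

theorem span_cases {u0 u2 w w' : V} {s t s' t' : ZMod 2} (h0 : u0 = t • w' + s • w)
    (h2 : u2 = t' • w' + s' • w) (n0 : u0 ≠ 0) (n2 : u2 ≠ 0) (n : u0 ≠ u2) :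
    w = u0 ∨ w = u2 ∨ w = u0 + u2 := by
  have e1 : w' + (w' + w) = w := by rw [← add_assoc, add_self_zmod2, zero_add]
  have e2 : w' + w + w' = w := by rw [add_comm, e1]
  rcases zmod2_cases s with rfl | rfl <;> rcases zmod2_cases t with rfl | rfl <;>
    rcases zmod2_cases s' with rfl | rfl <;> rcases zmod2_cases t' with rfl | rfl <;>
    simp only [zero_smul, one_smul, add_zero, zero_add] at h0 h2 <;> subst h0 <;> subst h2 <;>
    simp_all

theorem FFH.dich (H : FFH ρ) (ha : Tv ρ a u f) (hb : Tv ρ b w g) :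
    b ∈ cls a ∨ ∀ p ∈ cls a, ∀ u' f', Tv ρ p u' f' → g u' = 0 := by
  obtain ⟨b', hb'c, hb'n⟩ := H.exists_ne hb
  obtain ⟨w', g', hb'⟩ := hb.of_cls hb'c
  obtain ⟨e1, e2⟩ := H.pair_cls hb.sq hb hb' (self_mem_cls b) hb'c hb'n.symm
  have hy : b * b' ∈ fittingOf (⊤ : Subgroup X) := mul_mem_fit hb.sq (self_mem_cls b) hb'c
  have hact : ∀ v, ρ (b * b') v = v + (g' v • w' + (g v + g' v) • w) := fun v => by
    rw [rho_mul, hb'.act, hb.act, map_add, map_smul, e1, smul_eq_mul, mul_one, add_assoc]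
  have hy3 : (b * b') * (b * b') * (b * b') = 1 := by
    have := H.braid hb hb' e1 e2
    calc (b * b') * (b * b') * (b * b') = (b * b' * b) * (b' * b * b') := by group
      _ = (b * b' * b) * (b * b' * b) := by rw [← this]
      _ = b * b' * (b * b) * b' * b := by group
      _ = 1 := by rw [hb.sq, mul_one, mul_assoc b, hb'.sq, mul_one, hb.sq]
  set y := b * b' with hydef
  by_cases hfix : ∀ p ∈ cls a, y * p * y⁻¹ = p
  · refine Or.inr fun p hp u' f' hp' => ?_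
    have h1 := hp'.cnj y
    rw [hfix p hp] at h1
    exact (fix_of_mul hb hb' e1 (h1.vec_eq hp')).1
  left
  push Not at hfix
  obtain ⟨p0, hp0, hn0⟩ := hfix
  -- some member of the class has vector `w`
  have key : ∃ q ∈ cls a, ∃ fq, Tv ρ q w fq := by
    obtain ⟨u0, f0, t0⟩ := ha.of_cls hp0
    have t1 := t0.cnj y
    have t2 := t1.cnj y
    have hp1 := cls_conj hy hp0
    have hp2 := cls_conj hy hp1
    have n21 : y * (y * p0 * y⁻¹) * y⁻¹ ≠ y * p0 * y⁻¹ := fun h => hn0 (by simpa using h)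
    have n20 : y * (y * p0 * y⁻¹) * y⁻¹ ≠ p0 := fun h => hn0 (by
      calc y * p0 * y⁻¹ = y * (y * (y * p0 * y⁻¹) * y⁻¹) * y⁻¹ := by rw [h]
        _ = (y * y * y) * p0 * (y * y * y)⁻¹ := by group
        _ = p0 := by rw [hy3]; group)
    have h3 := H.three ha hp0 hp1 hp2 hn0.symm n20 n21
    have t2' := t1.cnj p0
    rw [t0.inv, ← h3] at t2'
    have h4 := t2.vec_eq t2'
    rw [t0.act, (H.pair_cls ha.sq t0 t1 hp0 hp1 hn0.symm).1, one_smul] at h4
    have h5 : ρ y (ρ y u0) = g' u0 • w' + (g u0 + g' u0) • w := by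
      rw [h4, hact u0, add_right_comm, add_self_zmod2, zero_add]
    have h6 : u0 = g' (ρ y u0) • w' + (g (ρ y u0) + g' (ρ y u0)) • w := by
      have := hact (ρ y u0)
      rw [h4] at this
      exact add_left_cancel this
    have n : u0 ≠ ρ y (ρ y u0) := fun h => t1.ne (by
      rw [h4] at h; simpa using h)
    rcases span_cases h6 h5 t0.ne t2.ne n with h | h | h
    · exact ⟨_, hp0, f0, h ▸ t0⟩
    · exact ⟨_, hp2, _, h ▸ t2⟩
    · refine ⟨_, hp1, f0 ∘ₗ ρ y⁻¹, ?_⟩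
      rw [h4, add_comm (ρ y u0), ← add_assoc, add_self_zmod2, zero_add] at h
      exact h ▸ t1
  obtain ⟨q, hq, fq, tq⟩ := key
  have tq' := tq.cnj y
  have hyw : ρ y w = w' := by
    rw [hact, e2, hb.self, zero_add, one_smul, one_smul, add_comm w', ← add_assoc, add_self_zmod2,
      zero_add]
  rw [hyw] at tq'
  set fq' := fq ∘ₗ ρ y⁻¹ with hfq'
  have hq' := cls_conj hy hq
  have hww : w ≠ w' := fun h => by rw [← h, hb.self] at e1; exact absurd e1 (by decide)
  have hqn : q ≠ y * q * y⁻¹ := fun h => hww (tq.vec_eq (by rw [← h] at tq'; exact tq'))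
  obtain ⟨e3, e4⟩ := H.pair_cls ha.sq tq tq' hq hq' hqn
  have hall : ∀ v, fq v = 0 → fq' v = 0 → ∀ p ∈ cls a, ρ p v = v := by
    intro v h1 h2 p hp
    by_cases c1 : p = q
    · rw [c1]; exact tq.fix_iff.2 h1
    by_cases c2 : p = y * q * y⁻¹
    · rw [c2]; exact tq'.fix_iff.2 h2
    rw [H.three ha hq hq' hp hqn c1 c2, rho_mul, rho_mul, tq.fix_iff.2 h1, tq'.fix_iff.2 h2,
      tq.fix_iff.2 h1]
  have hall' : ∀ v, fq v = 0 → fq' v = 0 → g v = 0 := by
    intro v h1 h2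
    have h3 : ∀ p ∈ cls a, ρ p (ρ y v) = ρ y v := fun p hp => by
      have := hall v h1 h2 _ (cls_conj (inv_mem hy) hp)
      rw [inv_inv, rho_mul, rho_mul] at this
      rw [← rho_apply_inv ρ y (ρ p (ρ y v)), this]
    have h4 := tq.fix_iff.1 (h3 _ hq)
    have h5 := tq'.fix_iff.1 (h3 _ hq')
    rw [hact, map_add, map_add, map_smul, map_smul, h1, e3, tq.self] at h4
    rw [hact, map_add, map_add, map_smul, map_smul, h2, e4, tq'.self] at h5
    have h6 : g' v = 0 := by simpa using h4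
    simpa [h6] using h5
  have hfg : ∀ v, g v = fq v := fun v => by
    have h := hall' (v + fq' v • w + fq v • w') (by
      rw [map_add, map_add, map_smul, map_smul, tq.self, e3]
      rcases zmod2_cases (fq v) with h | h <;> simp [h]; decide) (by
      rw [map_add, map_add, map_smul, map_smul, tq'.self, e4]
      rcases zmod2_cases (fq' v) with h | h <;> simp [h]; decide)
    rw [map_add, map_add, map_smul, map_smul, hb.self, e1] at h
    rcases zmod2_cases (fq v) with h' | h' <;> rcases zmod2_cases (g v) with h'' | h'' <;>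
      simp_all
  have : b = q := H.eq_of_act hb.sq tq.sq fun v => by rw [hb.act, tq.act, hfg]
  rw [this]; exact hq

theorem FFH.comm_of_not_mem (H : FFH ρ) (ha : Tv ρ a u f) (hb : Tv ρ b w g) (h : b ∉ cls a)
    {p q : X} (hp : p ∈ cls a) (hq : q ∈ cls b) : p * q = q * p := by
  obtain ⟨up, fp, tp⟩ := ha.of_cls hp
  obtain ⟨uq, fq, tq⟩ := hb.of_cls hq
  have h1 : q ∉ cls p := fun h' => h (cls_trans (cls_trans hp h') (cls_symm hq))
  have h2 : p ∉ cls q := fun h' => h1 (cls_symm h')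
  exact H.comm tp tq (((H.dich tq tp).resolve_left h2) q (self_mem_cls q) _ _ tq)
    (((H.dich tp tq).resolve_left h1) p (self_mem_cls p) _ _ tp)

/-- the copy of `S₃` generated by the class of a transvection -/
def Dg (a : X) : Subgroup X := closure (cls a)

theorem mem_Dg_of_cls (hb : b ∈ cls a) : b ∈ Dg a := subset_closure hb

theorem Dg_eq (hb : b ∈ cls a) : Dg b = Dg a := by rw [Dg, Dg, cls_eq hb]

theorem conj_Dg_le (y a : X) : cj[y] (Dg a) ≤ Dg (y * a * y⁻¹) := by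
  rw [conj_le_iff, Dg, closure_le]
  intro b hb
  rw [SetLike.mem_coe, mem_conj, inv_inv]
  exact mem_Dg_of_cls (mem_cls_conj y hb)

theorem mem_norm_Dg {y : X} (h : y * a * y⁻¹ ∈ cls a) : y ∈ N[Dg a] :=
  mem_normalizer_of_conj_le ((conj_Dg_le y a).trans (Dg_eq h).le)

theorem FFH.Dg_le_cent (H : FFH ρ) (ha : Tv ρ a u f) (hb : Tv ρ b w g) (h : b ∉ cls a) :
    Dg b ≤ C[Dg a] := by
  rw [Dg, closure_le]
  intro q hq
  rw [SetLike.mem_coe, mem_cent_iff_le_cent1, Dg, closure_le]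
  intro p hp
  exact mem_cent1.2 (H.comm_of_not_mem ha hb h hp hq)

theorem FFH.Dg_le_norm (H : FFH ρ) (ha : Tv ρ a u f) (hb : Tv ρ b w g) : Dg b ≤ N[Dg a] := by
  by_cases h : b ∈ cls a
  · rw [Dg_eq h]; exact le_normalizer
  · exact (H.Dg_le_cent ha hb h).trans (cent_le_norm _)

theorem FFH.cube (H : FFH ρ) (ha : Tv ρ a u f) (hb : b ∈ cls a) : (a * b) ^ 3 = 1 := by
  have := H.braid_cls ha (self_mem_cls a) hb
  calc (a * b) ^ 3 = (a * b * a) * (b * a * b) := by simp only [pow_succ, pow_zero]; group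
    _ = (a * b * a) * (a * b * a) := by rw [← this]
    _ = a * b * (a * a) * b * a := by group
    _ = 1 := by rw [ha.sq, mul_one, mul_assoc a, sq_of_cls ha.sq hb, mul_one, ha.sq]

theorem FFH.orderOf_mul (H : FFH ρ) (ha : Tv ρ a u f) (hb : b ∈ cls a) (hne : b ≠ a) :
    orderOf (a * b) = 3 := by
  have : Fact (Nat.Prime 3) := ⟨Nat.prime_three⟩
  refine orderOf_eq_prime (H.cube ha hb) fun h => hne ?_
  rw [← ha.inv]; exact (inv_eq_of_mul_eq_one_right h).symm

theorem FFH.mem_Dg (H : FFH ρ) (ha : Tv ρ a u f) (hb : b ∈ cls a) (hne : b ≠ a) {d : X}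
    (hd : d ∈ Dg a) : d ∈ zpowers (a * b) ∨ d ∈ cls a := by
  have hx : ∀ p ∈ cls a, ∃ x ∈ zpowers (a * b), p = x * a := fun p hp => by
    by_cases c1 : p = a
    · exact ⟨1, one_mem _, by rw [c1, one_mul]⟩
    by_cases c2 : p = b
    · refine ⟨(a * b)⁻¹, inv_mem (mem_zpowers _), ?_⟩
      rw [c2, mul_inv_rev, ha.inv, mul_assoc, ha.sq, mul_one]
      exact (inv_eq_of_mul_eq_one_right (sq_of_cls ha.sq hb)).symm
    · exact ⟨a * b, mem_zpowers _, H.three ha (self_mem_cls a) hb hp hne.symm c1 c2⟩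
  have hinv : ∀ x ∈ zpowers (a * b), a * x * a = x⁻¹ := by
    rintro _ ⟨n, rfl⟩
    have : a * (a * b) * a⁻¹ = (a * b)⁻¹ := by
      rw [← mul_assoc, ha.sq, one_mul, mul_inv_rev, inv_eq_of_mul_eq_one_right (sq_of_cls ha.sq hb)]
    simp only
    rw [← inv_zpow, ← this, conj_zpow, ha.inv]
  have hy : ∀ x ∈ zpowers (a * b), x * a ∈ cls a := fun x hx => by
    have h3 : x ^ 3 = 1 := by
      obtain ⟨n, rfl⟩ := hx
      simp only
      rw [← zpow_natCast, ← zpow_mul, mul_comm, zpow_mul, zpow_natCast, H.cube ha hb, one_zpow]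
    have hF : x ∈ fittingOf (⊤ : Subgroup X) :=
      (zpowers_le.2 (mul_mem_fit ha.sq (self_mem_cls a) hb)) hx
    refine ⟨x⁻¹, inv_mem hF, ?_⟩
    have h4 : a * x = x⁻¹ * a := by rw [← hinv x hx, mul_assoc, ha.sq, mul_one]
    rw [inv_inv, mul_assoc, h4]
    calc x * a = x⁻¹ * x⁻¹ * x ^ 3 * a := by simp only [pow_succ, pow_zero]; group
      _ = x⁻¹ * (x⁻¹ * a) := by rw [h3]; group
  have key : d ∈ zpowers (a * b) ∨ ∃ x ∈ zpowers (a * b), d = x * a := by
    refine closure_induction (p := fun d _ => d ∈ zpowers (a * b) ∨ ∃ x ∈ zpowers (a * b), d = x * a)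
      (fun p hp => Or.inr (hx p hp)) (Or.inl (one_mem _)) ?_ ?_ hd
    · rintro d1 d2 _ _ (h1 | ⟨x, h1, rfl⟩) (h2 | ⟨y, h2, rfl⟩)
      · exact Or.inl (mul_mem h1 h2)
      · exact Or.inr ⟨d1 * y, mul_mem h1 h2, by group⟩
      · refine Or.inr ⟨x * d2⁻¹, mul_mem h1 (inv_mem h2), ?_⟩
        rw [← hinv d2 h2]
        calc x * a * d2 = x * a * d2 * (a * a) := by rw [ha.sq, mul_one]
          _ = x * (a * d2 * a) * a := by group
      · refine Or.inl ?_
        rw [show x * a * (y * a) = x * (a * y * a) by group, hinv y h2]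
        exact mul_mem h1 (inv_mem h2)
    · rintro d1 _ (h1 | ⟨x, h1, rfl⟩)
      · exact Or.inl (inv_mem h1)
      · refine Or.inr ⟨x, h1, inv_eq_of_mul_eq_one_right (sq_of_cls ha.sq (hy x h1))⟩
  rcases key with h | ⟨x, h, rfl⟩
  · exact Or.inl h
  · exact Or.inr (hy x h)

theorem FFH.Dg_le (H : FFH ρ) (ha : Tv ρ a u f) (hb : b ∈ cls a) (hne : b ≠ a) {Y : Subgroup X}
    (h1 : a ∈ Y) (h2 : a * b ∈ Y) : Dg a ≤ Y := by
  have h3 : b ∈ Y := by
    have := mul_mem h1 h2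
    rwa [← mul_assoc, ha.sq, one_mul] at this
  rw [Dg, closure_le]
  intro p hp
  by_cases c1 : p = a
  · rw [c1]; exact h1
  by_cases c2 : p = b
  · rw [c2]; exact h3
  rw [H.three ha (self_mem_cls a) hb hp hne.symm c1 c2]
  exact mul_mem h2 h1

theorem FFH.eq_of_two (H : FFH ρ) (ha : Tv ρ a u f) (hb : b ∈ cls a) {T : Subgroup X}
    (hT : IsPGroup 2 T) (h1 : a ∈ T) (h2 : b ∈ T) : b = a := by
  by_contra hne
  have h3 := (isPi_of_isPGroup Nat.prime_two hT).orderOf (mul_mem h1 h2)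
  rw [H.orderOf_mul ha hb hne] at h3
  exact absurd (h3 3 Nat.prime_three dvd_rfl) (by decide)

/-- fixed vectors of a subgroup -/
def Fx (ρ : X →* Module.End (ZMod 2) V) (S : Subgroup X) : AddSubgroup V where
  carrier := {v | ∀ s ∈ S, ρ s v = v}
  add_mem' := fun h1 h2 s hs => by rw [map_add, h1 s hs, h2 s hs]
  zero_mem' := fun s _ => map_zero _
  neg_mem' := fun h s hs => by rw [map_neg, h s hs]

theorem mem_Fx {S : Subgroup X} {v : V} : v ∈ Fx ρ S ↔ ∀ s ∈ S, ρ s v = v := Iff.rfl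

theorem exists_fixed [Finite V] {B : Subgroup X} (hB : IsElementaryAbelian 2 B) (U : Set V)
    (hadd : ∀ x ∈ U, ∀ y ∈ U, x + y ∈ U) (hinv : ∀ s ∈ B, ∀ x ∈ U, ρ s x ∈ U) {v : V} (hv : v ∈ U)
    (hv0 : v ≠ 0) : ∃ x ∈ U, x ≠ 0 ∧ x ∈ Fx ρ B := by
  obtain ⟨x, ⟨hx, hx0⟩, hmax⟩ := Set.exists_max_image {x | x ∈ U ∧ x ≠ 0}
    (fun x => {s | s ∈ B ∧ ρ s x = x}.ncard) (Set.toFinite _) ⟨v, hv, hv0⟩
  refine ⟨x, hx, hx0, fun s hs => ?_⟩
  by_contra hne
  have h1 : ρ s x + x ≠ 0 := fun h => hne (by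
    have := add_self_zmod2 x
    rw [← this] at h; exact add_right_cancel h)
  have h2 := hmax _ ⟨hadd _ (hinv s hs x hx) _ hx, h1⟩
  refine absurd h2 (not_le.2 (Set.ncard_lt_ncard ⟨?_, fun h => hne (h ⟨hs, ?_⟩).2⟩))
  · rintro t ⟨ht, ht'⟩
    refine ⟨ht, ?_⟩
    rw [map_add, ← rho_mul, isMulCommutative_iff_forall.1 hB.1 t ht s hs, rho_mul, ht']
  · rw [map_add, ← rho_mul, ← sq, hB.2 s hs, map_one, add_comm]; rfl

theorem FFH.fx_lt [Finite V] (H : FFH ρ) {A B : Subgroup X} (hA : IsElementaryAbelian 2 A) (hB : B ≤ A)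
    (h : ¬ fittingOf (⊤ : Subgroup X) ⊓ C[B] ≤ C[A]) : Fx ρ A < Fx ρ B := by
  refine lt_of_le_of_ne (fun v hv s hs => hv s (hB hs)) fun he => h ?_
  rintro y ⟨hyF, hyB⟩ a ha
  have ha2 : a * a = 1 := by rw [← sq]; exact hA.2 a ha
  have hai : a⁻¹ = a := inv_eq_of_mul_eq_one_right ha2
  set x := y * a * y⁻¹ * a with hx
  have hxF : x ∈ fittingOf (⊤ : Subgroup X) := by
    have := mul_mem hyF (fit_conj_mem (inv_mem hyF) a)
    rwa [hai, ← mul_assoc, ← mul_assoc] at this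
  suffices x = 1 by
    calc a * y = (y * a * y⁻¹ * a) * (a * y) := by rw [← hx, this, one_mul]
      _ = y * a * y⁻¹ * (a * a) * y := by group
      _ = y * a := by rw [ha2]; group
  refine H.ker x a ?_ ha2 (by
    rw [hx, hai]
    calc a * (y * a * y⁻¹ * a) * a = a * y * a * y⁻¹ * (a * a) := by group
      _ = a⁻¹ * y * a⁻¹ * y⁻¹ := by rw [ha2, hai, mul_one]
      _ = (y * a * y⁻¹ * a)⁻¹ := by group)
  by_contra hne
  obtain ⟨v, hv⟩ : ∃ v, ρ x v ≠ v := by
    by_contra h'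
    push Not at h'
    exact hne (LinearMap.ext h')
  have hBx : ∀ s ∈ B, s * x = x * s := fun s hs => by
    have e1 : s * y = y * s := hyB s hs
    have e2 : s * a = a * s := isMulCommutative_iff_forall.1 hA.1 s (hB hs) a ha
    have e3 : Commute s x := by
      rw [hx]
      exact (((show Commute s y from e1).mul_right e2).mul_right (show Commute s y from e1).inv_right).mul_right e2
    exact e3
  obtain ⟨z, ⟨v', rfl⟩, hz0, hz⟩ := exists_fixed (ρ := ρ) (B := B)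
    ⟨isMulCommutative_of_le hA.1 hB, fun s hs => hA.2 s (hB hs)⟩ {z | ∃ v, z = ρ x v + v}
    (by rintro _ ⟨v1, rfl⟩ _ ⟨v2, rfl⟩; exact ⟨v1 + v2, by rw [map_add]; abel⟩)
    (by rintro s hs _ ⟨v1, rfl⟩; exact ⟨ρ s v1, by rw [map_add, ← rho_mul, hBx s hs, rho_mul]⟩)
    ⟨v, rfl⟩ (fun h => hv (by
      have := add_self_zmod2 v
      rw [← this] at h; exact add_right_cancel h))
  set z := ρ x v' + v' with hzdef
  have h1 : ρ a z = z := (he ▸ hz : z ∈ Fx ρ A) a ha
  have h2 : ρ y⁻¹ z ∈ Fx ρ B := fun s hs => by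
    rw [← rho_mul, show s * y⁻¹ = y⁻¹ * s from (show Commute s y from hyB s hs).inv_right, rho_mul,
      hz s hs]
  have h3 : ρ x z = z := by
    rw [hx, rho_mul, rho_mul, rho_mul, h1, (he ▸ h2 : ρ y⁻¹ z ∈ Fx ρ A) a ha, rho_apply_inv]
  have h4 : ρ x v' = v' + z := by rw [hzdef, add_comm (ρ x v'), ← add_assoc, add_self_zmod2, zero_add]
  have h5 : ∀ n : ℕ, ρ (x ^ n) v' = v' + n • z := fun n => by
    induction n with
    | zero => simp
    | succ n ih => rw [pow_succ', rho_mul, ih, map_add, map_nsmul, h3, h4, succ_nsmul]; abel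
  obtain ⟨k, hk⟩ := H.odd hxF
  have h6 := h5 (orderOf x)
  rw [pow_orderOf_eq_one, map_one, hk, add_nsmul, mul_nsmul, two_nsmul, add_self_zmod2] at h6
  exact hz0 (by simpa using h6)

theorem two_mul_card_le_of_lt [Finite V] {U W : AddSubgroup V} (h : U < W) :
    2 * Nat.card U ≤ Nat.card W := by
  obtain ⟨k, hk⟩ := AddSubgroup.card_dvd_of_le h.le
  have h1 : Nat.card U < Nat.card W := by
    refine lt_of_le_of_ne (AddSubgroup.card_le_of_le h.le) fun he => h.ne ?_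
    exact AddSubgroup.eq_of_le_of_card_ge h.le he.ge
  have h2 : 0 < Nat.card U := Nat.card_pos
  rcases k with _ | _ | k
  · omega
  · omega
  · rw [hk]; nlinarith

theorem FFH.tv_of_card [Finite V] (H : FFH ρ) (ha : a * a = 1)
    (h : Nat.card V = 2 * Nat.card (Fx ρ (zpowers a))) : ∃ u f, Tv ρ a u f := by
  have hm : ∀ v, v ∈ Fx ρ (zpowers a) ↔ ρ a v = v := fun v => by
    refine ⟨fun h => h a (mem_zpowers a), fun h => ?_⟩
    have : zpowers a ≤ (MulAction.stabilizer (Module.End (ZMod 2) V)ˣ v).comap ρ.toHomUnits := by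
      rw [zpowers_le]; exact h
    exact fun s hs => this hs
  have hi : (Fx ρ (zpowers a)).index = 2 := by
    have := (Fx ρ (zpowers a)).index_mul_card
    rw [h] at this
    exact Nat.eq_of_mul_eq_mul_right Nat.card_pos this
  have hadd : ∀ v v', ρ a (v + v') = v + v' ↔ (ρ a v = v ↔ ρ a v' = v') := fun v v' => by
    rw [← hm, ← hm, ← hm]; exact AddSubgroup.add_mem_iff_of_index_two hi
  obtain ⟨v0, hv0⟩ : ∃ v, ρ a v ≠ v := by
    by_contra h'
    push Not at h'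
    have : Fx ρ (zpowers a) = ⊤ := eq_top_iff.2 fun v _ => (hm v).2 (h' v)
    rw [this, AddSubgroup.index_top] at hi
    exact absurd hi (by decide)
  classical
  let f0 : V →+ ZMod 2 := AddMonoidHom.mk' (fun v => if ρ a v = v then 0 else 1) (fun v v' => by
    by_cases h1 : ρ a v = v <;> by_cases h2 : ρ a v' = v'
    · rw [if_pos ((hadd _ _).2 (iff_of_true h1 h2)), if_pos h1, if_pos h2]; rfl
    · rw [if_neg (fun h => h2 (((hadd _ _).1 h).1 h1)), if_pos h1, if_neg h2]; rfl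
    · rw [if_neg (fun h => h1 (((hadd _ _).1 h).2 h2)), if_neg h1, if_pos h2]; rfl
    · rw [if_pos ((hadd _ _).2 (iff_of_false h1 h2)), if_neg h1, if_neg h2]; rfl)
  refine ⟨ρ a v0 + v0, f0.toZModLinearMap 2, ha, fun h => hv0 ?_, fun v => ?_, ⟨v0, ?_⟩⟩
  · have := add_self_zmod2 v0
    rw [← this] at h; exact add_right_cancel h
  · show _ = v + (if ρ a v = v then (0 : ZMod 2) else 1) • _
    by_cases h1 : ρ a v = v
    · rw [if_pos h1, zero_smul, add_zero, h1]
    · rw [if_neg h1, one_smul]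
      have h2 := (hadd v v0).2 (iff_of_false h1 hv0)
      rw [map_add] at h2
      calc ρ a v = ρ a v + ρ a v0 + ρ a v0 := by rw [add_assoc, add_self_zmod2, add_zero]
        _ = _ := by rw [h2]; abel
  · show (if ρ a v0 = v0 then (0 : ZMod 2) else 1) = 1
    rw [if_neg hv0]

theorem FFH.offender [Finite V] (H : FFH ρ) (A : Subgroup X) (hA : IsElementaryAbelian 2 A)
    (h : Nat.card V ≤ Nat.card A * Nat.card (Fx ρ A)) :
    Nat.card V = Nat.card A * Nat.card (Fx ρ A) ∧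
      A ≤ closure {a | a ∈ A ∧ ∃ u f, Tv ρ a u f} := by
  induction' hn : Nat.card A using Nat.strong_induction_on with n ih generalizing A
  subst hn
  by_cases hb : A = ⊥
  · subst hb
    have : Fx ρ (⊥ : Subgroup X) = ⊤ := eq_top_iff.2 fun v _ s hs => by
      rw [mem_bot.1 hs, map_one]; rfl
    rw [this]; simp
  set F := fittingOf (⊤ : Subgroup X) with hF
  have hcop : ∀ B ≤ A, (Nat.card F).Coprime (Nat.card B) := fun B hB => by
    have h1 : IsPiSubgroup {2}ᶜ F := (piCoreOf_isPi {2}ᶜ (⊤ : Subgroup X)).of_le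
      (fittingOf_le_piCoreOf (by rw [compl_compl]; exact H.core))
    exact h1.coprime' ((isPi_of_isPGroup Nat.prime_two (isPGroup_of_elementary hA)).of_le hB)
  have hAF : A ≤ N[F] := le_top.trans (self_le_norm_fittingOf ⊤)
  have hbot : ∀ B ≤ A, F ≤ C[B] → B = ⊥ := fun B hB h => by
    refine eq_bot_iff.2 fun b hb => mem_bot.2 (H.eq_one_of_cent (by rw [← sq]; exact hA.2 b (hB hb))
      (le_cent_symm h hb))
  have hgood : ∀ B ≤ A, Nat.card A ∣ 2 * Nat.card B → ¬ F ⊓ C[B] ≤ C[A] →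
      Nat.card A = 2 * Nat.card B ∧ Nat.card V = Nat.card A * Nat.card (Fx ρ A) ∧
        B ≤ closure {a | a ∈ A ∧ ∃ u f, Tv ρ a u f} := fun B hB hd hn => by
    have hlt : B < A := lt_of_le_of_ne hB fun he => hn (he ▸ inf_le_right)
    have h1 := card_lt_of_lt hlt
    have hc : Nat.card A = 2 * Nat.card B := by
      obtain ⟨k, hk⟩ := card_dvd_of_le hB
      have h2 := Nat.le_of_dvd (by have := card_pos' B; omega) hd
      have h3 := card_pos' B
      rcases k with _ | _ | _ | k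
      · omega
      · omega
      · omega
      · rw [hk] at h2; nlinarith
    have h2 := two_mul_card_le_of_lt (H.fx_lt hA hB hn)
    have h3 : Nat.card A * Nat.card (Fx ρ A) ≤ Nat.card B * Nat.card (Fx ρ B) := by
      rw [hc]; nlinarith
    obtain ⟨h4, h5⟩ := ih _ h1 B ⟨isMulCommutative_of_le hA.1 hB, fun s hs => hA.2 s (hB hs)⟩
      (h.trans h3) rfl
    exact ⟨hc, by omega, h5.trans (closure_mono fun a ha => ⟨hB ha.1, ha.2⟩)⟩
  obtain ⟨B0, hB0, hd0, hn0⟩ : ∃ B ≤ A, Nat.card A ∣ 2 * Nat.card B ∧ ¬ F ⊓ C[B] ≤ C[A] := by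
    by_contra h'
    push Not at h'
    exact hb (hbot A le_rfl (coprime_elemAb_gen_cent Nat.prime_two hA hAF (hcop A le_rfl) h'))
  obtain ⟨hc0, he, hl0⟩ := hgood B0 hB0 hd0 hn0
  refine ⟨he, ?_⟩
  set A0 := closure {a | a ∈ A ∧ ∃ u f, Tv ρ a u f} with hA0
  have hA0A : A0 ≤ A := by rw [hA0, closure_le]; exact fun a ha => ha.1
  by_contra hne
  have hlt : Nat.card A0 < Nat.card A := card_lt_of_lt (lt_of_le_of_ne hA0A fun he => hne he.ge)
  have heq : ∀ B ≤ A0, Nat.card A = 2 * Nat.card B → B = A0 := fun B hB hc => by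
    refine eq_of_le_of_card_ge hB ?_
    obtain ⟨k, hk⟩ := card_dvd_of_le hA0A
    have h3 := card_pos' A0
    rcases k with _ | _ | k
    · omega
    · omega
    · rw [hk] at hc; nlinarith
  have hB0b : B0 = ⊥ := by
    refine hbot B0 hB0 (coprime_elemAb_gen_cent Nat.prime_two hA hAF (hcop A le_rfl) fun B hB hd => ?_)
    by_cases hn : F ⊓ C[B] ≤ C[A]
    · exact hn.trans (cent_anti hB0)
    · obtain ⟨h1, -, h2⟩ := hgood B hB hd hn
      rw [heq B h2 h1, heq B0 hl0 hc0]; exact inf_le_right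
  rw [hB0b, card_bot, mul_one] at hc0
  obtain ⟨a, ha, ha1⟩ := exists_ne_one_of_ne_bot hb
  have hz := eq_zpowers_of_card_prime (hc0 ▸ Nat.prime_two) ha ha1
  rw [hc0, hz] at he
  refine hne (hz.le.trans (zpowers_le.2 (subset_closure ⟨ha, H.tv_of_card ?_ he⟩)))
  rw [← sq]; exact hA.2 a ha

end Cfsg.Agent.Cls
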