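import Cfsg.Agent.Cls.ZN9
import Cfsg.Prelude.Def_Involutions

/-! ZN-groups of local characteristic two: the global argument. -/

set_option autoImplicit false
set_option linter.unusedSectionVars false
set_option linter.unusedVariables false

namespace Cfsg.Agent.Cls
open Cfsg Subgroup Cfsg.Agent.GT MulAction

universe u

variable {G : Type u} [Group G] [Finite G] {B S T U : Subgroup G}

local notation "J" => thompsonSubgroupOf 2
local notation "O2" => piCoreOf {2}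

theorem conj_oddGen_le (g : G) (L : Subgroup G) : cj[g] (oddGenerated L) ≤ oddGenerated (cj[g] L) :=
  conj_le_iff.2 (oddGen_le_iff.2 fun x h1 h2 => mem_conj.2 (by
    rw [inv_inv]; exact mem_oddGen (conj_mem_conj.2 h1) (by rwa [orderOf_conj])))

theorem conj_oddGen (g : G) (L : Subgroup G) : cj[g] (oddGenerated L) = oddGenerated (cj[g] L) :=
  le_antisymm (conj_oddGen_le g L) (le_conj_iff.2 (by simpa using conj_oddGen_le g⁻¹ (cj[g] L)))

/-- the largest order of an elementary abelian subgroup -/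
noncomputable def mA (T : Subgroup G) : ℕ := Nat.card (exists_maxEl 2 T).choose

theorem MaxEl.card_eq {A : Subgroup G} (h : MaxEl 2 T A) : Nat.card A = mA T :=
  le_antisymm ((exists_maxEl 2 T).choose_spec.2.2 A h.1 h.2.1)
    (h.2.2 _ (exists_maxEl 2 T).choose_spec.1 (exists_maxEl 2 T).choose_spec.2.1)

theorem mA_le (h : J T ≤ U) : mA T ≤ mA U := by
  obtain ⟨A, hA⟩ := exists_maxEl 2 T
  obtain ⟨A', hA'⟩ := exists_maxEl 2 U
  rw [← MaxEl.card_eq hA, ← MaxEl.card_eq hA']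
  exact hA'.2.2 A (hA.le_thompson.trans h) hA.2.1

theorem J_le_J (h : J T ≤ U) (hm : mA U ≤ mA T) : J T ≤ J U := by
  obtain ⟨A', hA'⟩ := exists_maxEl 2 U
  exact thompsonSubgroupOf_le_of_forall fun A hA => (MaxEl.of_card hA' (hA.le_thompson.trans h) hA.2.1
    (by rwa [MaxEl.card_eq hA, MaxEl.card_eq hA'])).le_thompson

theorem BT_le_BT (h : BT T ≤ U) (hJ : J U = J T) : BT T ≤ BT U :=
  le_inf h (hJ ▸ inf_le_right)

theorem syl_BT (hT : IsPiHallOf {2} T ⊤) (hU : IsPGroup 2 U) (h : BT T ≤ U) : BT U = BT T := by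
  obtain ⟨g, -, hg⟩ := syl_exists_le_conj Nat.prime_two hT hU le_top
  obtain ⟨A, hA⟩ := exists_maxEl 2 T
  have h1 := (J_le_BT T).trans h
  have h2 : mA (cj[g] T) = mA T := by rw [← MaxEl.card_eq hA, ← MaxEl.card_eq (MaxEl.cnj hA g), card_conj]
  have h3 : J (cj[g] T) = J T := (eq_of_le_of_card_ge (J_le_J (h1.trans hg) h2.le)
    (by rw [← conj_J, card_conj])).symm
  have h4 : J U = J T := (J_eq (h3 ▸ h1) hg).trans h3
  refine (eq_of_le_of_card_ge (BT_le_BT h h4) ?_).symm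
  rw [← card_conj g (BT T), conj_BT]
  exact card_le_of_le (BT_le_BT ((BT_le U).trans hg) (h3.trans h4.symm))

theorem exists_lex {α : Type*} [Finite α] {s : Set α} (hs : s.Nonempty) (f1 f2 f3 f4 : α → ℕ) :
    ∃ x ∈ s, ∀ y ∈ s, f1 y ≤ f1 x ∧ (f1 y = f1 x → f2 y ≤ f2 x ∧ (f2 y = f2 x → f3 y ≤ f3 x ∧
      (f3 y = f3 x → f4 y ≤ f4 x))) := by
  obtain ⟨x, hx, h⟩ := Set.exists_max_image s
    (fun x => toLex (f1 x, toLex (f2 x, toLex (f3 x, f4 x)))) (Set.toFinite _) hs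
  refine ⟨x, hx, fun y hy => ?_⟩
  have := h y hy
  simp only [Prod.Lex.le_iff, ofLex_toLex] at this
  omega

theorem exists_best {s : Set (Subgroup G)} (hs : s.Nonempty) :
    ∃ T ∈ s, ∀ U ∈ s, BT T ≤ U → J U = J T ∧ BT U = BT T ∧ Nat.card U ≤ Nat.card T := by
  obtain ⟨T, hT, h⟩ := exists_lex hs mA (fun T => Nat.card (J T)) (fun T => Nat.card (BT T))
    (fun T => Nat.card T)
  refine ⟨T, hT, fun U hU h1 => ?_⟩
  obtain ⟨h2, h3⟩ := h U hU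
  have h4 := (J_le_BT T).trans h1
  obtain ⟨h5, h6⟩ := h3 (le_antisymm h2 (mA_le h4))
  have h7 := (eq_of_le_of_card_ge (J_le_J h4 h2) h5).symm
  obtain ⟨h8, h9⟩ := h6 (by simp only [h7])
  have h10 := (eq_of_le_of_card_ge (BT_le_BT h1 h7) h8).symm
  exact ⟨h7, h10, h9 (by simp only [h10])⟩

/-- the hypotheses on the group -/
structure ZNH (G : Type u) [Group G] : Prop where
  loc : ∀ L T : Subgroup G, IsTwoLocal L → IsPiHallOf {2} T L → Loc L T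
  cz : ∀ S : Subgroup G, IsPiHallOf {2} S ⊤ → C[OZ S] ≤ N[S]

/-- parabolic subgroups over `B` whose local overgroups have Baumann subgroup `B` -/
def Good (B P : Subgroup G) : Prop :=
  PP B P ∧ ∀ X S, IsTwoLocal X → P ≤ X → IsPiHallOf {2} S X → B ≤ S → BT S = B

namespace ZNH
variable (H : ZNH G)
include H

theorem exists_Y (hB : IsPGroup 2 B) {s : Set (Subgroup G)} (hs : s.Nonempty) (h1 : ∀ P ∈ s, Good B P)
    (h2 : ∀ P ∈ s, ∀ P' ∈ s, ∃ N ≤ B, P ≤ N[N] ∧ P' ≤ N[N] ∧ N ≠ ⊥)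
    (h3 : ∀ g ∈ N[B], ∀ P ∈ s, cj[g] P ∈ s) :
    ∃ Y : Subgroup G, IsPGroup 2 Y ∧ Y ≠ ⊥ ∧ N[B] ≤ N[Y] ∧ ∀ P ∈ s, P ≤ N[Y] := by
  refine ⟨sSup ((fun P => O2 (oddGenerated P)) '' s), hB.to_le (sSup_le ?_), ?_,
    le_norm_sSup_of_conj_mem ?_, fun P hP => le_norm_sSup ?_⟩
  · rintro _ ⟨P, hP, rfl⟩
    exact (piCoreOf_le_of_normal (oddGen_le _) (le_normalizer.trans (norm_le_norm_oddGen _))).trans
      ((h1 P hP).1.O2_le hB)
  · obtain ⟨P, hP⟩ := hs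
    exact ne_bot_of_le ((h1 P hP).1.core_ne hB) (le_sSup ⟨P, hP, rfl⟩)
  · rintro g hg _ ⟨P, hP, rfl⟩
    exact ⟨_, h3 g hg P hP, by simp only [conj_piCoreOf, conj_oddGen]⟩
  · rintro _ ⟨P', hP', rfl⟩
    obtain ⟨N, n1, n2, n3, n4⟩ := h2 P hP P' hP'
    have hX : IsTwoLocal N[N] := ⟨N, hB.to_le n1, n4, rfl⟩
    obtain ⟨S, hS, hBS⟩ := exists_syl_ge Nat.prime_two hB ((h1 P hP).1.le.trans n2)
    have e := (h1 P hP).2 _ S hX n2 hS hBS
    exact le_norm_piCoreOf ((H.loc _ S hX hS).pp_norm (e ▸ (h1 P' hP').1) n3 (e ▸ (h1 P hP).1) n2)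

theorem norm_J_le (hT : IsPiHallOf {2} T ⊤) : N[J T] ≤ N[BT T] := by
  have h1 : C[OZ (J T)] ≤ N[T] :=
    (cent_anti (OZ_le_J (thompsonSubgroupOf_le 2 T) le_rfl)).trans (H.cz T hT)
  have h2 : N[J T] ≤ N[C[OZ (J T)]] := le_norm_cent (norm_le_norm_OZ _)
  have h3 := syl_inf_normal Nat.prime_two (syl_of_le hT (le_normalizer.trans
    (norm_le_norm_thompson 2 T)) le_top) (h1.trans (norm_le_norm_thompson 2 T)) h2
  exact h2.trans (norm_le_norm_syl Nat.prime_two h3 (le_norm_inf h1 le_normalizer))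

theorem exists_pair (hev : Even (Nat.card G)) (hO : O2 (⊤ : Subgroup G) = ⊥)
    (hse : ∀ K : Subgroup G, ¬ IsStronglyEmbedded K) : ∃ B P P' : Subgroup G, IsPGroup 2 B ∧
      Good B P ∧ Good B P' ∧ ∀ N ≤ B, P ≤ N[N] → P' ≤ N[N] → N = ⊥ := by
  obtain ⟨S, hS⟩ := exists_syl Nat.prime_two (⊤ : Subgroup G)
  have hS2 := syl_isPGroup Nat.prime_two hS
  have hS1 : S ≠ ⊥ := (syl_ne_bot_iff Nat.prime_two hS).2 (by rw [card_top]; exact hev.two_dvd)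
  have tl : ∀ T : Subgroup G, IsPGroup 2 T → T ≠ ⊥ → IsTwoLocal N[J T] := fun T h1 h2 =>
    ⟨_, h1.to_le (thompsonSubgroupOf_le 2 T), J_ne_bot h1 h2, rfl⟩
  obtain ⟨M, hM, hM1, hM2⟩ := exists_maximal_ge (S := {L | IsTwoLocal L}) (tl S hS2 hS1)
  have hSM : S ≤ M := (le_normalizer.trans (norm_le_norm_thompson 2 S)).trans hM1
  obtain ⟨g, hg1, hg2⟩ : ∃ g, g ∉ M ∧ Even (Nat.card ↥(M ⊓ cj[g] M)) := by
    by_contra hc
    push Not at hc
    obtain ⟨Y, y1, y2, rfl⟩ := hM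
    refine hse N[Y] ⟨fun h => y2 (eq_bot_iff.2 (hO ▸ le_piCoreOf_single Nat.prime_two le_top h.ge y1)),
      even_iff_two_dvd.2 ((prime_dvd_card_of_isPGroup Nat.prime_two hS2 hS1).trans (card_dvd_of_le hSM)),
      fun g hg => Nat.not_even_iff_odd.1 (hc g hg)⟩
  set s : Set (Subgroup G) := {T | T ≤ M ∧ IsPGroup 2 T ∧ T ≠ ⊥ ∧ ∃ X, IsTwoLocal X ∧ T ≤ X ∧ ¬ X ≤ M}
  obtain ⟨T, ⟨t1, t2, t3, L, hL, t4, t5⟩, hT⟩ := exists_best (s := s) (by
    obtain ⟨T, hT⟩ := exists_syl Nat.prime_two (M ⊓ cj[g] M)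
    obtain ⟨Y, y1, y2, e⟩ := hM
    refine ⟨T, hT.le.trans inf_le_left, syl_isPGroup Nat.prime_two hT,
      (syl_ne_bot_iff Nat.prime_two hT).2 hg2.two_dvd, cj[g] M, ⟨cj[g] Y, isPGroup_conj_iff.2 y1,
        conj_eq_bot_iff.not.2 y2, by rw [e, conj_normalizer]⟩, hT.le.trans inf_le_right, fun h => hg1 ?_⟩
    rw [← hM2 N[O2 M] ⟨_, piCoreOf_isPGroup Nat.prime_two M, ne_bot_of_le y2 (le_piCoreOf_single
      Nat.prime_two (e ▸ le_normalizer) e.le y1), rfl⟩ (self_le_norm_piCoreOf _ _)]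
    exact norm_le_norm_piCoreOf _ _ (mem_normalizer_of_conj_le h))
  have hB := t2.to_le (BT_le T)
  have hB1 : BT T ≠ ⊥ := ne_bot_of_le (J_ne_bot t2 t3) (J_le_BT T)
  have k1 : N[J T] ≤ M := by_contra fun hc => by
    obtain ⟨S1, s1, s2⟩ := exists_syl_ge Nat.prime_two t2 t1
    have s3 := syl_isPGroup Nat.prime_two s1
    have s4 : T ≤ S1 ⊓ N[J T] := le_inf s2 (le_normalizer.trans (norm_le_norm_thompson 2 T))
    have s5 := eq_of_le_of_card_ge s4 (hT _ ⟨inf_le_left.trans s1.le, s3.to_inf_left,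
      ne_bot_of_le t3 s4, _, tl T t2 t3, inf_le_right, hc⟩ ((BT_le T).trans s4)).2.2
    have s6 : T = S1 := by_contra fun h' => (lt_inf_norm_of_isPGroup Nat.prime_two s3
      (lt_of_le_of_ne s2 h')).not_ge ((inf_le_inf_left _ (norm_le_norm_thompson 2 T)).trans s5.ge)
    obtain ⟨m, hm, e⟩ := syl_exists_conj Nat.prime_two (syl_of_le hS hSM le_top) s1
    refine hc ?_
    rw [s6, e, ← conj_J, ← conj_normalizer]
    exact conj_le_of_mem hm hM1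
  have k2 : ∀ X S', IsTwoLocal X → ¬ X ≤ M → IsPiHallOf {2} S' X → BT T ≤ S' →
      BT S' = BT T ∧ Nat.card S' ≤ Nat.card T := fun X S' x1 x2 x3 x4 => by
    have x5 := syl_isPGroup Nat.prime_two x3
    have x6 := le_inf x4 ((BT_le T).trans t1)
    obtain ⟨x7, x8, x9⟩ := hT _ ⟨inf_le_right, x5.to_inf_left, ne_bot_of_le hB1 x6, X, x1,
      inf_le_left.trans x3.le, x2⟩ x6
    have x10 : S' ⊓ M = S' := by_contra fun h' => (lt_inf_norm_of_isPGroup Nat.prime_two x5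
      (lt_of_le_of_ne inf_le_left h')).not_ge
        (inf_le_inf_left _ ((norm_le_norm_thompson 2 _).trans (x7 ▸ k1)))
    rw [x10] at x8 x9
    exact ⟨x8, x9⟩
  have k3 : IsPiHallOf {2} T L := by
    obtain ⟨S', s1, s2⟩ := exists_syl_ge Nat.prime_two t2 t4
    rwa [eq_of_le_of_card_ge s2 (k2 L S' hL t5 s1 ((BT_le T).trans s2)).2]
  obtain ⟨P0, p1, p2⟩ : ∃ P, PP (BT T) P ∧ ¬ P ≤ M := by
    by_contra hc
    push Not at hc
    exact t5 ((H.loc L T hL k3).le_of_pp (inf_le_right.trans k1) fun P h _ => hc P h)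
  have k4 : N[BT T] ≤ M := ((norm_le_norm_thompson 2 _).trans (J_BT T ▸ k1))
  by_contra hc
  push Not at hc
  by_cases hT' : IsPiHallOf {2} T ⊤
  · have g1 : ∀ P, PP (BT T) P → Good (BT T) P := fun P h =>
      ⟨h, fun X S' _ _ x3 x4 => syl_BT hT' (syl_isPGroup Nat.prime_two x3) x4⟩
    obtain ⟨Y, y1, y2, y3, y4⟩ := H.exists_Y hB (s := {P | PP (BT T) P}) ⟨P0, p1⟩ g1
      (fun P h P' h' => hc _ P P' hB (g1 P h) (g1 P' h')) fun g hg P h => PP.cnj h hg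
    exact p2 (hM2 N[Y] ⟨Y, y1, y2, rfl⟩ ((H.loc M T hM (syl_of_le hT' t1 le_top)).le_of_pp
      (inf_le_right.trans ((H.norm_J_le hT').trans y3)) fun P h _ => y4 P h) ▸ y4 P0 p1)
  have g1 : ∀ P, PP (BT T) P ∧ ¬ P ≤ M → Good (BT T) P := fun P h =>
    ⟨h.1, fun X S' x1 x2 x3 x4 => (k2 X S' x1 (fun h' => h.2 (x2.trans h')) x3 x4).1⟩
  obtain ⟨Y, y1, y2, y3, y4⟩ := H.exists_Y hB (s := {P | PP (BT T) P ∧ ¬ P ≤ M}) ⟨P0, p1, p2⟩ g1
    (fun P h P' h' => hc _ P P' hB (g1 P h) (g1 P' h')) fun g hg P h => ⟨PP.cnj h.1 hg, fun h' =>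
      h.2 (by rwa [conj_le_iff, conj_eq_self_of_mem (inv_mem (k4 hg))] at h')⟩
  obtain ⟨S1, s1, s2⟩ := exists_syl_ge Nat.prime_two t2 le_top
  have s3 := syl_isPGroup Nat.prime_two s1
  have s4 := lt_inf_norm_of_isPGroup Nat.prime_two s3 (lt_of_le_of_ne s2 fun h => hT' (h ▸ s1))
  have s5 : S1 ⊓ N[T] ≤ N[BT T] := inf_le_right.trans (norm_le_norm_BT T)
  exact (card_lt_of_lt s4).not_ge (hT _ ⟨s5.trans k4, s3.to_inf_left, ne_bot_of_le t3 s4.le, N[Y],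
    ⟨Y, y1, y2, rfl⟩, s5.trans y3, fun h => p2 ((y4 P0 ⟨p1, p2⟩).trans h)⟩ ((BT_le T).trans s4.le)).2.2

theorem main (hev : Even (Nat.card G)) (hO : O2 (⊤ : Subgroup G) = ⊥)
    (hse : ∀ K : Subgroup G, ¬ IsStronglyEmbedded K) :
    ∃ M₁ M₂ : Subgroup (oddGenerated (⊤ : Subgroup G)), M₁ ≠ M₂ ∧ IsMaximalTwoLocal M₁ ∧
      IsMaximalTwoLocal M₂ ∧ Nonempty (M₁ ≃* Equiv.Perm (Fin 4)) ∧
      Nonempty (M₂ ≃* Equiv.Perm (Fin 4)) ∧ Nat.card ↥(M₁ ⊓ M₂) = 8 := by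
  obtain ⟨B, P1, P2, hB, h1, h2, h3⟩ := H.exists_pair hev hO hse
  let P : Bool → Subgroup G := fun i => bif i then P1 else P2
  have hG : ∀ i, Good B (P i) := fun i => by cases i <;> assumption
  have hP := fun i => (hG i).1
  have hc : ∀ N ≤ B, (∀ i, P i ≤ N[N]) → N = ⊥ := fun N n1 n2 => h3 N n1 (n2 true) (n2 false)
  have A := amal hB hP hc
  have k : ∀ i, MaxL G (vx P i 1) := fun i => by
    refine A.maxL (b := vx P (!i) 1) ⟨i, 1, rfl, rfl⟩ ?_ ?_ ?_ ?_ <;>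
      simp only [Ta_vx hB hP hc, Qa_vx hB hP hc, St_vx, one_conj]
    exacts [hP i, (hP i).nJ, (hP _).nJ, fun X S x1 x2 x3 x4 =>
      ⟨H.loc X S x1 x3, (hG i).2 X S x1 x2 x3 x4⟩]
  exact A.conclusion (a := vx P true 1) (b := vx P false 1) ⟨true, 1, rfl, rfl⟩ (k _) (k _)

end ZNH

theorem znh (hL : IsCharacteristicTwoType G) (hN : ∀ N : Subgroup G, IsTwoLocal N → Group.IsSolvable N)
    (hZ : ∀ S : Sylow 2 G, centralizer {z : G | z ∈ (S : Subgroup G) ∧ z ^ 2 = 1 ∧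
      ∀ s ∈ (S : Subgroup G), s * z = z * s} ≤ normalizer ((S : Subgroup G) : Set G)) : ZNH G := by
  have h1 : ∀ S : Subgroup G, IsPiHallOf {2} S ⊤ → C[OZ S] ≤ N[S] := fun S hS => by
    obtain ⟨S, rfl⟩ := exists_sylow_of_syl_top Nat.prime_two hS
    exact le_trans (centralizer_le fun z hz => ⟨hz.1, hz.2.2, by rw [← pow_two]; exact hz.2.1⟩) (hZ S)
  refine ⟨fun L T hL' hT => ⟨hN L hL', hT, fun x hx => ?_, ?_⟩, h1⟩
  · obtain ⟨Y, y1, y2, rfl⟩ := hL'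
    rw [← map_subtype_pCore Nat.prime_two] at hx ⊢
    exact ⟨⟨x, hx.1⟩, hL.2 Y y1 y2 fun y hy => Subtype.ext (hx.2 y ⟨y, hy, rfl⟩), rfl⟩
  · obtain ⟨Y, y1, y2, rfl⟩ := hL'
    obtain ⟨S, s1, s2⟩ := exists_syl_ge Nat.prime_two (syl_isPGroup Nat.prime_two hT) le_top
    have h2 : S ⊓ N[Y] = T := syl_eq_of_le Nat.prime_two hT (syl_isPGroup Nat.prime_two s1).to_inf_left
      inf_le_right (le_inf s2 hT.le)
    have h3 : Y ≤ T := le_syl_of_norm Nat.prime_two hT y1 le_normalizer hT.le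
    have h4 : OZ S ≤ OZ T := OZ_le_OZ s2 (h2 ▸ le_inf (OZ_le _)
      ((OZ_le_cent _).trans ((cent_anti (h3.trans s2)).trans (cent_le_norm _))))
    rw [← h2] at h4 ⊢
    exact le_norm_inf (inf_le_right.trans ((cent_anti h4).trans (h1 S s1))) (inf_le_left.trans le_normalizer)

end Cfsg.Agent.Cls
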