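import Cfsg.Agent.GT.Fitting
import Cfsg.Agent.GT.CoprimeGen

/-! The amalgam method for trivalent graphs: Goldschmidt amalgams with non-central `ΩZ(T)`. -/

set_option autoImplicit false
set_option linter.unusedSectionVars false
set_option linter.unusedVariables false

namespace Cfsg.Agent.Cls
open Cfsg Subgroup Cfsg.Agent.GT MulAction
open scoped commutatorElement

universe u v

variable {G : Type u} [Group G]

/-- the central elements of order at most two -/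
def OZ (T : Subgroup G) : Subgroup G where
  carrier := {x | x ∈ T ∧ x ∈ C[T] ∧ x * x = 1}
  mul_mem' := by
    rintro x y ⟨h1, h2, h3⟩ ⟨h4, h5, h6⟩
    refine ⟨mul_mem h1 h4, mul_mem h2 h5, ?_⟩
    calc x * y * (x * y) = x * (y * x) * y := by group
      _ = x * (x * y) * y := by rw [h2 y h4]
      _ = (x * x) * (y * y) := by group
      _ = 1 := by rw [h3, h6, one_mul]
  one_mem' := ⟨one_mem _, one_mem _, one_mul 1⟩
  inv_mem' := by
    rintro x ⟨h1, h2, h3⟩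
    exact ⟨inv_mem h1, inv_mem h2, by rw [← mul_inv_rev, h3, inv_one]⟩

theorem mem_OZ {T : Subgroup G} {x : G} : x ∈ OZ T ↔ x ∈ T ∧ x ∈ C[T] ∧ x * x = 1 := Iff.rfl

theorem OZ_le (T : Subgroup G) : OZ T ≤ T := fun _ h => h.1

theorem OZ_le_cent (T : Subgroup G) : OZ T ≤ C[T] := fun _ h => h.2.1

theorem le_cent_OZ (T : Subgroup G) : T ≤ C[OZ T] := le_cent_symm (OZ_le_cent T)

theorem OZ_le_OZ {T Q : Subgroup G} (h : Q ≤ T) (h' : OZ T ≤ Q) : OZ T ≤ OZ Q :=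
  fun _ hx => ⟨h' hx, cent_anti h hx.2.1, hx.2.2⟩

theorem conj_OZ (g : G) (T : Subgroup G) : cj[g] (OZ T) = OZ (cj[g] T) := by
  ext x
  rw [mem_conj, mem_OZ, mem_OZ, ← conj_centralizer, mem_conj, mem_conj]
  refine and_congr_right fun _ => and_congr_right fun _ => ?_
  rw [show g⁻¹ * x * g * (g⁻¹ * x * g) = g⁻¹ * (x * x) * g⁻¹⁻¹ by group, conj_eq_one_iff]

theorem norm_le_norm_OZ (T : Subgroup G) : N[T] ≤ N[OZ T] := fun g hg =>
  conj_eq_self_iff.1 (by rw [conj_OZ, conj_eq_self hg])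

theorem elemAb_OZ (T : Subgroup G) : IsElementaryAbelian 2 (OZ T) :=
  ⟨isMulCommutative_iff_le_cent.2 ((OZ_le_cent T).trans (cent_anti (OZ_le T))),
    fun a ha => by rw [sq]; exact ha.2.2⟩

theorem mem_norm_sup_of_comm [Finite G] {H K : Subgroup G} {x : G} (h1 : x ∈ N[H])
    (h2 : ∀ k ∈ K, ⁅k, x⁆ ∈ H) : x ∈ N[H ⊔ K] := by
  refine mem_normalizer_of_conj_le ?_
  rw [conj_sup, conj_eq_self h1]
  refine sup_le le_sup_left (conj_le_iff_forall.2 fun k hk => ?_)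
  have : x * k * x⁻¹ = ⁅k, x⁆⁻¹ * k := by simp only [commutatorElement_def]; group
  rw [this]
  exact mul_mem (mem_sup_left (inv_mem (h2 k hk))) (mem_sup_right hk)

variable {Γ : Type v} [MulAction G Γ] (adj : Γ → Γ → Prop)

/-- the kernel of the action of a vertex stabiliser on the neighbours -/
def Qa (a : Γ) : Subgroup G where
  carrier := {x | x • a = a ∧ ∀ b, adj a b → x • b = b}
  mul_mem' := fun h1 h2 => ⟨by rw [mul_smul, h2.1, h1.1], fun b hb => by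
    rw [mul_smul, h2.2 b hb, h1.2 b hb]⟩
  one_mem' := ⟨one_smul _ _, fun b _ => one_smul _ _⟩
  inv_mem' := fun h => ⟨inv_smul_eq_iff.2 h.1.symm, fun b hb => inv_smul_eq_iff.2 (h.2 b hb).symm⟩

/-- the edge stabiliser -/
def Ta (G : Type u) [Group G] {Γ : Type v} [MulAction G Γ] (a b : Γ) : Subgroup G :=
  stabilizer G a ⊓ stabilizer G b

/-- the group `Z_a` -/
def Za (a : Γ) : Subgroup G := ⨆ (b : Γ) (_ : adj a b), OZ (Ta G a b)

/-- walks -/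
inductive Wk : ℕ → Γ → Γ → Prop
  | nil (a : Γ) : Wk 0 a a
  | cons {n : ℕ} {a b c : Γ} : adj a b → Wk n b c → Wk (n + 1) a c

/-- the amalgam hypotheses -/
structure Amal (G : Type u) [Group G] {Γ : Type v} [MulAction G Γ] (adj : Γ → Γ → Prop) : Prop where
  symm : ∀ {a b}, adj a b → adj b a
  smul : ∀ (g : G) {a b}, adj a b → adj (g • a) (g • b)
  three : ∀ {a b}, adj a b → ∃ c d, adj a c ∧ adj a d ∧ c ≠ b ∧ d ≠ b ∧ c ≠ d ∧
    ∀ e, adj a e → e = b ∨ e = c ∨ e = d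
  trans : ∀ {a b c}, adj a b → adj a c → ∃ g : G, g • a = a ∧ g • b = c
  moves : ∀ {a b}, adj a b → ∃ t ∈ Ta G a b, t ∉ Qa adj a
  char : ∀ {a b}, adj a b → stabilizer G a ⊓ C[(Qa adj a : Subgroup G)] ≤ Qa adj a
  ncen : ∀ {a b}, adj a b → ∃ z ∈ OZ (Ta G a b), ¬ stabilizer G a ≤ C1[z]
  core : ∀ {a b}, adj a b → ∀ N ≤ Ta G a b, stabilizer G a ≤ N[N] → stabilizer G b ≤ N[N] → N = ⊥
  etrans : ∀ {a b c d}, adj a b → adj c d → ∃ g : G, (g • a = c ∧ g • b = d) ∨ (g • a = d ∧ g • b = c)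

variable {adj} {a b c d e a' : Γ} {x y : G}

local notation "St" => stabilizer G
local notation "Q" => (Qa adj : Γ → Subgroup G)
local notation "Z" => (Za adj : Γ → Subgroup G)
local notation "T" => Ta G

theorem mem_Qa : x ∈ Q a ↔ x • a = a ∧ ∀ b, adj a b → x • b = b := Iff.rfl

theorem mem_Ta : x ∈ T a b ↔ x • a = a ∧ x • b = b := Iff.rfl

theorem Ta_comm (a b : Γ) : T a b = T b a := inf_comm _ _

theorem Ta_le_left (a b : Γ) : T a b ≤ St a := inf_le_left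

theorem Ta_le_right (a b : Γ) : T a b ≤ St b := inf_le_right

theorem Qa_le_St (a : Γ) : Q a ≤ St a := fun _ h => h.1

theorem Qa_le_Ta (h : adj a b) : Q a ≤ T a b := fun _ hx => ⟨hx.1, hx.2 b h⟩

theorem conj_St (g : G) (a : Γ) : cj[g] (St a) = St (g • a) := by
  ext x
  rw [mem_conj, mem_stabilizer_iff, mem_stabilizer_iff, mul_smul, mul_smul, inv_smul_eq_iff]

theorem conj_Ta (g : G) (a b : Γ) : cj[g] (T a b) = T (g • a) (g • b) := by
  rw [Ta, conj_inf, conj_St, conj_St]; rfl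

theorem Wk.append {m n : ℕ} (h : Wk adj m a b) (h' : Wk adj n b c) : Wk adj (n + m) a c := by
  induction h with
  | nil => exact h'
  | cons h1 _ ih => exact Wk.cons h1 (ih h')

theorem Wk.one (h : adj a b) : Wk adj 1 a b := Wk.cons h (Wk.nil b)

theorem Wk.snoc {n : ℕ} (h : Wk adj n a b) (h' : adj b c) : Wk adj (n + 1) a c := by
  rw [add_comm]; exact h.append (Wk.one h')

theorem Wk.head {n : ℕ} (h : Wk adj (n + 1) a c) : ∃ b, adj a b ∧ Wk adj n b c := by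
  cases h with
  | cons h1 h2 => exact ⟨_, h1, h2⟩

theorem Wk.eq_zero (h : Wk adj 0 a c) : a = c := by cases h; rfl

namespace Amal
variable (A : Amal G adj)
include A

theorem smul_iff (g : G) : adj (g • a) (g • b) ↔ adj a b :=
  ⟨fun h => by simpa using A.smul g⁻¹ h, A.smul g⟩

theorem adj_of_fix (hx : x • a = a) (h : adj a b) : adj a (x • b) := by
  have := A.smul x h; rwa [hx] at this

theorem Qa_le_Ta' (h : adj a b) : Q b ≤ T a b := by rw [Ta_comm]; exact Qa_le_Ta (A.symm h)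

theorem conj_Qa (g : G) (a : Γ) : cj[g] (Q a) = Q (g • a) := by
  ext x
  rw [mem_conj, mem_Qa, mem_Qa, mul_smul, mul_smul, inv_smul_eq_iff]
  refine and_congr_right fun _ => ⟨fun h b hb => ?_, fun h b hb => ?_⟩
  · have := h (g⁻¹ • b) (by rwa [← A.smul_iff g, smul_inv_smul])
    rwa [mul_smul, mul_smul, smul_inv_smul, smul_left_cancel_iff] at this
  · rw [mul_smul, mul_smul, inv_smul_eq_iff]; exact h _ (A.smul g hb)

theorem conj_Za_le (g : G) (a : Γ) : cj[g] (Z a) ≤ Z (g • a) := by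
  rw [conj_le_iff, Za]
  refine iSup₂_le fun b hb => ?_
  rw [← conj_le_iff, conj_OZ, conj_Ta]
  exact le_iSup₂_of_le (f := fun b (_ : adj (g • a) b) => OZ (T (g • a) b)) (g • b) (A.smul g hb) le_rfl

theorem conj_Za (g : G) (a : Γ) : cj[g] (Z a) = Z (g • a) := by
  refine le_antisymm (A.conj_Za_le g a) ?_
  rw [le_conj_iff]
  simpa using A.conj_Za_le g⁻¹ (g • a)

theorem St_le_norm_Q (a : Γ) : St a ≤ N[Q a] := fun g hg =>
  conj_eq_self_iff.1 (by rw [A.conj_Qa, mem_stabilizer_iff.1 hg])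

theorem St_le_norm_Z (a : Γ) : St a ≤ N[Z a] := fun g hg =>
  conj_eq_self_iff.1 (by rw [A.conj_Za, mem_stabilizer_iff.1 hg])

theorem third {f f' : Γ} (hc : adj a c) (he : adj a e) (hf : adj a f) (hf' : adj a f') (h1 : e ≠ c)
    (h2 : f ≠ c) (h3 : f ≠ e) (h4 : f' ≠ c) (h5 : f' ≠ e) : f = f' := by
  obtain ⟨p, q, -, -, -, -, -, h⟩ := A.three hc
  rcases h e he with rfl | rfl | rfl <;> rcases h f hf with rfl | rfl | rfl <;>
    rcases h f' hf' with rfl | rfl | rfl <;> simp_all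

theorem exists_other (hb : adj a b) : ∃ c, adj a c ∧ c ≠ b := by
  obtain ⟨c, -, h, -, h', -⟩ := A.three hb
  exact ⟨c, h, h'⟩

theorem exists_third (hb : adj a b) (hc : adj a c) : ∃ d, adj a d ∧ d ≠ b ∧ d ≠ c := by
  obtain ⟨p, q, h1, h2, h3, h4, h5, h⟩ := A.three hb
  by_cases hp : p = c
  · exact ⟨q, h2, h4, hp ▸ h5.symm⟩
  · exact ⟨p, h1, h3, hp⟩

theorem mem_Q_of_fix (hx : x • a = a) (hb : adj a b) (hc : adj a c) (hne : c ≠ b) (h1 : x • b = b)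
    (h2 : x • c = c) : x ∈ Q a := by
  refine ⟨hx, fun e he => ?_⟩
  by_cases e1 : e = b
  · rw [e1, h1]
  by_cases e2 : e = c
  · rw [e2, h2]
  refine A.third hb hc (A.adj_of_fix hx he) he hne (fun h => e1 ?_) (fun h => e2 ?_) e1 e2
  · rw [← h1] at h; exact smul_left_cancel _ h
  · rw [← h2] at h; exact smul_left_cancel _ h

theorem moves_of_not_mem (hb : adj a b) (hx : x ∈ T a b) (hxQ : x ∉ Q a) (hc : adj a c) (hne : c ≠ b) :
    x • c ≠ c ∧ x • c ≠ b :=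
  ⟨fun h => hxQ (A.mem_Q_of_fix hx.1 hb hc hne hx.2 h), fun h => hne (by
    rw [← (mem_Ta.1 hx).2] at h; exact smul_left_cancel _ h)⟩

theorem inv_mul_mem (hb : adj a b) (hx : x ∈ T a b) (hy : y ∈ T a b) (hxQ : x ∉ Q a) (hyQ : y ∉ Q a) :
    x⁻¹ * y ∈ Q a := by
  obtain ⟨c, hc, hne⟩ := A.exists_other hb
  obtain ⟨h1, h2⟩ := A.moves_of_not_mem hb hx hxQ hc hne
  obtain ⟨h3, h4⟩ := A.moves_of_not_mem hb hy hyQ hc hne
  have h5 := A.third hb hc (A.adj_of_fix hx.1 hc) (A.adj_of_fix hy.1 hc) hne h2 h1 h4 h3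
  have h6 := mul_mem (inv_mem hx) hy
  exact A.mem_Q_of_fix h6.1 hb hc hne h6.2 (by rw [mul_smul, ← h5, inv_smul_smul])

theorem mul_mem' (hb : adj a b) (hx : x ∈ T a b) (hy : y ∈ T a b) (hxQ : x ∉ Q a) (hyQ : y ∉ Q a) :
    x * y ∈ Q a := by
  have := A.inv_mul_mem hb (inv_mem hx) hy (fun h => hxQ (inv_mem_iff.1 h)) hyQ
  rwa [inv_inv] at this

theorem gen {H : Subgroup G} (hc : adj a c) (hH : T a c ≤ H) (hxH : x ∈ H) (hx : x • a = a)
    (hm : x • c ≠ c) : St a ≤ H := fun g hg => by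
  have hg' : g • a = a := hg
  by_cases e1 : g • c = c
  · exact hH ⟨hg, e1⟩
  have key : ∀ y ∈ H, y • a = a → y • c = g • c → g ∈ H := fun y hy h1 h2 => by
    have : y⁻¹ * g ∈ T a c := mem_Ta.2 ⟨by rw [mul_smul, hg', inv_smul_eq_iff, h1],
      by rw [mul_smul, ← h2, inv_smul_smul]⟩
    simpa using mul_mem hy (hH this)
  by_cases e2 : g • c = x • c
  · exact key x hxH hx e2.symm
  obtain ⟨t, ht, htQ⟩ := A.moves hc
  have hxc := A.adj_of_fix hx hc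
  obtain ⟨h1, h2⟩ := A.moves_of_not_mem hc ht htQ hxc hm
  refine key (t * x) (mul_mem (hH ht) hxH) (by rw [mul_smul, hx]; exact ht.1) ?_
  rw [mul_smul]
  exact A.third hc hxc (A.adj_of_fix ht.1 hxc) (A.adj_of_fix hg' hc) hm h2 h1 e1 e2

theorem gen' {H : Subgroup G} (hb : adj a b) (hc : adj a c) (hne : c ≠ b) (hH : T a c ≤ H) (hxH : x ∈ H)
    (hx : x ∈ T a b) (hxQ : x ∉ Q a) : St a ≤ H :=
  A.gen hc hH hxH hx.1 (A.moves_of_not_mem hb hx hxQ hc hne).1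

theorem gen2 {H : Subgroup G} (hb : adj a b) (hc : adj a c) (hne : c ≠ b) (hH : T a c ≤ H)
    (hH' : T a b ≤ H) : St a ≤ H := by
  obtain ⟨t, ht, htQ⟩ := A.moves hb
  exact A.gen' hb hc hne hH (hH' ht) ht htQ

theorem OZ_le_Z (h : adj a b) : OZ (T a b) ≤ Z a :=
  le_iSup₂_of_le (f := fun b (_ : adj a b) => OZ (T a b)) b h le_rfl

theorem OZ_le_Z' (h : adj a b) : OZ (T a b) ≤ Z b := by rw [Ta_comm]; exact A.OZ_le_Z (A.symm h)

theorem Z_le_OZ (a : Γ) : Z a ≤ OZ (Q a) := by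
  refine iSup₂_le fun b hb => OZ_le_OZ (Qa_le_Ta hb) fun z hz => A.char hb ?_
  exact mem_inf.2 ⟨hz.1.1, cent_anti (Qa_le_Ta hb) hz.2.1⟩

theorem Z_le_Q (a : Γ) : Z a ≤ Q a := (A.Z_le_OZ a).trans (OZ_le _)

theorem Q_le_cent (a : Γ) : Q a ≤ C[Z a] := le_cent_symm ((A.Z_le_OZ a).trans (OZ_le_cent _))

theorem Z_sq (h : x ∈ Z a) : x * x = 1 := (A.Z_le_OZ a h).2.2

theorem Z_ne_bot (h : adj a b) : Z a ≠ ⊥ := by
  obtain ⟨z, hz, hn⟩ := A.ncen h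
  refine ne_bot_of_mem (A.OZ_le_Z h hz) fun h1 => hn ?_
  rw [h1, cent1_one]; exact le_top

theorem mem_Q_of_cent (hx : x • a = a) (h : x ∈ C[Z a]) : x ∈ Q a := by
  refine ⟨hx, fun c hc => ?_⟩
  by_contra hm
  obtain ⟨z, hz, hn⟩ := A.ncen hc
  exact hn (A.gen hc (mem_cent_iff_le_cent1.1 hz.2.1) (cent_le_cent1 (A.OZ_le_Z hc hz) h) hx hm)

theorem walk_symm {n : ℕ} (h : Wk adj n a b) : Wk adj n b a := by
  induction h with
  | nil => exact Wk.nil _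
  | cons h1 _ ih => exact ih.snoc (A.symm h1)

theorem walk_last {n : ℕ} (h : Wk adj (n + 1) a c) : ∃ b, Wk adj n a b ∧ adj c b := by
  obtain ⟨b, h1, h2⟩ := (A.walk_symm h).head
  exact ⟨b, A.walk_symm h2, h1⟩

theorem walk_smul (g : G) {n : ℕ} (h : Wk adj n a b) : Wk adj n (g • a) (g • b) := by
  induction h with
  | nil => exact Wk.nil _
  | cons h1 _ ih => exact Wk.cons (A.smul g h1) ih

theorem walk_even (k : ℕ) (h : Wk adj (2 * k) a b) : ∃ g : G, g • a = b := by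
  induction k generalizing a with
  | zero => exact ⟨1, by rw [one_smul]; exact h.eq_zero⟩
  | succ k ih =>
    obtain ⟨c, h1, h2⟩ := Wk.head (n := 2 * k + 1) h
    obtain ⟨d, h3, h4⟩ := h2.head
    obtain ⟨g, hg⟩ := ih h4
    obtain ⟨g', -, hg'⟩ := A.trans (A.symm h1) h3
    exact ⟨g * g', by rw [mul_smul, hg', hg]⟩

theorem exists_crit (h : adj a b) : ∃ n, ∃ c c', Wk adj n c c' ∧ ¬ Z c ≤ Q c' := by
  by_contra hc
  push Not at hc
  have hN : ∀ g : G, (∃ n, Wk adj n a (g • a)) →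
      cj[g] (⨆ (c : Γ) (_ : ∃ n, Wk adj n a c), Z c) ≤ ⨆ (c : Γ) (_ : ∃ n, Wk adj n a c), Z c := by
    rintro g ⟨m, hm⟩
    rw [conj_le_iff]
    refine iSup₂_le fun c ⟨n, hn⟩ => ?_
    rw [← conj_le_iff, A.conj_Za]
    exact le_iSup₂_of_le (f := fun c (_ : ∃ n, Wk adj n a c) => Z c) (g • c)
      ⟨_, hm.append (A.walk_smul g hn)⟩ le_rfl
  have hN' : ∀ (H : Subgroup G), (∀ g ∈ H, ∃ n, Wk adj n a (g • a)) →
      H ≤ N[(⨆ (c : Γ) (_ : ∃ n, Wk adj n a c), Z c : Subgroup G)] := fun H hH g hg => by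
    refine conj_eq_self_iff.1 (le_antisymm (hN g (hH g hg)) ?_)
    rw [le_conj_iff]; exact hN _ (hH _ (inv_mem hg))
  have := A.core h _ (iSup₂_le fun c ⟨n, hn⟩ => (hc n c a (A.walk_symm hn)).trans (Qa_le_Ta h))
    (hN' _ fun g hg => ⟨0, by rw [mem_stabilizer_iff.1 hg]; exact Wk.nil a⟩)
    (hN' _ fun g hg => ⟨2, Wk.cons h (Wk.one (A.adj_of_fix hg (A.symm h)))⟩)
  refine A.Z_ne_bot h (eq_bot_iff.2 (this ▸ ?_))
  exact le_iSup₂_of_le (f := fun c (_ : ∃ n, Wk adj n a c) => Z c) a ⟨0, Wk.nil a⟩ le_rfl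

theorem exists_Q_not_mem (h : adj a b) : ∃ q ∈ Q a, q ∉ Q b := by
  by_contra hc
  push Not at hc
  have he : Q a = Q b := by
    refine le_antisymm hc fun x hx => ?_
    by_contra hxa
    obtain ⟨t, ht, htQ⟩ := A.moves (A.symm h)
    rw [Ta_comm] at ht
    have := hc _ (A.inv_mul_mem h (A.Qa_le_Ta' h hx) ht hxa fun h' => htQ (hc t h'))
    exact htQ (by simpa using mul_mem hx this)
  have := A.core h _ (Qa_le_Ta h) (A.St_le_norm_Q a) (he ▸ A.St_le_norm_Q b)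
  exact A.Z_ne_bot h (eq_bot_iff.2 (this ▸ A.Z_le_Q a))

end Amal

/-- minimality of the critical distance -/
def Hmin (G : Type u) [Group G] {Γ : Type v} [MulAction G Γ] (adj : Γ → Γ → Prop) (n : ℕ) : Prop :=
  ∀ k < n, ∀ c c', Wk adj k c c' → (Za adj c : Subgroup G) ≤ Qa adj c'

/-- the normality property of a vertex -/
def NP (G : Type u) [Group G] {Γ : Type v} [MulAction G Γ] (adj : Γ → Γ → Prop) (a : Γ) : Prop :=
  ∀ b c, adj a b → adj a c → (Qa adj a : Subgroup G) ⊓ Qa adj b ≤ Qa adj c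

namespace Amal
variable (A : Amal G adj) {m : ℕ} {a1 b1 : Γ}
include A

theorem NP_smul (h : NP G adj a) (g : G) : NP G adj (g • a) := fun b c hb hc => by
  have := conj_mono g (h (g⁻¹ • b) (g⁻¹ • c) (by rwa [← A.smul_iff g, smul_inv_smul])
    (by rwa [← A.smul_iff g, smul_inv_smul]))
  rwa [conj_inf, A.conj_Qa, A.conj_Qa, A.conj_Qa, smul_inv_smul, smul_inv_smul] at this

theorem Z_le_T (hm : Hmin G adj (m + 1)) (h1 : adj a a1) (hw : Wk adj m a1 a') : Z a' ≤ T a a1 :=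
  (hm m (Nat.lt_succ_self m) _ _ (A.walk_symm hw)).trans (A.Qa_le_Ta' h1)

theorem Z_le_St (hm : Hmin G adj (m + 1)) (hw : Wk adj (m + 1) a a') : Z a' ≤ St a := by
  obtain ⟨a1, h1, h2⟩ := hw.head
  exact (A.Z_le_T hm h1 h2).trans (Ta_le_left _ _)

theorem crit_symm (hm : Hmin G adj (m + 1)) (hw : Wk adj (m + 1) a a') (hn : ¬ Z a ≤ Q a') :
    ¬ Z a' ≤ Q a := fun h => hn fun z hz =>
  A.mem_Q_of_cent (A.Z_le_St hm (A.walk_symm hw) hz) (le_cent_symm (h.trans (A.Q_le_cent a)) hz)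

theorem mem_OZ_iff (hm : Hmin G adj (m + 1)) (h1 : adj a a1) (hw : Wk adj m a1 a') (hn : ¬ Z a ≤ Q a')
    {z : G} (hz : z ∈ Z a) : z ∈ OZ (T a a1) ↔ z ∈ Q a' := by
  have hw' := Wk.cons h1 hw
  refine ⟨fun h => A.mem_Q_of_cent (A.Z_le_St hm (A.walk_symm hw') hz)
    (cent_anti (A.Z_le_T hm h1 hw) h.2.1), fun h => ⟨Qa_le_Ta h1 (A.Z_le_Q a hz), fun t ht => ?_, A.Z_sq hz⟩⟩
  obtain ⟨w, hw1, hw2⟩ := SetLike.not_le_iff_exists.1 (A.crit_symm hm hw' hn)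
  by_cases htQ : t ∈ Q a
  · exact (A.Q_le_cent a htQ z hz).symm
  have h2 := A.Q_le_cent a (A.inv_mul_mem h1 (A.Z_le_T hm h1 hw hw1) ht hw2 htQ) z hz
  have h3 := A.Q_le_cent a' h w hw1
  calc t * z = w * (w⁻¹ * t * z) := by group
    _ = w * z * (w⁻¹ * t) := by rw [← h2]; group
    _ = z * t := by rw [h3]; group

theorem comm_eq (hm : Hmin G adj (m + 1)) (h1 : adj a a1) (hw : Wk adj m a1 a') (hn : ¬ Z a ≤ Q a')
    {z z' t t' : G} (hz : z ∈ Z a) (hz' : z' ∈ Z a) (nz : z ∉ OZ (T a a1)) (nz' : z' ∉ OZ (T a a1))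
    (ht : t ∈ T a a1) (ht' : t' ∈ T a a1) (nt : t ∉ Q a) (nt' : t' ∉ Q a) : ⁅z, t⁆ = ⁅z', t'⁆ := by
  have hw' := Wk.cons h1 hw
  obtain ⟨b1, h2, h3⟩ := A.walk_last hw'
  have h4 := A.Z_le_T hm h3 (A.walk_symm h2)
  rw [A.mem_OZ_iff hm h1 hw hn hz] at nz
  rw [A.mem_OZ_iff hm h1 hw hn hz'] at nz'
  have h5 := (A.mem_OZ_iff hm h1 hw hn (mul_mem (inv_mem hz') hz)).2
    (A.inv_mul_mem h3 (h4 hz') (h4 hz) nz' nz)
  have h6 := A.Q_le_cent a (A.inv_mul_mem h1 ht' ht nt' nt) z hz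
  have h7 := h5.2.1 t' ht'
  obtain ⟨z0, rfl⟩ : ∃ z0, z = z' * z0 := ⟨z'⁻¹ * z, by group⟩
  obtain ⟨q, rfl⟩ : ∃ q, t = t' * q := ⟨t'⁻¹ * t, by group⟩
  simp only [inv_mul_cancel_left] at h6 h7
  simp only [commutatorElement_def]
  calc z' * z0 * (t' * q) * (z' * z0)⁻¹ * (t' * q)⁻¹
      = z' * z0 * t' * (z' * z0)⁻¹ * (z' * z0 * q) * (z' * z0)⁻¹ * (t' * q)⁻¹ := by group
    _ = z' * (z0 * t') * (z' * z0)⁻¹ * t'⁻¹ := by rw [h6]; group
    _ = _ := by rw [← h7]; group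

theorem exists_r (hm : Hmin G adj (m + 1)) (h1 : adj a a1) (hw : Wk adj m a1 a') (h2 : adj a' b1)
    (hw2 : Wk adj m a b1) (hn : ¬ Z a ≤ Q a') : ∃ r, r ≠ 1 ∧ r ∈ Z a ∧ r ∈ Z a' ∧ r ∈ OZ (T a a1) ∧
      r ∈ OZ (T a' b1) ∧ (∀ z ∈ Z a, z ∉ OZ (T a a1) → ∀ t ∈ T a a1, t ∉ Q a → ⁅z, t⁆ = r) ∧
      (∀ z ∈ Z a', z ∉ OZ (T a' b1) → ∀ t ∈ T a' b1, t ∉ Q a' → ⁅z, t⁆ = r) := by
  have hw' := Wk.cons h1 hw
  have hn' := A.crit_symm hm hw' hn
  have hw3 := A.walk_symm hw2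
  obtain ⟨w, hw4, hw5⟩ := SetLike.not_le_iff_exists.1 hn
  obtain ⟨w', hw6, hw7⟩ := SetLike.not_le_iff_exists.1 hn'
  have t1 := A.Z_le_T hm h1 hw
  have t2 := A.Z_le_T hm h2 hw3
  have n1 := (A.mem_OZ_iff hm h1 hw hn hw4).not.2 hw5
  have n2 := (A.mem_OZ_iff hm h2 hw3 hn' hw6).not.2 hw7
  have r1 : ⁅w, w'⁆ ∈ Z a := by
    rw [commutatorElement_def, mul_assoc, mul_assoc, ← mul_assoc w']
    exact mul_mem hw4 (conj_mem_of_le_norm (A.St_le_norm_Z a) (t1 hw6).1 (inv_mem hw4))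
  have r2 : ⁅w, w'⁆ ∈ Z a' :=
    mul_mem (conj_mem_of_le_norm (A.St_le_norm_Z a') (t2 hw4).1 hw6) (inv_mem hw6)
  have r3 : ⁅w', w⁆ = ⁅w, w'⁆ := by
    rw [← commutatorElement_inv]; exact inv_eq_of_mul_eq_one_right (A.Z_sq r1)
  refine ⟨⁅w, w'⁆, fun h => n1 ⟨Qa_le_Ta h1 (A.Z_le_Q a hw4), fun t ht => ?_, A.Z_sq hw4⟩, r1, r2,
    (A.mem_OZ_iff hm h1 hw hn r1).2 (A.Z_le_Q _ r2), (A.mem_OZ_iff hm h2 hw3 hn' r2).2 (A.Z_le_Q _ r1),
    fun z hz nz t ht nt => A.comm_eq hm h1 hw hn hz hw4 nz n1 ht (t1 hw6) nt hw7,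
    fun z hz nz t ht nt => r3 ▸ A.comm_eq hm h2 hw3 hn' hz hw6 nz n2 ht (t2 hw4) nt hw5⟩
  by_cases htQ : t ∈ Q a
  · exact (A.Q_le_cent a htQ w hw4).symm
  · have := A.comm_eq hm h1 hw hn hw4 hw4 n1 n1 ht (t1 hw6) htQ hw7
    rw [h, commutatorElement_eq_one_iff_mul_comm] at this
    exact this.symm

theorem comm_cases {r : G} (h : ∀ z ∈ Z a, z ∉ OZ (T a a1) → ∀ t ∈ T a a1, t ∉ Q a → ⁅z, t⁆ = r)
    {z t : G} (hz : z ∈ Z a) (ht : t ∈ T a a1) : ⁅z, t⁆ = 1 ∨ ⁅z, t⁆ = r := by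
  by_cases h1 : z ∈ OZ (T a a1)
  · exact Or.inl (commutatorElement_eq_one_iff_mul_comm.2 (h1.2.1 t ht).symm)
  by_cases h2 : t ∈ Q a
  · exact Or.inl (commutatorElement_eq_one_iff_mul_comm.2 (A.Q_le_cent a h2 z hz))
  exact Or.inr (h z hz h1 t ht h2)

variable [Finite G]

theorem mem_norm_sup (hm : Hmin G adj (m + 1)) (h1 : adj a a1) (hw : Wk adj m a1 a') (h2 : adj a' b1)
    (hw2 : Wk adj m a b1) (hn : ¬ Z a ≤ Q a') {Y : Subgroup G} (hY : Y ≤ T a' b1) :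
    Z a' ≤ N[Z a ⊔ Y] := fun w hw' => by
  obtain ⟨r, -, r1, -, -, -, -, r2⟩ := A.exists_r hm h1 hw h2 hw2 hn
  refine mem_norm_sup_of_comm (A.St_le_norm_Z a (A.Z_le_T hm h1 hw hw').1) fun k hk => ?_
  rw [← commutatorElement_inv]
  rcases A.comm_cases r2 hw' (hY hk) with h | h <;> rw [h]
  · exact inv_mem (one_mem _)
  · exact inv_mem r1

theorem stepA (hm : Hmin G adj (m + 1)) (h1 : adj a a1) (hw : Wk adj m a1 a') (h2 : adj a' b1)
    (hw2 : Wk adj m a b1) (hn : ¬ Z a ≤ Q a') (hc : adj a c) (hne : c ≠ a1) (h : Z c ≤ Q b1) :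
    NP G adj a := by
  obtain ⟨w, hw6, hw7⟩ := SetLike.not_le_iff_exists.1 (A.crit_symm hm (Wk.cons h1 hw) hn)
  have h3 : St a ≤ N[Z a ⊔ Z c] := A.gen' h1 hc hne (le_norm_sup ((Ta_le_left _ _).trans (A.St_le_norm_Z a))
      ((Ta_le_right _ _).trans (A.St_le_norm_Z c)))
    (A.mem_norm_sup hm h1 hw h2 hw2 hn (h.trans (A.Qa_le_Ta' h2)) hw6) (A.Z_le_T hm h1 hw hw6) hw7
  have h4 : Q a ⊓ C[Z a ⊔ Z c] = Q a ⊓ Q c := by
    rw [cent_sup]
    exact le_antisymm (fun x hx => ⟨hx.1, A.mem_Q_of_cent (hx.1.2 c hc) hx.2.2⟩)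
      (fun x hx => ⟨hx.1, A.Q_le_cent a hx.1, A.Q_le_cent c hx.2⟩)
  have h5 : ∀ b, adj a b → Q a ⊓ Q b = Q a ⊓ Q c := fun b hb => by
    obtain ⟨g, hg1, hg2⟩ := A.trans hc hb
    have := conj_eq_self ((h4 ▸ le_norm_inf (A.St_le_norm_Q a) (le_norm_cent h3)) hg1)
    rwa [conj_inf, A.conj_Qa, A.conj_Qa, hg1, hg2] at this
  intro b d hb hd
  rw [h5 b hb, ← h5 d hd]; exact inf_le_right

end Amal

end Cfsg.Agent.Cls
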