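import Cfsg.Agent.Cls.ZN2

/-! The critical distance of the amalgam is one; structure of the vertex stabilisers. -/

set_option autoImplicit false
set_option linter.unusedSectionVars false
set_option linter.unusedVariables false

namespace Cfsg.Agent.Cls
open Cfsg Subgroup Cfsg.Agent.GT MulAction
open scoped commutatorElement

universe u v

variable {G : Type u} [Group G] [Finite G] {Γ : Type v} [MulAction G Γ] {adj : Γ → Γ → Prop}
  {a b c d e a' : Γ} {x y : G}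

local notation "St" => stabilizer G
local notation "Q" => (Qa adj : Γ → Subgroup G)
local notation "Z" => (Za adj : Γ → Subgroup G)
local notation "T" => Ta G

namespace Amal
variable (A : Amal G adj) {m : ℕ} {a1 b1 b2 b3 : Γ}
include A

theorem central_eq_one (h : adj a b) {r : G} (hr : r ∈ T a b) (h1 : St a ≤ C1[r]) (h2 : St b ≤ C1[r]) :
    r = 1 := by
  have := A.core h (zpowers r) (zpowers_le.2 hr) ((cent_zpowers r ▸ h1).trans (cent_le_norm _))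
    ((cent_zpowers r ▸ h2).trans (cent_le_norm _))
  exact zpowers_eq_bot.1 this

theorem big_final (hm : Hmin G adj (m + 3)) (h1 : adj a a1) (hw : Wk adj (m + 2) a1 a')
    (hw3 : Wk adj m a b3) (e3 : adj b3 b2) (e2 : adj b2 b1) (e1 : adj b1 a') (hn : ¬ Z a ≤ Q a')
    (hc : adj a c) (hne : c ≠ a1) (h : ∀ d, adj c d → d ≠ a → ¬ Z d ≤ Q b2) : False := by
  obtain ⟨d, d', hd, hd', n1, n2, n3, -⟩ := A.three (A.symm hc)
  have w1 : Wk adj (m + 2) c b2 := Wk.cons (A.symm hc) (hw3.snoc e3)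
  have key : ∀ d, adj c d → d ≠ a → ∃ r, r ≠ 1 ∧ r ∈ Z d ∧ r ∈ Z b2 ∧ r ∈ OZ (T d c) ∧
      (∀ z ∈ Z b2, z ∉ OZ (T b2 b3) → ∀ t ∈ T b2 b3, t ∉ Q b2 → ⁅z, t⁆ = r) := fun d hd hda => by
    obtain ⟨r, r1, r2, r3, r4, -, -, r5⟩ := A.exists_r (m := m + 2) hm (A.symm hd) w1 (A.symm e3)
      (Wk.cons (A.symm hd) (Wk.cons (A.symm hc) hw3)) (h d hd hda)
    exact ⟨r, r1, r2, r3, r4, r5⟩
  obtain ⟨r, r1, r2, r3, r4, r5⟩ := key d hd n1
  obtain ⟨r', -, -, -, r4', r5'⟩ := key d' hd' n2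
  have w2 : Wk adj (m + 2) b3 d := A.walk_symm (Wk.cons (A.symm hd) (Wk.cons (A.symm hc) hw3))
  have hn2 := A.crit_symm (m := m + 2) hm (Wk.cons (A.symm hd) w1) (h d hd n1)
  obtain ⟨z, hz1, hz2⟩ := SetLike.not_le_iff_exists.1 hn2
  obtain ⟨t, ht1, ht2⟩ := A.moves (A.symm e3)
  have nz := (A.mem_OZ_iff (m := m + 2) hm (A.symm e3) w2 hn2 hz1).not.2 hz2
  have hr : r' = r := (r5' z hz1 nz t ht1 ht2).symm.trans (r5 z hz1 nz t ht1 ht2)
  subst hr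
  have c1 : St c ≤ C1[r'] := A.gen2 hd hd' n3.symm
    (Ta_comm (G := G) d' c ▸ mem_cent_iff_le_cent1.1 r4'.2.1) (Ta_comm (G := G) d c ▸ mem_cent_iff_le_cent1.1 r4.2.1)
  obtain ⟨w, hw6, hw7⟩ := SetLike.not_le_iff_exists.1 (A.crit_symm (m := m + 2) hm (Wk.cons h1 hw) hn)
  have c2 : St a ≤ C1[r'] := A.gen' h1 hc hne ((Ta_le_right _ _).trans c1)
    (cent_le_cent1 r3 (A.Q_le_cent b2 (hm 2 (by omega) _ _
      (Wk.cons (A.symm e1) (Wk.one (A.symm e2))) hw6))) (A.Z_le_T (m := m + 2) hm h1 hw hw6) hw7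
  exact r1 (A.central_eq_one hc (A.Qa_le_Ta' hc (hm 1 (by omega) _ _ (Wk.one (A.symm hd)) r2)) c2 c1)

theorem big_NP (hm : Hmin G adj (m + 3)) (h1 : adj a a1) (hw : Wk adj (m + 2) a1 a')
    (hw3 : Wk adj m a b3) (e3 : adj b3 b2) (e2 : adj b2 b1) (e1 : adj b1 a') (hn : ¬ Z a ≤ Q a')
    (hN : NP G adj a) (hc : adj a c) (hne : c ≠ a1) (hd : adj c d) (hda : d ≠ a) : ¬ Z d ≤ Q b2 := by
  intro h
  have w1 : Wk adj (m + 1) a b2 := hw3.snoc e3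
  have w2 : Wk adj (m + 2) a b1 := w1.snoc e2
  have hN2 : NP G adj b2 := by
    rcases Nat.even_or_odd m with ⟨k, hk⟩ | ⟨k, hk⟩
    · exfalso
      obtain ⟨g, hg⟩ := A.walk_even (k + 1) (by rw [show 2 * (k + 1) = m + 2 by omega]; exact w2)
      exact hn ((le_inf (hm _ (by omega) _ _ w2) (hm _ (by omega) _ _ w1)).trans
        ((hg ▸ A.NP_smul hN g : NP G adj b1) b2 a' (A.symm e2) e1))
    · obtain ⟨g, hg⟩ := A.walk_even (k + 1) (by rw [show 2 * (k + 1) = m + 1 by omega]; exact w1)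
      exact hg ▸ A.NP_smul hN g
  have h2 : Z d ≤ T a' b1 := ((le_inf h (hm (m + 2) (by omega) _ _
    (Wk.cons (A.symm hd) (Wk.cons (A.symm hc) hw3)))).trans (hN2 b3 b1 (A.symm e3) e2)).trans
      (A.Qa_le_Ta' (A.symm e1))
  have h3 := A.mem_norm_sup (m := m + 2) hm h1 hw (A.symm e1) w2 hn h2
  obtain ⟨q, hq1, hq2⟩ := A.exists_Q_not_mem hc
  have hqT : q ∈ T c a := A.Qa_le_Ta' (A.symm hc) hq1
  obtain ⟨m1, m2⟩ := A.moves_of_not_mem (A.symm hc) hqT hq2 hd hda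
  have hd' := A.adj_of_fix hqT.1 hd
  have hQ : Q c ≤ N[Z a ⊔ Z d] := le_norm_sup
    (((Qa_le_Ta (A.symm hc)).trans (Ta_le_right _ _)).trans (A.St_le_norm_Z a))
    (((Qa_le_Ta hd).trans (Ta_le_right _ _)).trans (A.St_le_norm_Z d))
  have t1 := A.Z_le_T (m := m + 2) hm h1 hw
  have h4 : Z a' ≤ N[Z a ⊔ Z (q • d)] := fun w hw' => by
    have h5 : cj[q] (Z a ⊔ Z d) = Z a ⊔ Z (q • d) := by
      rw [conj_sup, A.conj_Za, A.conj_Za, hq1.1]
    rw [← h5, ← conj_normalizer, mem_conj]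
    have hwa : w • a = a := (t1 hw').1
    have h6 : w⁻¹ * q⁻¹ * w ∈ Q a := conj_mem_of_le_norm' (A.St_le_norm_Q a) hwa (inv_mem hq1)
    have h7 : w⁻¹ * q⁻¹ * w ∉ Q c := fun h' => hq2 (by
      have h8 : q⁻¹ ∈ Q (w • c) := by rw [← A.conj_Qa, mem_conj]; exact h'
      exact inv_mem_iff.1 (hN _ c (A.adj_of_fix hwa hc) hc (mem_inf.2 ⟨inv_mem hq1, h8⟩)))
    have h8 := A.mul_mem' (A.symm hc) (A.Qa_le_Ta' (A.symm hc) h6) hqT h7 hq2
    rw [show q⁻¹ * w * q = w * (w⁻¹ * q⁻¹ * w * q) by group]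
    exact mul_mem (h3 hw') (hQ h8)
  set Y := (Z a ⊔ Z d) ⊔ (Z a ⊔ Z (q • d)) with hY
  have hle : ∀ e, adj c e → Z e ≤ Y := fun e he => by
    by_cases c1 : e = a
    · rw [c1]; exact le_sup_left.trans le_sup_left
    by_cases c2 : e = d
    · rw [c2]; exact le_sup_right.trans le_sup_left
    rw [A.third (A.symm hc) hd he hd' hda c1 c2 m2 m1]
    exact le_sup_right.trans le_sup_right
  have hYc : St c ≤ N[Y] := fun g hg => by
    refine mem_normalizer_of_conj_le ?_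
    rw [hY, conj_sup, conj_sup, conj_sup, A.conj_Za, A.conj_Za, A.conj_Za]
    exact sup_le (sup_le (hle _ (A.adj_of_fix hg (A.symm hc))) (hle _ (A.adj_of_fix hg hd)))
      (sup_le (hle _ (A.adj_of_fix hg (A.symm hc))) (hle _ (A.adj_of_fix hg hd')))
  obtain ⟨w, hw6, hw7⟩ := SetLike.not_le_iff_exists.1 (A.crit_symm (m := m + 2) hm (Wk.cons h1 hw) hn)
  have hYa : St a ≤ N[Y] := A.gen' h1 hc hne ((Ta_le_right _ _).trans hYc)
    (le_norm_sup h3 h4 hw6) (t1 hw6) hw7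
  have hq : ∀ e, adj c e → Z e ≤ T a c := fun e he =>
    (hm 1 (by omega) _ _ (Wk.one (A.symm he))).trans (A.Qa_le_Ta' hc)
  have := A.core hc Y (sup_le (sup_le (hq _ (A.symm hc)) (hq _ hd)) (sup_le (hq _ (A.symm hc)) (hq _ hd')))
    hYa hYc
  exact A.Z_ne_bot hc (eq_bot_iff.2 (this ▸ hle a (A.symm hc)))

theorem big (hm : Hmin G adj (m + 3)) (hw : Wk adj (m + 3) a a') (hn : ¬ Z a ≤ Q a') : False := by
  have dec : ∀ a a', Wk adj (m + 3) a a' → ∃ a1 b1 b2 b3 c, adj a a1 ∧ Wk adj (m + 2) a1 a' ∧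
      Wk adj m a b3 ∧ adj b3 b2 ∧ adj b2 b1 ∧ adj b1 a' ∧ adj a c ∧ c ≠ a1 := fun a a' hw => by
    obtain ⟨a1, h1, h2⟩ := hw.head
    obtain ⟨b1, h3, h4⟩ := A.walk_last hw
    obtain ⟨b2, h5, h6⟩ := A.walk_last h3
    obtain ⟨b3, h7, h8⟩ := A.walk_last h5
    obtain ⟨c, h9, h10⟩ := A.exists_other h1
    exact ⟨a1, b1, b2, b3, c, h1, h2, h7, A.symm h8, A.symm h6, A.symm h4, h9, h10⟩
  by_cases hN : ∃ a a', Wk adj (m + 3) a a' ∧ ¬ Z a ≤ Q a' ∧ NP G adj a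
  · obtain ⟨a, a', hw, hn, hN⟩ := hN
    obtain ⟨a1, b1, b2, b3, c, h1, h2, h3, e3, e2, e1, hc, hne⟩ := dec a a' hw
    exact A.big_final hm h1 h2 h3 e3 e2 e1 hn hc hne fun d hd hda =>
      A.big_NP hm h1 h2 h3 e3 e2 e1 hn hN hc hne hd hda
  · push Not at hN
    obtain ⟨a1, b1, b2, b3, c, h1, h2, h3, e3, e2, e1, hc, hne⟩ := dec a a' hw
    have w1 : Wk adj (m + 2) a b1 := (h3.snoc e3).snoc e2
    have n1 : ¬ Z c ≤ Q b1 := fun h =>
      hN a a' hw hn (A.stepA (m := m + 2) hm h1 h2 (A.symm e1) w1 hn hc hne h)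
    exact A.big_final hm h1 h2 h3 e3 e2 e1 hn hc hne fun d hd hda h =>
      hN c b1 (Wk.cons (A.symm hc) w1) n1 (A.stepA (m := m + 2) hm (A.symm hc) w1 (A.symm e2)
        (Wk.cons (A.symm hc) (h3.snoc e3)) n1 hd hda h)

theorem crit_all (hb : adj b a) (hb' : adj b a') (hne : a' ≠ a) (hn : ¬ Z a ≤ Q a') (hc : adj b c)
    (hd : adj b d) (hcd : d ≠ c) : ¬ Z c ≤ Q d := by
  obtain ⟨g, hg1, hg2⟩ := A.trans hb hc
  have h1 : ¬ Z c ≤ Q (g • a') := by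
    rw [← hg2, ← A.conj_Za, ← A.conj_Qa, conj_le_conj_iff]; exact hn
  by_cases h2 : g • a' = d
  · exact h2 ▸ h1
  obtain ⟨t, ht, htQ⟩ := A.moves hc
  have h3 := A.adj_of_fix hg1 hb'
  have h4 : g • a' ≠ c := fun h => hne (smul_left_cancel g (h.trans hg2.symm))
  obtain ⟨h5, h6⟩ := A.moves_of_not_mem hc ht htQ h3 h4
  rw [← A.third hc h3 (A.adj_of_fix ht.1 h3) hd h4 h6 h5 hcd (Ne.symm h2), ← (mem_Ta.1 ht).2,
    ← A.conj_Za, ← A.conj_Qa, conj_le_conj_iff]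
  exact h1

theorem two (hm : Hmin G adj 2) (hw : Wk adj 2 a a') (hn : ¬ Z a ≤ Q a') : False := by
  obtain ⟨b, h1, h2⟩ := hw.head
  obtain ⟨_, h3, h4⟩ := h2.head
  obtain rfl := h4.eq_zero
  rename_i a2
  have hb := A.symm h1
  have n12 : a2 ≠ a := fun h => hn (h ▸ A.Z_le_Q a)
  obtain ⟨a3, h4, n31, n32⟩ := A.exists_third hb h3
  have hr : ∀ c d, adj b c → adj b d → d ≠ c → ∃ r, r ≠ 1 ∧ r ∈ Z c ∧ r ∈ OZ (T c b) ∧
      r ∈ OZ (T d b) ∧ (∀ z ∈ Z c, z ∉ OZ (T c b) → ∀ t ∈ T c b, t ∉ Q c → ⁅z, t⁆ = r) ∧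
      (∀ z ∈ Z d, z ∉ OZ (T d b) → ∀ t ∈ T d b, t ∉ Q d → ⁅z, t⁆ = r) := fun c d hc hd hne => by
    obtain ⟨r, r1, r2, -, r3, r4, r5, r6⟩ := A.exists_r (m := 1) hm (A.symm hc) (Wk.one hd) (A.symm hd)
      (Wk.one (A.symm hc)) (A.crit_all hb h3 n12 hn hc hd hne)
    exact ⟨r, r1, r2, r3, r4, r5, r6⟩
  have hoz : ∀ c d, adj b c → adj b d → d ≠ c → ∀ z ∈ Z c, (z ∈ OZ (T c b) ↔ z ∈ Q d) :=
    fun c d hc hd hne z hz => A.mem_OZ_iff (m := 1) hm (A.symm hc) (Wk.one hd)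
      (A.crit_all hb h3 n12 hn hc hd hne) hz
  have hex : ∀ c, adj b c → ∃ w ∈ Z c, w ∉ OZ (T c b) := fun c hc => by
    obtain ⟨d, hd, hne⟩ := A.exists_other hc
    obtain ⟨w, hw1, hw2⟩ := SetLike.not_le_iff_exists.1 (A.crit_all hb h3 n12 hn hc hd hne)
    exact ⟨w, hw1, (hoz c d hc hd hne w hw1).not.2 hw2⟩
  have hZQ : ∀ c, adj b c → Z c ≤ Q b := fun c hc => hm 1 (by omega) _ _ (Wk.one (A.symm hc))
  have hZT : ∀ c d, adj b c → adj b d → Z c ≤ T d b := fun c d hc hd =>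
    (hZQ c hc).trans (A.Qa_le_Ta' (A.symm hd))
  obtain ⟨w1, z1, o1⟩ := hex a hb
  obtain ⟨w2, z2, o2⟩ := hex a2 h3
  obtain ⟨w3, z3, o3⟩ := hex a3 h4
  obtain ⟨r, r1, r2, r3, r4, r5, r6⟩ := hr a a2 hb h3 n12
  have q21 : w2 ∉ Q a := (hoz a2 a h3 hb n12.symm w2 z2).not.1 o2
  have c12 : ⁅w1, w2⁆ = r := r5 w1 z1 o1 w2 (hZT _ _ h3 hb z2) q21
  have c13 : ⁅w1, w3⁆ = r := r5 w1 z1 o1 w3 (hZT _ _ h4 hb z3) ((hoz a3 a h4 hb n31.symm w3 z3).not.1 o3)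
  have c23 : ⁅w2, w3⁆ = r := r6 w2 z2 o2 w3 (hZT _ _ h4 h3 z3) ((hoz a3 a2 h4 h3 n32.symm w3 z3).not.1 o3)
  have cr : ∀ x ∈ Q b, Commute r x := fun x hx => (r3.2.1 x (A.Qa_le_Ta' h1 hx)).symm
  have k1 := cr w1 (hZQ _ hb z1)
  have k2 := cr w2 (hZQ _ h3 z2)
  have k3 := cr w3 (hZQ _ h4 z3)
  have rr := A.Z_sq r2
  have s1 := A.Z_sq z1
  have s2 := A.Z_sq z2
  have s3 := A.Z_sq z3
  have e12 : w1 * w2 = r * (w2 * w1) := by rw [← c12, commutatorElement_def]; group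
  have e13 : w1 * w3 = r * (w3 * w1) := by rw [← c13, commutatorElement_def]; group
  have e23 : w2 * w3 = r * (w3 * w2) := by rw [← c23, commutatorElement_def]; group
  have f21 : w2 * w1 = r * (w1 * w2) := by rw [e12, ← mul_assoc, rr, one_mul]
  have f31 : w3 * w1 = r * (w1 * w3) := by rw [e13, ← mul_assoc, rr, one_mul]
  have f32 : w3 * w2 = r * (w2 * w3) := by rw [e23, ← mul_assoc, rr, one_mul]
  have p1 : w1 * (w1 * w2 * w3) = w1 * w2 * w3 * w1 := by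
    calc w1 * (w1 * w2 * w3) = w1 * (r * r) * (w1 * w2 * w3) := by rw [rr, mul_one]
      _ = w1 * r * (r * (w1 * w2)) * w3 := by group
      _ = w1 * (r * w2) * (w1 * w3) := by rw [← f21]; group
      _ = w1 * w2 * (r * (w1 * w3)) := by rw [k2.eq]; group
      _ = _ := by rw [← f31]; group
  have p2 : w2 * (w1 * w2 * w3) = w1 * w2 * w3 * w2 := by
    calc w2 * (w1 * w2 * w3) = (w2 * w1) * w2 * w3 := by group
      _ = (r * w1) * w2 * (w2 * w3) := by rw [f21]; group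
      _ = w1 * (r * w2) * (w2 * w3) := by rw [k1.eq]; group
      _ = w1 * w2 * (r * (w2 * w3)) := by rw [k2.eq]; group
      _ = _ := by rw [← f32]; group
  have psq : w1 * w2 * w3 * (w1 * w2 * w3) = r := by
    calc w1 * w2 * w3 * (w1 * w2 * w3) = (w1 * w2 * w3 * w1) * w2 * w3 := by group
      _ = (w1 * w1) * w2 * (w3 * w2) * w3 := by rw [← p1]; group
      _ = (w2 * r) * w2 * (w3 * w3) := by rw [s1, f32]; group
      _ = r * (w2 * w2) := by rw [s3, ← k2.eq]; group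
      _ = r := by rw [s2, mul_one]
  set c := w1 * w2 * w3 with hc
  have cb : c ∈ Q b := mul_mem (mul_mem (hZQ _ hb z1) (hZQ _ h3 z2)) (hZQ _ h4 z3)
  clear_value c
  have ca : c ∈ Q a := by
    refine A.mem_Q_of_cent (cb.2 a hb) fun z hz => ?_
    have hcz : ∀ z ∈ OZ (T a b), z * c = c * z := fun z hz => A.Q_le_cent b cb z (A.OZ_le_Z' h1 hz)
    by_cases h : z ∈ OZ (T a b)
    · exact hcz z h
    have h5 := hcz _ ((hoz a a2 hb h3 n12 _ (mul_mem (inv_mem z1) hz)).2 (A.inv_mul_mem (A.symm h3)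
      (hZT _ _ hb h3 z1) (hZT _ _ hb h3 hz) ((hoz a a2 hb h3 n12 _ z1).not.1 o1)
      ((hoz a a2 hb h3 n12 _ hz).not.1 h)))
    calc z * c = w1 * (w1⁻¹ * z * c) := by group
      _ = (w1 * c) * (w1⁻¹ * z) := by rw [h5]; group
      _ = c * z := by rw [p1]; group
  obtain ⟨γ, hγ, nγ⟩ := A.exists_other h1
  have w2T : w2 ∈ T a b := hZT _ _ h3 hb z2
  obtain ⟨m1, m2⟩ := A.moves_of_not_mem h1 w2T q21 hγ nγ
  obtain ⟨c', ha', hc', hsq⟩ : ∃ c' ∈ Q a, (∀ e, adj a e → c' ∈ Q e) ∧ c' * c' = r := by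
    by_cases hN : NP G adj a
    · exact ⟨c, ca, fun e he => hN b e h1 he (mem_inf.2 ⟨ca, cb⟩), psq⟩
    have fin : ∀ c' ∈ Q a, c' ∈ Q b → c' ∈ Q γ → w2 * c' = c' * w2 → ∀ e, adj a e → c' ∈ Q e :=
      fun c' i1 i2 i3 i4 e he => by
        by_cases j1 : e = b
        · rw [j1]; exact i2
        by_cases j2 : e = γ
        · rw [j2]; exact i3
        rw [A.third h1 hγ he (A.adj_of_fix w2T.1 hγ) nγ j1 j2 m2 m1, ← A.conj_Qa, mem_conj,
          mul_assoc, ← i4, inv_mul_cancel_left]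
        exact i3
    by_cases hcγ : c ∈ Q γ
    · exact ⟨c, ca, fin c ca cb hcγ p2, psq⟩
    have n1 : ¬ Z γ ≤ Q b := fun h => hN (A.stepA (m := 1) hm h1 (Wk.one h3) (A.symm h3) (Wk.one h1) hn
      hγ nγ h)
    obtain ⟨w, hw1, hw2⟩ := SetLike.not_le_iff_exists.1
      (A.crit_symm (m := 1) hm (Wk.cons (A.symm hγ) (Wk.one h1)) n1)
    have wa : w ∈ Q a := hm 1 (by omega) _ _ (Wk.one hb) hw1
    have i1 : w * c = c * w := A.Q_le_cent b cb w hw1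
    have i2 : w * w2 = w2 * w := A.Q_le_cent b (hZQ _ h3 z2) w hw1
    refine ⟨c * w, mul_mem ca wa, fin _ (mul_mem ca wa) (mul_mem cb (A.Z_le_Q b hw1))
      (A.mul_mem' (A.symm hγ) (A.Qa_le_Ta' (A.symm hγ) ca) (A.Qa_le_Ta' (A.symm hγ) wa) hcγ hw2) ?_, ?_⟩
    · rw [← mul_assoc, p2, mul_assoc, ← i2, mul_assoc]
    · calc c * w * (c * w) = c * (w * c) * w := by group
        _ = c * c * (w * w) := by rw [i1]; group
        _ = r := by rw [psq, A.Z_sq hw1, mul_one]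
  obtain ⟨g, hg1, hg2⟩ := A.trans h1 hγ
  have i1 : g * c' * g⁻¹ ∈ Q b := by
    have := hc' (g⁻¹ • b) (A.adj_of_fix (inv_smul_eq_iff.2 hg1.symm) h1)
    rw [← A.conj_Qa, mem_conj, inv_inv] at this
    exact this
  have i2 : w2 * (g * r * g⁻¹) = g * r * g⁻¹ * w2 := by
    have i3 : g * r * g⁻¹ = (g * c' * g⁻¹) * (g * c' * g⁻¹) := by rw [← hsq]; group
    rw [i3]
    generalize g * c' * g⁻¹ = c1 at i1
    have k := cr c1 i1
    rcases A.comm_cases r6 z2 (A.Qa_le_Ta' (A.symm h3) i1) with h | h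
    · have := commutatorElement_eq_one_iff_mul_comm.1 h
      rw [← mul_assoc, this, mul_assoc, this, mul_assoc]
    · have e : w2 * c1 = r * (c1 * w2) := by rw [← h, commutatorElement_def]; group
      calc w2 * (c1 * c1) = (w2 * c1) * c1 := by group
        _ = r * (c1 * w2) * c1 := by rw [e]
        _ = r * c1 * (w2 * c1) := by group
        _ = (r * c1) * r * c1 * w2 := by rw [e]; group
        _ = c1 * (r * r) * c1 * w2 := by rw [k.eq]; group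
        _ = _ := by rw [rr]; group
  have i3 : St b ≤ C1[r] := A.gen2 hb h3 n12 (Ta_comm (G := G) a2 b ▸ mem_cent_iff_le_cent1.1 r4.2.1)
    (Ta_comm (G := G) a b ▸ mem_cent_iff_le_cent1.1 r3.2.1)
  have i4 : St γ ≤ C1[g * r * g⁻¹] := by
    rw [← hg2, ← conj_St, ← conj_cent1]; exact conj_mono g i3
  have i5 : St a ≤ C1[g * r * g⁻¹] := A.gen hγ ((Ta_le_right _ _).trans i4) (mem_cent1.2 i2) w2T.1 m1
  have i6 : g * r * g⁻¹ ∈ T a γ := Qa_le_Ta hγ (conj_mem_of_le_norm (A.St_le_norm_Q a) hg1 (A.Z_le_Q a r2))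
  exact r1 (conj_eq_one_iff.1 (A.central_eq_one hγ i6 i5 i4))

theorem hmin_one : Hmin G adj 1 := fun k hk c c' h => by
  obtain rfl : k = 0 := by omega
  rw [← h.eq_zero]; exact A.Z_le_Q c

theorem dist_one (h : adj a b) : ¬ Z a ≤ Q b := by
  classical
  have hex := A.exists_crit h
  obtain ⟨c, c', hw, hn⟩ := Nat.find_spec hex
  have hm : Hmin G adj (Nat.find hex) := fun k hk c c' hw => by
    by_contra h'
    exact Nat.find_min hex hk ⟨c, c', hw, h'⟩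
  generalize Nat.find hex = n at hw hm
  rcases n with _ | _ | _ | n
  · exact absurd (hw.eq_zero ▸ A.Z_le_Q c) hn
  · have hn' := A.crit_symm (m := 0) hm hw hn
    obtain ⟨_, h1, h2⟩ := hw.head
    obtain rfl := h2.eq_zero
    obtain ⟨g, ⟨rfl, rfl⟩ | ⟨rfl, rfl⟩⟩ := A.etrans h1 h
    · rwa [← A.conj_Za, ← A.conj_Qa, conj_le_conj_iff]
    · rwa [← A.conj_Za, ← A.conj_Qa, conj_le_conj_iff]
  · exact (A.two hm hw hn).elim
  · exact (A.big hm hw hn).elim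

end Amal

end Cfsg.Agent.Cls
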