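import Cfsg.Agent.Cls.ZN3

/-! The structure of the amalgam when the critical distance is one. -/

set_option autoImplicit false
set_option linter.unusedSectionVars false
set_option linter.unusedVariables false

namespace Cfsg.Agent.Cls
open Cfsg Subgroup Cfsg.Agent.GT MulAction
open scoped commutatorElement

universe u v

variable {G : Type u} [Group G] [Finite G] {Γ : Type v} [MulAction G Γ] {adj : Γ → Γ → Prop}
  {a b c d e : Γ} {x y t r u g : G}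

local notation "St" => stabilizer G
local notation "Q" => (Qa adj : Γ → Subgroup G)
local notation "Z" => (Za adj : Γ → Subgroup G)
local notation "T" => Ta G

/-- the commutator attached to an edge -/
structure RR (adj : Γ → Γ → Prop) (a b : Γ) (r : G) : Prop where
  ne : r ≠ 1
  memL : r ∈ (Qa adj a : Subgroup G)
  memR : r ∈ (Qa adj b : Subgroup G)
  commL : ∀ x ∈ (Qa adj a : Subgroup G), x ∉ (Qa adj b : Subgroup G) → ∀ t ∈ Ta G a b,
    t ∉ (Qa adj a : Subgroup G) → ⁅x, t⁆ = r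
  commR : ∀ x ∈ (Qa adj b : Subgroup G), x ∉ (Qa adj a : Subgroup G) → ∀ t ∈ Ta G a b,
    t ∉ (Qa adj b : Subgroup G) → ⁅x, t⁆ = r

theorem RR.symm (h : RR adj a b r) : RR adj b a r :=
  ⟨h.ne, h.memR, h.memL, fun x h1 h2 t h3 => h.commR x h1 h2 t (Ta_comm (G := G) b a ▸ h3),
    fun x h1 h2 t h3 => h.commL x h1 h2 t (Ta_comm (G := G) b a ▸ h3)⟩

theorem cT : g * x * g⁻¹ ∈ T (g • a) (g • b) ↔ x ∈ T a b := by rw [← conj_Ta, conj_mem_conj]

theorem Ta_symm (h : x ∈ T a b) : x ∈ T b a := ⟨h.2, h.1⟩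

namespace Amal
variable (A : Amal G adj)
include A

theorem cQ : g * x * g⁻¹ ∈ Q (g • a) ↔ x ∈ Q a := by rw [← A.conj_Qa, conj_mem_conj]

theorem sq_mem (h : adj a b) (hx : x ∈ Q a) : ∃ y ∈ Q a ⊓ Q b, x * x = y * y := by
  by_cases hb : x ∈ Q b
  · exact ⟨x, mem_inf.2 ⟨hx, hb⟩, rfl⟩
  obtain ⟨w, h1, h2⟩ := SetLike.not_le_iff_exists.1 (A.dist_one h)
  have h3 := A.Z_le_Q a h1
  have h4 := A.inv_mul_mem (A.symm h) (Ta_symm (Qa_le_Ta h h3)) (Ta_symm (Qa_le_Ta h hx)) h2 hb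
  refine ⟨w⁻¹ * x, mem_inf.2 ⟨mul_mem (inv_mem h3) hx, h4⟩, ?_⟩
  have h5 := A.Q_le_cent a hx w h1
  have h6 := inv_eq_of_mul_eq_one_right (A.Z_sq h1)
  rw [h6]
  calc x * x = w * w * x * x := by rw [A.Z_sq h1, one_mul]
    _ = w * (w * x) * x := by group
    _ = w * (x * w) * x := by rw [h5]
    _ = _ := by group

theorem Q_sq (h : adj a b) (hx : x ∈ Q a) : x * x = 1 := by
  have hN : ∀ c : Γ, St c ≤ N[closure {z : G | ∃ y ∈ Q c, z = y * y}] := fun c g hg => by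
    refine mem_normalizer_of_conj_le ?_
    rw [conj_le_iff, closure_le]
    rintro _ ⟨y, hy, rfl⟩
    refine mem_conj.2 (subset_closure ⟨g * y * g⁻¹, conj_mem_of_le_norm (A.St_le_norm_Q c) hg hy, ?_⟩)
    group
  have he : {z : G | ∃ y ∈ Q a, z = y * y} = {z : G | ∃ y ∈ Q b, z = y * y} := by
    ext z
    constructor
    · rintro ⟨y, hy, rfl⟩
      obtain ⟨y', h1, h2⟩ := A.sq_mem h hy
      exact ⟨y', h1.2, h2⟩
    · rintro ⟨y, hy, rfl⟩
      obtain ⟨y', h1, h2⟩ := A.sq_mem (A.symm h) hy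
      exact ⟨y', h1.2, h2⟩
  have := A.core h _ ((closure_le _).2 (by
    rintro _ ⟨y, hy, rfl⟩; exact Qa_le_Ta h (mul_mem hy hy))) (hN a) (he ▸ hN b)
  exact mem_bot.1 (this ▸ subset_closure ⟨x, hx, rfl⟩)

theorem Q_inv (h : adj a b) (hx : x ∈ Q a) : x⁻¹ = x := inv_eq_of_mul_eq_one_right (A.Q_sq h hx)

theorem Q_comm (h : adj a b) (hx : x ∈ Q a) (hy : y ∈ Q a) : x * y = y * x := by
  rw [← A.Q_inv h (mul_mem hx hy), mul_inv_rev, A.Q_inv h hx, A.Q_inv h hy]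

theorem D_comm (h : adj a b) (hx : x ∈ Q a) (hx' : x ∈ Q b) (ht : t ∈ T a b) : t * x = x * t := by
  by_cases h1 : t ∈ Q a
  · exact A.Q_comm h h1 hx
  obtain ⟨w, h2, h3⟩ := A.exists_Q_not_mem (A.symm h)
  have h4 := A.Q_comm h (A.inv_mul_mem h (A.Qa_le_Ta' h h2) ht h3 h1) hx
  have h5 := A.Q_comm (A.symm h) h2 hx'
  calc t * x = w * (w⁻¹ * t * x) := by group
    _ = w * x * (w⁻¹ * t) := by rw [h4]; group
    _ = x * t := by rw [h5]; group

theorem mem_OZ_T (h : adj a b) : x ∈ OZ (T a b) ↔ x ∈ Q a ∧ x ∈ Q b :=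
  ⟨fun hx => ⟨A.Z_le_Q a (A.OZ_le_Z h hx), A.Z_le_Q b (A.OZ_le_Z' h hx)⟩,
    fun hx => ⟨Qa_le_Ta h hx.1, fun t ht => A.D_comm h hx.1 hx.2 ht, A.Q_sq h hx.1⟩⟩

theorem Q_le_Z (h : adj a b) : Q a ≤ Z a := fun x hx => by
  by_cases hb : x ∈ Q b
  · exact A.OZ_le_Z h ((A.mem_OZ_T h).2 ⟨hx, hb⟩)
  obtain ⟨w, h1, h2⟩ := SetLike.not_le_iff_exists.1 (A.dist_one h)
  have h3 := A.Z_le_Q a h1
  have h4 := A.inv_mul_mem (A.symm h) (Ta_symm (Qa_le_Ta h h3)) (Ta_symm (Qa_le_Ta h hx)) h2 hb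
  simpa using mul_mem h1 (A.OZ_le_Z h ((A.mem_OZ_T h).2 ⟨mul_mem (inv_mem h3) hx, h4⟩))

theorem exists_RR (h : adj a b) : ∃ r : G, RR adj a b r := by
  obtain ⟨r, h1, h2, h3, -, -, h4, h5⟩ := A.exists_r (m := 0) A.hmin_one h (Wk.nil b) (A.symm h)
    (Wk.nil a) (A.dist_one h)
  exact ⟨r, h1, A.Z_le_Q a h2, A.Z_le_Q b h3, fun x hx nx t ht nt => h4 x (A.Q_le_Z h hx)
    (fun h' => nx ((A.mem_OZ_T h).1 h').2) t ht nt, fun x hx nx t ht nt => h5 x (A.Q_le_Z (A.symm h) hx)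
    (fun h' => nx ((A.mem_OZ_T (A.symm h)).1 h').2) t (Ta_symm ht) nt⟩

theorem r_comm (h : adj a b) (R : RR adj a b r) (ht : t ∈ T a b) : t * r = r * t :=
  A.D_comm h R.memL R.memR ht

theorem r_sq (h : adj a b) (R : RR adj a b r) : r * r = 1 := A.Q_sq h R.memL

/-- conjugation formula -/
theorem conj_L (h : adj a b) (R : RR adj a b r) (hx : x ∈ Q a) (nx : x ∉ Q b) (ht : t ∈ T a b)
    (nt : t ∉ Q a) : t * x * t⁻¹ = x * r := by
  rw [← R.commL x hx nx t ht nt, commutatorElement_def, A.Q_inv h hx]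
  calc t * x * t⁻¹ = x * x * t * x * t⁻¹ := by rw [A.Q_sq h hx, one_mul]
    _ = _ := by group

theorem conj_cases (h : adj a b) (R : RR adj a b r) (hx : x ∈ Q a) (ht : t ∈ T a b) :
    t * x * t⁻¹ = x ∨ t * x * t⁻¹ = x * r := by
  by_cases h1 : x ∈ Q b
  · left; rw [A.D_comm h hx h1 ht]; group
  by_cases h2 : t ∈ Q a
  · left; rw [A.Q_comm h h2 hx]; group
  exact Or.inr (A.conj_L h R hx h1 ht h2)

theorem sq_eq_r (h : adj a b) (R : RR adj a b r) (ht : t ∈ T a b) (h1 : t ∉ Q a) (h2 : t ∉ Q b) :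
    t * t = r := by
  obtain ⟨w, h3, h4⟩ := A.exists_Q_not_mem (A.symm h)
  have h5 := A.inv_mul_mem h (A.Qa_le_Ta' h h3) ht h4 h1
  obtain ⟨q, rfl⟩ : ∃ q, t = w * q := ⟨w⁻¹ * t, by group⟩
  rw [inv_mul_cancel_left] at h5
  have h6 := A.conj_L h R h5 (fun h' => h2 (mul_mem h3 h')) (A.Qa_le_Ta' h h3) h4
  rw [A.Q_inv (A.symm h) h3] at h6
  calc w * q * (w * q) = w * q * w * q := by group
    _ = q * (r * q) := by rw [h6]; group
    _ = q * q * r := by rw [← A.r_comm h R (Qa_le_Ta h h5)]; group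
    _ = r := by rw [A.Q_sq h h5, one_mul]

theorem sq_cases (h : adj a b) (R : RR adj a b r) (ht : t ∈ T a b) : t * t = 1 ∨ t * t = r := by
  by_cases h1 : t ∈ Q a
  · exact Or.inl (A.Q_sq h h1)
  by_cases h2 : t ∈ Q b
  · exact Or.inl (A.Q_sq (A.symm h) h2)
  exact Or.inr (A.sq_eq_r h R ht h1 h2)

theorem invol (h : adj a b) (ht : t ∈ T a b) (h1 : t * t = 1) : t ∈ Q a ∨ t ∈ Q b := by
  obtain ⟨r, R⟩ := A.exists_RR h
  by_contra hc
  push Not at hc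
  exact R.ne ((A.sq_eq_r h R ht hc.1 hc.2).symm.trans h1)

theorem exists_sq (h : adj a b) : ∃ t ∈ T a b, t ∉ Q a ∧ t ∉ Q b := by
  obtain ⟨w, h1, h2⟩ := A.exists_Q_not_mem h
  obtain ⟨w', h3, h4⟩ := A.exists_Q_not_mem (A.symm h)
  refine ⟨w * w', mul_mem (Qa_le_Ta h h1) (A.Qa_le_Ta' h h3), fun h' => h4 ?_, fun h' => h2 ?_⟩
  · simpa using mul_mem (inv_mem h1) h'
  · simpa using mul_mem h' (inv_mem h3)

theorem RR_unique (h : adj a b) (R : RR adj a b r) (R' : RR adj a b u) : u = r := by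
  obtain ⟨t, h1, h2, h3⟩ := A.exists_sq h
  rw [← A.sq_eq_r h R h1 h2 h3, ← A.sq_eq_r h R' h1 h2 h3]

theorem RR_conj (h : adj a b) (R : RR adj a b r) (g : G) : RR adj (g • a) (g • b) (g * r * g⁻¹) := by
  obtain ⟨u, R'⟩ := A.exists_RR (A.smul g h)
  obtain ⟨t, h1, h2, h3⟩ := A.exists_sq h
  have := A.sq_eq_r (A.smul g h) R' (cT.2 h1) (A.cQ.not.2 h2) (A.cQ.not.2 h3)
  rw [← A.sq_eq_r h R h1 h2 h3, show g * (t * t) * g⁻¹ = g * t * g⁻¹ * (g * t * g⁻¹) by group, this]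
  exact R'

theorem fix_r (h : adj a b) (R : RR adj a b r) (hg : g ∈ N[T a b]) : g * r * g⁻¹ = r := by
  obtain ⟨t, h1, h2, h3⟩ := A.exists_sq h
  have h4 := A.sq_eq_r h R h1 h2 h3
  have h5 : g * r * g⁻¹ = g * t * g⁻¹ * (g * t * g⁻¹) := by rw [← h4]; group
  rcases A.sq_cases h R (conj_mem_of_mem_norm hg h1) with h6 | h6
  · rw [← h5] at h6
    exact absurd (by simpa using h6) R.ne
  · rw [h5, h6]

theorem not_comm (h : adj a b) (hx : x ∈ Q a) (nx : x ∉ Q b) (ht : t ∈ T a b) (nt : t ∉ Q a) :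
    t * x ≠ x * t := fun h' => by
  obtain ⟨r, R⟩ := A.exists_RR h
  exact R.ne ((R.commL x hx nx t ht nt).symm.trans (commutatorElement_eq_one_iff_mul_comm.2 h'.symm))

theorem elemAb_cases (h : adj a b) {E : Subgroup G} (hE : IsElementaryAbelian 2 E) (hT : E ≤ T a b) :
    E ≤ Q a ∨ E ≤ Q b := by
  by_contra hc
  push Not at hc
  obtain ⟨x, h1, h2⟩ := SetLike.not_le_iff_exists.1 hc.1
  obtain ⟨y, h3, h4⟩ := SetLike.not_le_iff_exists.1 hc.2
  have h5 := (A.invol h (hT h3) (by rw [← pow_two]; exact hE.2 y h3)).resolve_right h4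
  exact A.not_comm h h5 h4 (hT h1) h2 (isMulCommutative_iff_forall.1 hE.1 x h1 y h3)

theorem elemAb_Q (h : adj a b) : IsElementaryAbelian 2 (Q a) :=
  ⟨isMulCommutative_iff_forall.2 fun _ hx _ hy => A.Q_comm h hx hy,
    fun x hx => by rw [pow_two]; exact A.Q_sq h hx⟩

theorem not_central (h : adj a b) (R : RR adj a b r) : ¬ St a ≤ C1[r] := fun hc => by
  obtain ⟨w, h1, h2⟩ := A.exists_Q_not_mem (A.symm h)
  obtain ⟨c, hc1, hc2⟩ := A.exists_other h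
  obtain ⟨γ, g1, g2⟩ := A.trans h hc1
  have hw := A.Qa_le_Ta' h h1
  have R' := A.RR_conj h R γ
  rw [g1, g2, mem_cent1.1 (hc g1), mul_inv_cancel_right] at R'
  have hw' : γ * w * γ⁻¹ ∈ T a c := by have := (cT (g := γ)).2 hw; rwa [g1, g2] at this
  have nw' : γ * w * γ⁻¹ ∉ Q a := by have := (A.cQ (g := γ)).not.2 h2; rwa [g1] at this
  set w' := γ * w * γ⁻¹
  have k1 : ∀ x ∈ Q a, w * w' * x * (w * w')⁻¹ = x ∨ w * w' * x * (w * w')⁻¹ = x * r := fun x hx => by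
    have e1 : w * w' * x * (w * w')⁻¹ = w * (w' * x * w'⁻¹) * w⁻¹ := by group
    have e2 : w * (x * r) * w⁻¹ = w * x * w⁻¹ * r := by
      rw [mul_assoc (w * x), A.r_comm h R (inv_mem hw)]; group
    rcases A.conj_cases hc1 R' hx hw' with h3 | h3 <;> rw [e1, h3]
    · exact A.conj_cases h R hx hw
    · rw [e2]
      rcases A.conj_cases h R hx hw with h4 | h4 <;> rw [h4]
      · exact Or.inr rfl
      · left; rw [mul_assoc, A.r_sq h R, mul_one]
  have k0 := mul_mem hw.1 hw'.1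
  have k2 : w * w' * (w * w') ∈ Q a := A.char h (mem_inf.2 ⟨mul_mem k0 k0, fun x hx => ?_⟩)
  · obtain ⟨m1, m2⟩ := A.moves_of_not_mem hc1 hw' nw' h hc2.symm
    obtain ⟨m3, m4⟩ := A.moves_of_not_mem h hw h2 (A.adj_of_fix hw'.1 h) m1
    have m5 : w • w' • b = c := A.third h (A.adj_of_fix hw'.1 h)
      (A.adj_of_fix hw.1 (A.adj_of_fix hw'.1 h)) hc1 m1 m4 m3 hc2 m2.symm
    have m6 := k2.2 b h
    rw [mul_smul, mul_smul w w' b, m5, mul_smul, hw'.2] at m6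
    exact (A.moves_of_not_mem h hw h2 hc1 hc2).2 m6
  · have e3 := mem_cent1.1 (hc k0)
    rw [eq_comm, ← mul_inv_eq_iff_eq_mul]
    generalize w * w' = k at k1 e3
    rcases k1 x hx with h3 | h3
    · calc k * k * x * (k * k)⁻¹ = k * (k * x * k⁻¹) * k⁻¹ := by group
        _ = x := by rw [h3, h3]
    · calc k * k * x * (k * k)⁻¹ = k * (k * x * k⁻¹) * k⁻¹ := by group
        _ = k * x * (r * k⁻¹) := by rw [h3]; group
        _ = k * x * k⁻¹ * r := by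
          rw [show r * k⁻¹ = k⁻¹ * (k * r) * k⁻¹ by group, e3]; group
        _ = x := by rw [h3, mul_assoc, A.r_sq h R, mul_one]

theorem central_of_mem (h : adj a b) (hc : adj a c) (hne : c ≠ b) (h1 : x ∈ Q a) (h2 : x ∈ Q b)
    (h3 : x ∈ Q c) : St a ≤ C1[x] :=
  A.gen2 h hc hne (fun _ ht => mem_cent1.2 (A.D_comm hc h1 h3 ht))
    (fun _ ht => mem_cent1.2 (A.D_comm h h1 h2 ht))

theorem r_not_mem (h : adj a b) (R : RR adj a b r) (hc : adj a c) (hne : c ≠ b) : r ∉ Q c :=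
  fun h' => A.not_central h R (A.central_of_mem h hc hne R.memL R.memR h')

theorem D_cases (h : adj a b) (R : RR adj a b r) (h1 : x ∈ Q a) (h2 : x ∈ Q b) :
    St a ≤ C1[x] ∨ St a ≤ C1[r * x] := by
  obtain ⟨c, hc, hne⟩ := A.exists_other h
  by_cases h3 : x ∈ Q c
  · exact Or.inl (A.central_of_mem h hc hne h1 h2 h3)
  exact Or.inr (A.central_of_mem h hc hne (mul_mem R.memL h1) (mul_mem R.memR h2)
    (A.mul_mem' (A.symm hc) (A.Qa_le_Ta' (A.symm hc) R.memL) (A.Qa_le_Ta' (A.symm hc) h1)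
      (A.r_not_mem h R hc hne) h3))

theorem mem_D_of_central (h : adj a b) (hx : St a ≤ C1[x]) (h1 : x • a = a) : x ∈ Q a ∧ x ∈ Q b := by
  have h2 : x ∈ Q a := A.char h (mem_inf.2 ⟨h1, fun y hy => mem_cent1.1 (hx (Qa_le_St a hy))⟩)
  refine ⟨h2, by_contra fun h3 => ?_⟩
  obtain ⟨w, h4, h5⟩ := A.exists_Q_not_mem (A.symm h)
  exact A.not_comm h h2 h3 (A.Qa_le_Ta' h h4) h5 (mem_cent1.1 (hx (A.Qa_le_Ta' h h4).1))

theorem cent_other (h : adj a b) (R : RR adj a b r) (hx : St a ≤ C1[x]) (h1 : x • a = a) (h2 : x ≠ 1) :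
    St b ≤ C1[r * x] := by
  obtain ⟨h3, h4⟩ := A.mem_D_of_central h hx h1
  exact (A.D_cases (A.symm h) R.symm h4 h3).resolve_left fun h' =>
    h2 (A.central_eq_one h (Qa_le_Ta h h3) hx h')

theorem central_unique (h : adj a b) (hx : St a ≤ C1[x]) (h1 : x • a = a) (h2 : x ≠ 1)
    (hy : St a ≤ C1[y]) (h3 : y • a = a) (h4 : y ≠ 1) : x = y := by
  obtain ⟨r, R⟩ := A.exists_RR h
  have h5 := A.cent_other h R hx h1 h2
  have h6 := A.cent_other h R hy h3 h4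
  have h7 := (A.mem_D_of_central h hx h1).1
  have h8 := (A.mem_D_of_central h hy h3).1
  rw [← inv_mul_eq_one]
  refine A.central_eq_one h (Qa_le_Ta h (mul_mem (inv_mem h7) h8)) (fun g hg => ?_) (fun g hg => ?_)
  · exact mem_cent1_comm.1 (mul_mem (inv_mem (mem_cent1_comm.1 (hx hg))) (mem_cent1_comm.1 (hy hg)))
  · have := mul_mem (inv_mem (mem_cent1_comm.1 (h5 hg))) (mem_cent1_comm.1 (h6 hg))
    rw [show (r * x)⁻¹ * (r * y) = x⁻¹ * y by group] at this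
    exact mem_cent1_comm.1 this

theorem RR_mul (h : adj a b) (R : RR adj a b r) (hc : adj a c) (R' : RR adj a c u) (hne : c ≠ b) :
    ∃ e, adj a e ∧ RR adj a e (u * r) := by
  obtain ⟨w, h1, h2⟩ := A.moves h
  have h3 := A.RR_conj hc R' w
  rw [h1.1, A.conj_L h R R'.memL (A.r_not_mem hc R' h hne.symm) h1 h2] at h3
  exact ⟨_, A.adj_of_fix h1.1 hc, h3⟩

end Amal

/-- the normal four-group of a vertex stabiliser -/
def Wa (adj : Γ → Γ → Prop) (a : Γ) : Subgroup G := closure {r | ∃ c, adj a c ∧ RR adj a c r}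

local notation "W" => (Wa adj : Γ → Subgroup G)

theorem mem_W (h : adj a b) (R : RR adj a b r) : r ∈ W a := subset_closure ⟨b, h, R⟩

theorem W_le_Q (a : Γ) : W a ≤ Q a := (closure_le _).2 fun _ ⟨_, _, h⟩ => h.memL

namespace Amal
variable (A : Amal G adj)
include A

theorem mem_W_iff : x ∈ W a ↔ x = 1 ∨ ∃ c, adj a c ∧ RR adj a c x := by
  refine ⟨fun hx => ?_, fun hx => hx.elim (fun h => h ▸ one_mem _) fun ⟨c, h1, h2⟩ => mem_W h1 h2⟩
  induction hx using closure_induction with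
  | mem x hx => exact Or.inr hx
  | one => exact Or.inl rfl
  | mul x y _ _ h1 h2 =>
    rcases h1 with rfl | ⟨c, h1, R1⟩
    · simpa using h2
    rcases h2 with rfl | ⟨b, h2, R2⟩
    · exact Or.inr ⟨c, h1, by simpa using R1⟩
    by_cases hne : c = b
    · subst hne; left; rw [A.RR_unique h1 R1 R2, A.r_sq h1 R1]
    exact Or.inr (A.RR_mul h2 R2 h1 R1 hne)
  | inv x _ h1 =>
    rcases h1 with rfl | ⟨c, h1, R1⟩
    · exact Or.inl inv_one
    · rw [A.Q_inv h1 R1.memL]; exact Or.inr ⟨c, h1, R1⟩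

theorem conj_Wa_le (g : G) (a : Γ) : cj[g] (W a) ≤ W (g • a) := by
  rw [conj_le_iff, Wa, closure_le]
  rintro r ⟨c, h, R⟩
  refine mem_conj.2 ?_
  rw [inv_inv]
  exact mem_W (A.smul g h) (A.RR_conj h R g)

theorem St_le_norm_W (a : Γ) : St a ≤ N[W a] := fun g hg => by
  refine mem_normalizer_of_conj_le ?_
  have := A.conj_Wa_le g a
  rwa [mem_stabilizer_iff.1 hg] at this

theorem W_inf (h : adj a b) (R : RR adj a b r) (hx : x ∈ W a) (h1 : x ∈ Q b) : x = 1 ∨ x = r := by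
  rcases A.mem_W_iff.1 hx with h2 | ⟨c, h2, R2⟩
  · exact Or.inl h2
  by_cases hne : b = c
  · subst hne; exact Or.inr (A.RR_unique h R R2)
  exact absurd h1 (A.r_not_mem h2 R2 h hne)

theorem exists_W (h : adj a b) : ∃ u ∈ W a, u ∉ Q b := by
  obtain ⟨c, hc, hne⟩ := A.exists_other h
  obtain ⟨u, R⟩ := A.exists_RR hc
  exact ⟨u, mem_W hc R, A.r_not_mem hc R h hne.symm⟩

theorem W_cases (h : adj a b) (R : RR adj a b r) (hu : u ∈ W a) (nu : u ∉ Q b) (hx : x ∈ W a) :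
    x = 1 ∨ x = r ∨ x = u ∨ x = u * r := by
  by_cases h1 : x ∈ Q b
  · rcases A.W_inf h R hx h1 with h2 | h2 <;> simp [h2]
  have h2 := A.inv_mul_mem (A.symm h) (A.Qa_le_Ta' (A.symm h) (W_le_Q a hu))
    (A.Qa_le_Ta' (A.symm h) (W_le_Q a hx)) nu h1
  rcases A.W_inf h R (mul_mem (inv_mem hu) hx) h2 with h3 | h3
  · exact Or.inr (Or.inr (Or.inl (inv_mul_eq_one.1 h3).symm))
  · exact Or.inr (Or.inr (Or.inr (inv_mul_eq_iff_eq_mul.1 h3)))

theorem W_conj (h : adj a b) (R : RR adj a b r) (hx : x ∈ W a) (h1 : x ≠ 1) :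
    ∃ g : G, g • a = a ∧ x = g * r * g⁻¹ := by
  obtain ⟨c, h2, R2⟩ := (A.mem_W_iff.1 hx).resolve_left h1
  obtain ⟨g, g1, g2⟩ := A.trans h h2
  have := A.RR_conj h R g
  rw [g1, g2] at this
  exact ⟨g, g1, A.RR_unique h2 this R2⟩

theorem cent_W (h : adj a b) (h1 : x • a = a) (hx : x ∈ C[W a]) : x ∈ Q a := by
  refine ⟨h1, fun c hc => by_contra fun hne => ?_⟩
  obtain ⟨r, R⟩ := A.exists_RR hc
  have h2 := A.RR_conj hc R x
  rw [h1, ← hx r (mem_W hc R), mul_inv_cancel_right] at h2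
  exact A.r_not_mem hc R (A.adj_of_fix h1 hc) hne h2.memR

theorem T_two (h : adj a b) : IsPGroup 2 (T a b) := PG.isPGroup_iff_forall.2 fun x hx => ⟨2, by
  obtain ⟨r, R⟩ := A.exists_RR h
  rw [show x ^ 2 ^ 2 = x * x * (x * x) by rw [show 2 ^ 2 = 2 + 2 from rfl, pow_add, pow_two]]
  rcases A.sq_cases h R hx with h1 | h1 <;> rw [h1]
  · exact one_mul 1
  · exact A.r_sq h R⟩

theorem T_syl (h : adj a b) : IsPiHallOf {2} (T a b) (St a) := by
  refine syl_of_maximal Nat.prime_two (A.T_two h) (Ta_le_left _ _) fun Y hY h1 h2 => ?_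
  refine le_antisymm (fun y hy => ⟨h2 hy, by_contra fun hm => ?_⟩) h1
  have h3 := le_antisymm h2 (A.gen h h1 hy (h2 hy) hm)
  subst h3
  obtain ⟨c, hc, hne⟩ := A.exists_other h
  have h4 := lt_inf_norm_of_isPGroup Nat.prime_two hY
    (lt_of_le_of_ne h1 fun h' => hm (h' ▸ hy : y ∈ T a b).2)
  obtain ⟨n, hn1, hn2⟩ := SetLike.exists_of_lt h4
  obtain ⟨r, R⟩ := A.exists_RR h
  exact A.not_central h R (A.gen h (fun _ ht => mem_cent1.2 (A.r_comm h R ht))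
    (mem_cent1.2 (mul_inv_eq_iff_eq_mul.1 (A.fix_r h R hn1.2))) hn1.1 fun h' => hn2 ⟨hn1.1, h'⟩)

end Amal

end Cfsg.Agent.Cls
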