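import Cfsg.Agent.Cls.ZN4
import Cfsg.Agent.GT.Transfer
import Cfsg.Prelude.Def_Quasithin
import Cfsg.Prelude.Def_CaseTheorems

/-! The transfer argument: central involutions of the vertex stabilisers are outside `O²(G)`. -/

set_option autoImplicit false
set_option linter.unusedSectionVars false
set_option linter.unusedVariables false

namespace Cfsg.Agent.Cls
open Cfsg Subgroup Cfsg.Agent.GT MulAction
open scoped commutatorElement

universe u v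

variable {G : Type u} [Group G] [Finite G]

theorem mem_oddGen {L : Subgroup G} {x : G} (h1 : x ∈ L) (h2 : Odd (orderOf x)) : x ∈ oddGenerated L :=
  subset_closure ⟨h1, h2⟩

theorem oddGen_le_iff {L K : Subgroup G} : oddGenerated L ≤ K ↔ ∀ x ∈ L, Odd (orderOf x) → x ∈ K :=
  (closure_le _).trans ⟨fun h _ h1 h2 => h ⟨h1, h2⟩, fun h _ hx => h _ hx.1 hx.2⟩

theorem oddGen_le (L : Subgroup G) : oddGenerated L ≤ L := oddGen_le_iff.2 fun _ h _ => h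

theorem oddGen_mono {L K : Subgroup G} (h : L ≤ K) : oddGenerated L ≤ oddGenerated K :=
  oddGen_le_iff.2 fun _ h1 h2 => mem_oddGen (h h1) h2

theorem norm_le_norm_oddGen (L : Subgroup G) : N[L] ≤ N[oddGenerated L] := fun g hg =>
  mem_normalizer_of_conj_le (conj_le_iff.2 (oddGen_le_iff.2 fun x h1 h2 => mem_conj.2 (by
    rw [inv_inv]; exact mem_oddGen (conj_mem_of_mem_norm hg h1) (by rwa [orderOf_conj]))))

theorem transfer_odd {S R : Subgroup G} (hS : IsPiHallOf {2} S ⊤) (hR : R ≤ S)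
    (hi : R.relIndex S = 2) {z : G} (hz : z * z = 1) (hH : z ∈ oddGenerated (⊤ : Subgroup G)) :
    ∃ g : G, g⁻¹ * z * g ∈ R := by
  classical
  by_contra hno
  push Not at hno
  have := Fintype.ofFinite (G ⧸ R)
  have h1 : oddGenerated (⊤ : Subgroup G) ≤ (Equiv.Perm.sign.comp (toPermHom G (G ⧸ R))).ker := by
    refine oddGen_le_iff.2 fun x _ hx => ?_
    have h2 : (Equiv.Perm.sign.comp (toPermHom G (G ⧸ R))) x ^ orderOf x = 1 := by
      rw [← map_pow, pow_orderOf_eq_one, map_one]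
    rcases Int.units_eq_one_or ((Equiv.Perm.sign.comp (toPermHom G (G ⧸ R))) x) with h | h
    · exact h
    · rw [h, hx.neg_one_pow] at h2; exact absurd h2 (by decide)
  have h3 : Equiv.Perm.sign (toPermHom G (G ⧸ R) z) = 1 := h1 hH
  rw [Equiv.Perm.sign_of_pow_two_eq_one (by rw [← map_pow, pow_two, hz, map_one])] at h3
  have h4 : Fintype.card (Function.fixedPoints (toPermHom G (G ⧸ R) z)) = 0 := by
    rw [Fintype.card_eq_zero_iff]
    refine ⟨fun ⟨y, hy⟩ => ?_⟩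
    obtain ⟨g, rfl⟩ := QuotientGroup.mk_surjective y
    have h5 : ((z * g : G) : G ⧸ R) = g := hy
    exact hno g (by simpa [mul_assoc] using QuotientGroup.eq.1 h5.symm)
  rw [h4, ← Nat.card_eq_fintype_card, ← index, ← relIndex_mul_index hR, hi] at h3
  have h6 := syl_not_dvd Nat.prime_two hS
  rw [relIndex_top_right] at h6
  rw [show (2 * S.index - 0) / 2 = S.index by omega,
    (Nat.odd_iff.2 (by omega) : Odd S.index).neg_one_pow] at h3
  exact absurd h3 (by decide)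

variable {Γ : Type v} [MulAction G Γ] {adj : Γ → Γ → Prop} {a b c d : Γ} {x y z t r s u g e : G}
  {S : Subgroup G}

local notation "St" => stabilizer G
local notation "Q" => (Qa adj : Γ → Subgroup G)
local notation "T" => Ta G
local notation "W" => (Wa adj : Γ → Subgroup G)

/-- the vertex stabiliser is a maximal 2-local subgroup -/
def MaxL (G : Type u) [Group G] {Γ : Type v} [MulAction G Γ] (a : Γ) : Prop :=
  ∀ Y : Subgroup G, IsPGroup 2 Y → Y ≠ ⊥ → stabilizer G a ≤ N[Y] → N[Y] ≤ stabilizer G a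

namespace Amal
variable (A : Amal G adj)
include A

theorem exists_odd (h : adj a b) : ∃ g : G, g • a = a ∧ Odd (orderOf g) ∧ g • b ≠ b := by
  by_contra hc
  push Not at hc
  have : Fact (Nat.Prime 2) := ⟨Nat.prime_two⟩
  have h1 : IsPGroup 2 (St a) := PG.isPGroup_of_forall_coprime fun x hx ho =>
    PG.eq_one_of_mem_of_coprime (A.T_two h) ⟨hx, hc x hx (Nat.coprime_two_right.1 ho)⟩ ho
  obtain ⟨c, h2, h3⟩ := A.exists_other h
  obtain ⟨g, g1, g2⟩ := A.trans h h2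
  have h4 : g ∈ T a b := syl_eq_of_le Nat.prime_two (A.T_syl h) h1 le_rfl (Ta_le_left _ _) ▸ g1
  exact h3 (g2.symm.trans h4.2)

theorem W_le_odd (h : adj a b) : W a ≤ oddGenerated (St a) := by
  obtain ⟨g, g1, g2, g3⟩ := A.exists_odd h
  obtain ⟨r, R⟩ := A.exists_RR h
  have R' := A.RR_conj h R g
  rw [g1] at R'
  obtain ⟨c, hc, R2⟩ := A.RR_mul h R (A.adj_of_fix g1 h) R' g3
  have hn : St a ≤ N[oddGenerated (St a)] := le_normalizer.trans (norm_le_norm_oddGen _)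
  have h1 : g * r * g⁻¹ * r ∈ oddGenerated (St a) := by
    have := mul_mem (mem_oddGen (L := St a) g1 g2)
      (conj_mem_of_le_norm hn (Qa_le_St a R.memL) (inv_mem (mem_oddGen (L := St a) g1 g2)))
    rwa [A.Q_inv h R.memL, ← mul_assoc, ← mul_assoc] at this
  intro x hx
  by_cases h2 : x = 1
  · exact h2 ▸ one_mem _
  obtain ⟨k, k1, rfl⟩ := A.W_conj hc R2 hx h2
  exact conj_mem_of_le_norm hn k1 h1

theorem W_norm (h : adj a b) : W a ≤ N[W b] :=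
  (W_le_Q a).trans ((Qa_le_Ta h).trans ((Ta_le_right _ _).trans (A.St_le_norm_W b)))

theorem E_le (h : adj a b) : W a ⊔ W b ≤ T a b :=
  sup_le ((W_le_Q a).trans (Qa_le_Ta h)) ((W_le_Q b).trans (A.Qa_le_Ta' h))

theorem E_inf (h : adj a b) (he : e ∈ W a ⊔ W b) (h1 : e ∈ Q a) : e ∈ W a := by
  obtain ⟨r, R⟩ := A.exists_RR h
  obtain ⟨x, hx, y, hy, rfl⟩ := (mem_sup_of_le_norm (A.W_norm h)).1 he
  rcases A.W_inf (A.symm h) R.symm hy (by simpa using mul_mem (inv_mem (W_le_Q a hx)) h1) with h2 | h2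
  · rw [h2, mul_one]; exact hx
  · rw [h2]; exact mul_mem hx (mem_W h R)

theorem E_inf_D (h : adj a b) (R : RR adj a b r) (he : e ∈ W a ⊔ W b) (h1 : e ∈ Q a) (h2 : e ∈ Q b) :
    e = 1 ∨ e = r := A.W_inf h R (A.E_inf h he h1) h2

theorem T_dec (h : adj a b) (ht : t ∈ T a b) :
    ∃ e ∈ W a ⊔ W b, ∃ d : G, d • a = a ∧ St a ≤ C1[d] ∧ t = e * d := by
  obtain ⟨r, R⟩ := A.exists_RR h
  obtain ⟨u, u1, u2⟩ := A.exists_W h
  obtain ⟨v, v1, v2⟩ := A.exists_W (A.symm h)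
  have k1 : ∀ t ∈ Q a, t ∈ Q b → ∃ e ∈ W a ⊔ W b, ∃ d : G, d • a = a ∧ St a ≤ C1[d] ∧ t = e * d :=
    fun t h1 h2 => by
      rcases A.D_cases h R h1 h2 with h3 | h3
      · exact ⟨1, one_mem _, t, h1.1, h3, (one_mul _).symm⟩
      · exact ⟨r, mem_sup_left (mem_W h R), r * t, (mul_mem R.memL h1).1, h3, by
          rw [← mul_assoc, A.r_sq h R, one_mul]⟩
  have k2 : ∀ t ∈ Q a, ∃ e ∈ W a ⊔ W b, ∃ d : G, d • a = a ∧ St a ≤ C1[d] ∧ t = e * d := fun t h1 => by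
    by_cases h2 : t ∈ Q b
    · exact k1 t h1 h2
    obtain ⟨e, e1, d, d1, d2, d3⟩ := k1 (u⁻¹ * t) (mul_mem (inv_mem (W_le_Q a u1)) h1)
      (A.inv_mul_mem (A.symm h) (A.Qa_le_Ta' (A.symm h) (W_le_Q a u1)) (A.Qa_le_Ta' (A.symm h) h1) u2 h2)
    exact ⟨u * e, mul_mem (mem_sup_left u1) e1, d, d1, d2, by rw [mul_assoc, ← d3]; group⟩
  by_cases h1 : t ∈ Q a
  · exact k2 t h1
  obtain ⟨e, e1, d, d1, d2, d3⟩ := k2 (v⁻¹ * t) (A.inv_mul_mem h (A.Qa_le_Ta' h (W_le_Q b v1)) ht v2 h1)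
  exact ⟨v * e, mul_mem (mem_sup_right v1) e1, d, d1, d2, by rw [mul_assoc, ← d3]; group⟩

theorem T_le_sup (h : adj a b) : T a b ≤ Q a ⊔ Q b := fun t ht => by
  by_cases h1 : t ∈ Q a
  · exact mem_sup_left h1
  obtain ⟨w, h2, h3⟩ := A.exists_Q_not_mem (A.symm h)
  simpa using mul_mem (mem_sup_right h2 : w ∈ Q a ⊔ Q b)
    (mem_sup_left (A.inv_mul_mem h (A.Qa_le_Ta' h h2) ht h3 h1))

theorem Q_ne_bot (h : adj a b) : Q a ≠ ⊥ := ne_bot_of_le (A.Z_ne_bot h) (A.Z_le_Q a)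

theorem norm_Q (h : adj a b) (ha : MaxL G a) : N[Q a] = St a :=
  le_antisymm (ha _ (isPGroup_of_elementary (A.elemAb_Q h)) (A.Q_ne_bot h) (A.St_le_norm_Q a))
    (A.St_le_norm_Q a)

theorem norm_W (h : adj a b) (ha : MaxL G a) : N[W a] = St a := by
  obtain ⟨r, R⟩ := A.exists_RR h
  exact le_antisymm (ha _ ((isPGroup_of_elementary (A.elemAb_Q h)).to_le (W_le_Q a))
    (ne_bot_of_mem (mem_W h R) R.ne) (A.St_le_norm_W a)) (A.St_le_norm_W a)

theorem cent_z (h : adj a b) (ha : MaxL G a) (hz : St a ≤ C1[z]) (h1 : z • a = a) (h2 : z ≠ 1) :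
    C1[z] ≤ St a := by
  rw [← cent_zpowers] at hz ⊢
  refine (cent_le_norm _).trans (ha _ ?_ (zpowers_ne_bot.2 h2) (hz.trans (cent_le_norm _)))
  exact (A.T_two h).to_le (zpowers_le.2 (Qa_le_Ta h (A.mem_D_of_central h (cent_zpowers z ▸ hz) h1).1))

theorem swap_Q (h : adj a b) (ha : MaxL G a) (hs : s ∈ N[T a b]) (ns : s ∉ St a) : cj[s] (Q a) ≤ Q b :=
  (A.elemAb_cases h (isElementaryAbelian_conj_iff.2 (A.elemAb_Q h))
    (conj_eq_self hs ▸ conj_mono s (Qa_le_Ta h))).resolve_left fun h' =>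
      ns (A.norm_Q h ha ▸ mem_normalizer_of_conj_le h')

theorem swap_W (h : adj a b) (ha : MaxL G a) (hb : MaxL G b) (hs : s ∈ N[T a b]) (na : s ∉ St a)
    (nb : s ∉ St b) (hx : x ∈ W a) : s * x * s⁻¹ ∈ W b := by
  obtain ⟨r, R⟩ := A.exists_RR h
  by_cases h1 : x = 1
  · rw [h1, mul_one, mul_inv_cancel]; exact one_mem _
  obtain ⟨g, g1, rfl⟩ := A.W_conj h R hx h1
  have h2 : cj[s] (Q a) = Q b := le_antisymm (A.swap_Q h ha hs na) (le_conj_iff.2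
    (A.swap_Q (A.symm h) hb (Ta_comm (G := G) a b ▸ inv_mem hs) (fun h' => nb (inv_mem_iff.1 h'))))
  have h3 : s * g * s⁻¹ ∈ St b := by
    rw [← A.norm_Q (A.symm h) hb, ← h2, ← conj_normalizer, conj_mem_conj, A.norm_Q h ha]; exact g1
  have h4 := conj_mem_of_le_norm (A.St_le_norm_W b) h3 (mem_W (A.symm h) R.symm)
  rw [← A.fix_r h R hs] at h4
  convert h4 using 1; group

theorem swap_z (h : adj a b) (R : RR adj a b r) (ha : MaxL G a) (hz : St a ≤ C1[z]) (h1 : z • a = a)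
    (h2 : z ≠ 1) (hs : s ∈ N[T a b]) (na : s ∉ St a) : s * z * s⁻¹ = r * z := by
  have h3 := (A.mem_OZ_T h).1 (conj_mem_of_mem_norm (norm_le_norm_OZ _ hs)
    ((A.mem_OZ_T h).2 (A.mem_D_of_central h hz h1)))
  rcases A.D_cases h R h3.1 h3.2 with h4 | h4
  · have := A.central_unique h h4 h3.1.1 (by simpa using h2) hz h1 h2
    exact absurd (A.cent_z h ha hz h1 h2 (mem_cent1.2 (mul_inv_eq_iff_eq_mul.1 this))) na
  by_cases h5 : r * (s * z * s⁻¹) = 1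
  · rw [← A.fix_r h R hs, show s * r * s⁻¹ * (s * z * s⁻¹) = s * (r * z) * s⁻¹ by group] at h5
    have h6 : r * z = 1 := by simpa using h5
    rw [← inv_eq_of_mul_eq_one_right h6, A.Q_inv h R.memL] at hz
    exact absurd hz (A.not_central h R)
  have h6 := A.central_unique h h4 (mul_mem R.memL h3.1).1 h5 hz h1 h2
  rw [eq_inv_mul_iff_mul_eq.2 h6, A.Q_inv h R.memL]

theorem syl_inf (h : adj a b) (hS : IsPGroup 2 S) (hT : T a b ≤ S) (hx : x ∈ S) (h1 : x ∈ St a) :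
    x ∈ T a b :=
  syl_eq_of_le Nat.prime_two (A.T_syl h) (hS.to_inf_left (K := St a)) inf_le_right
    (le_inf hT (Ta_le_left _ _)) ▸ mem_inf.2 ⟨hx, h1⟩

theorem not_mem_St (h : adj a b) (hS : IsPGroup 2 S) (hT : T a b ≤ S) (hx : x ∈ S) (h1 : x ∉ T a b) :
    x ∉ St a ∧ x ∉ St b :=
  ⟨fun h' => h1 (A.syl_inf h hS hT hx h'), fun h' => h1 (Ta_symm
    (A.syl_inf (A.symm h) hS (Ta_comm (G := G) a b ▸ hT) hx h'))⟩

theorem swap_mul (h : adj a b) (ha : MaxL G a) (hz : St a ≤ C1[z]) (h1 : z • a = a)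
    (h2 : z ≠ 1) (hS : IsPGroup 2 S) (hT : T a b ≤ S) (hx : x ∈ S ⊓ N[T a b]) (hy : y ∈ S ⊓ N[T a b])
    (nx : x ∉ T a b) (ny : y ∉ T a b) : x * y ∈ T a b := by
  obtain ⟨r, R⟩ := A.exists_RR h
  refine A.syl_inf h hS hT (mul_mem hx.1 hy.1) (A.cent_z h ha hz h1 h2 (mem_cent1.2 ?_))
  rw [← mul_inv_eq_iff_eq_mul]
  calc x * y * z * (x * y)⁻¹ = x * (y * z * y⁻¹) * x⁻¹ := by group
    _ = x * r * x⁻¹ * (x * z * x⁻¹) := by
      rw [A.swap_z h R ha hz h1 h2 hy.2 (A.not_mem_St h hS hT hy.1 ny).1]; group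
    _ = z := by
      rw [A.fix_r h R hx.2, A.swap_z h R ha hz h1 h2 hx.2 (A.not_mem_St h hS hT hx.1 nx).1,
        ← mul_assoc, A.r_sq h R, one_mul]

theorem swap_fix (h : adj a b) (R : RR adj a b r) (ha : MaxL G a) (hb : MaxL G b) (hz : St a ≤ C1[z])
    (h1 : z • a = a) (h2 : z ≠ 1) (hs : s ∈ N[T a b]) (na : s ∉ St a) (nb : s ∉ St b)
    (hy : y ∈ T a b) (h3 : y * y = 1) (h4 : s * y * s⁻¹ = y) : y = 1 ∨ y = r := by
  have h5 : y ∈ Q a ∧ y ∈ Q b := by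
    rcases A.invol h hy h3 with h5 | h5
    · exact ⟨h5, h4 ▸ A.swap_Q h ha hs na (conj_mem_conj.2 h5)⟩
    · exact ⟨h4 ▸ A.swap_Q (A.symm h) hb (Ta_comm (G := G) a b ▸ hs) nb (conj_mem_conj.2 h5), h5⟩
  have k : ∀ y : G, St a ≤ C1[y] → y • a = a → s * y * s⁻¹ = y → y = 1 := fun y k1 k2 k3 =>
    by_contra fun k4 => na (A.cent_z h ha k1 k2 k4 (mem_cent1.2 (mul_inv_eq_iff_eq_mul.1 k3)))
  rcases A.D_cases h R h5.1 h5.2 with h6 | h6
  · exact Or.inl (k y h6 h5.1.1 h4)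
  · right
    have := k _ h6 (mul_mem R.memL h5.1).1 (by
      rw [show s * (r * y) * s⁻¹ = s * r * s⁻¹ * (s * y * s⁻¹) by group, h4, A.fix_r h R hs])
    rw [← inv_eq_of_mul_eq_one_right this, A.Q_inv h R.memL]

theorem conj_Q_le (h : adj a b) (ha : MaxL G a) (hb : MaxL G b) (hz : St a ≤ C1[z])
    (h1 : z • a = a) (h2 : z ≠ 1) (hS : IsPGroup 2 S) (hT : T a b ≤ S) {n : G}
    (hn : cj[n] (Q a) ≤ S ⊓ N[T a b]) : cj[n] (Q a) ≤ T a b := fun x hx => by_contra fun nx => by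
  obtain ⟨r, R⟩ := A.exists_RR h
  obtain ⟨u, u1, u2⟩ := A.exists_W h
  obtain ⟨na, nb⟩ := A.not_mem_St h hS hT (hn hx).1 nx
  have hE := (isElementaryAbelian_conj_iff (g := n)).2 (A.elemAb_Q h)
  have k1 : ∀ w ∈ Q a, w ≠ 1 → n * w * n⁻¹ ∈ T a b → n * w * n⁻¹ = r := fun w hw w1 w2 =>
    (A.swap_fix h R ha hb hz h1 h2 (hn hx).2 na nb w2 (by
      rw [← pow_two]; exact hE.2 _ (conj_mem_conj.2 hw)) (mul_inv_eq_iff_eq_mul.2
        (isMulCommutative_iff_forall.1 hE.1 _ hx _ (conj_mem_conj.2 hw)))).resolve_left (by simpa using w1)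
  have k2 : ∀ w ∈ Q a, ∀ w' ∈ Q a, w ≠ 1 → w' ≠ 1 → n * w * n⁻¹ ∈ T a b → n * w' * n⁻¹ ∈ T a b →
      w = w' := fun w hw w' hw' w1 w1' w2 w2' => by
    simpa using (k1 w hw w1 w2).trans (k1 w' hw' w1' w2').symm
  have k3 : ∀ w ∈ Q a, ∀ w' ∈ Q a, n * w * n⁻¹ ∉ T a b → n * w' * n⁻¹ ∉ T a b →
      n * (w * w') * n⁻¹ ∈ T a b := fun w hw w' hw' w2 w2' => by
    rw [show n * (w * w') * n⁻¹ = n * w * n⁻¹ * (n * w' * n⁻¹) by group]
    exact A.swap_mul h ha hz h1 h2 hS hT (hn (conj_mem_conj.2 hw)) (hn (conj_mem_conj.2 hw')) w2 w2'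
  have hzQ := A.mem_D_of_central h hz h1
  have hzW : z ∉ W a := fun h' => by
    rcases A.W_inf h R h' hzQ.2 with h3 | h3
    · exact h2 h3
    · exact A.not_central h R (h3 ▸ hz)
  have hrW := mem_W h R
  have u3 : u ≠ 1 := fun h' => u2 (h' ▸ one_mem _)
  have k4 : ∀ w ∈ W a, w * z ∉ W a := fun w hw h' => hzW (by simpa using mul_mem (inv_mem hw) h')
  have k5 : ∃ w ∈ W a, w ≠ 1 ∧ n * w * n⁻¹ ∈ T a b := by
    by_cases c1 : n * r * n⁻¹ ∈ T a b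
    · exact ⟨r, hrW, R.ne, c1⟩
    by_cases c2 : n * u * n⁻¹ ∈ T a b
    · exact ⟨u, u1, u3, c2⟩
    refine ⟨r * u, mul_mem hrW u1, fun h' => u2 ?_, k3 r R.memL u (W_le_Q a u1) c1 c2⟩
    rw [← inv_eq_of_mul_eq_one_right h']; exact inv_mem R.memR
  obtain ⟨w, w1, w2, w3⟩ := k5
  have k6 : ∀ v ∈ W a, n * (v * z) * n⁻¹ ∉ T a b := fun v hv h' => k4 v hv (k2 w (W_le_Q a w1) _
    (mul_mem (W_le_Q a hv) hzQ.1) w2 (fun h'' => k4 v hv (h'' ▸ one_mem _)) w3 h' ▸ w1)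
  have c0 : n * z * n⁻¹ ∉ T a b := by simpa using k6 1 (one_mem _)
  have c1 : n * r * n⁻¹ ∈ T a b := by_contra fun h' => k6 r hrW (k3 r R.memL z hzQ.1 h' c0)
  have c2 : n * u * n⁻¹ ∈ T a b := by_contra fun h' => k6 u u1 (k3 u (W_le_Q a u1) z hzQ.1 h' c0)
  exact u2 (k2 r R.memL u (W_le_Q a u1) R.ne u3 c1 c2 ▸ R.memR)

theorem rz_ne (h : adj a b) (R : RR adj a b r) (hz : St a ≤ C1[z]) : r * z ≠ 1 := fun h6 => by
  rw [← inv_eq_of_mul_eq_one_right h6, A.Q_inv h R.memL] at hz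
  exact A.not_central h R hz

theorem le_norm_T (h : adj a b) (ha : MaxL G a) (hb : MaxL G b) (hz : St a ≤ C1[z])
    (h1 : z • a = a) (h2 : z ≠ 1) (hS : IsPGroup 2 S) (hT : T a b ≤ S) : S ≤ N[T a b] := by
  obtain ⟨r, R⟩ := A.exists_RR h
  by_contra hc
  obtain ⟨n, hn1, hn2⟩ := SetLike.exists_of_lt (lt_inf_norm_of_isPGroup Nat.prime_two hS
    (lt_of_le_of_ne (inf_le_left : S ⊓ N[T a b] ≤ S) fun h' => hc (h' ▸ inf_le_right)))
  refine hn2 (mem_inf.2 ⟨hn1.1, mem_normalizer_of_conj_le ((conj_mono n (A.T_le_sup h)).trans ?_)⟩)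
  have h3 : ∀ Y ≤ T a b, cj[n] Y ≤ S ⊓ N[T a b] := fun Y hY =>
    conj_eq_self hn1.2 ▸ conj_mono n (hY.trans (le_inf hT le_normalizer))
  rw [conj_sup]
  refine sup_le (A.conj_Q_le h ha hb hz h1 h2 hS hT (h3 _ (Qa_le_Ta h))) ?_
  rw [Ta_comm] at h3 hT ⊢
  exact A.conj_Q_le (A.symm h) hb ha (A.cent_other h R hz h1 h2)
    (mul_mem R.memR (A.mem_D_of_central h hz h1).2).1 (A.rz_ne h R hz) hS hT (h3 _ (Qa_le_Ta (A.symm h)))

theorem not_conj (h : adj a b) (R : RR adj a b r) (ha : MaxL G a) (hb : MaxL G b) (hz : St a ≤ C1[z])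
    (h1 : z • a = a) (h2 : z ≠ 1) (g : G) : g * r * g⁻¹ ≠ z := fun hg => by
  obtain ⟨S, hS, hT⟩ := exists_syl_ge Nat.prime_two (A.T_two h) le_top
  have hS2 := syl_isPGroup Nat.prime_two hS
  have h3 := A.le_norm_T h ha hb hz h1 h2 hS2 hT
  have h4 : S ≤ C1[r] := fun s hs => mem_cent1.2 (mul_inv_eq_iff_eq_mul.1 (A.fix_r h R (h3 hs)))
  have h5 := conj_mono g h4
  rw [conj_cent1, hg] at h5
  have h6 := Nat.le_of_dvd (card_pos' _) (syl_card_dvd Nat.prime_two (A.T_syl h)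
    (isPGroup_conj_iff.2 hS2) (h5.trans (A.cent_z h ha hz h1 h2)))
  rw [card_conj] at h6
  have h7 := eq_of_le_of_card_ge hT h6
  obtain ⟨n, hn, c, hc, rfl⟩ := syl_fusion_cent Nat.prime_two hS (mem_top g) (Y := {r})
    (fun y hy => by rw [hy]; exact mem_cent_iff_le_cent1.2 h4)
    (fun y hy => by rw [hy, hg, ← h7]; exact mem_cent_iff_le_cent1.2 ((Ta_le_left _ _).trans hz))
  rw [show n * c * r * (n * c)⁻¹ = n * (c * r) * c⁻¹ * n⁻¹ by group, mem_cent1.1 hc.2,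
    show n * (r * c) * c⁻¹ * n⁻¹ = n * r * n⁻¹ by group, A.fix_r h R (h7 ▸ hn.2)] at hg
  exact A.not_central h R (hg ▸ hz)

theorem E_invol (h : adj a b) (R : RR adj a b r) (he : e ∈ W a ⊔ W b) (h1 : e * e = 1) (h2 : e ≠ 1) :
    ∃ g : G, e = g * r * g⁻¹ := by
  rcases A.invol h (A.E_le h he) h1 with h3 | h3
  · obtain ⟨g, -, hg⟩ := A.W_conj h R (A.E_inf h he h3) h2
    exact ⟨g, hg⟩
  · obtain ⟨g, -, hg⟩ := A.W_conj (A.symm h) R.symm (A.E_inf (A.symm h) (sup_comm (W a) _ ▸ he) h3) h2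
    exact ⟨g, hg⟩

theorem swap_ne (h : adj a b) (R : RR adj a b r) (ha : MaxL G a) (hb : MaxL G b) (hs : s ∈ N[T a b])
    (na : s ∉ St a) (nb : s ∉ St b) (he : e ∈ W a ⊔ W b) (h1 : e ∈ Q a ∨ e ∈ Q b) :
    s * e * s⁻¹ ≠ e * r := fun h2 => by
  have h3 : e ∈ Q a ∧ e ∈ Q b := by
    rcases h1 with h1 | h1
    · have := A.swap_Q h ha hs na (conj_mem_conj.2 h1)
      rw [h2] at this
      exact ⟨h1, (mul_mem_cancel_right R.memR).1 this⟩
    · have := A.swap_Q (A.symm h) hb (Ta_comm (G := G) a b ▸ hs) nb (conj_mem_conj.2 h1)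
      rw [h2] at this
      exact ⟨(mul_mem_cancel_right R.memL).1 this, h1⟩
  rcases A.E_inf_D h R he h3.1 h3.2 with rfl | rfl
  · exact R.ne (by simpa using h2.symm)
  · rw [A.fix_r h R hs] at h2; exact R.ne (by simpa using h2)

theorem swap_four (h : adj a b) (R : RR adj a b r) (ha : MaxL G a) (hb : MaxL G b) (hs : s ∈ N[T a b])
    (na : s ∉ St a) (nb : s ∉ St b) (he : e ∈ W a ⊔ W b) (h1 : e ∉ Q a) (h2 : e ∉ Q b)
    (u1 : u ∈ W a) (u2 : u ∉ Q b) {δ : G} (hδ : δ = 1 ∨ δ = r) (h3 : s * s * u * (s * s)⁻¹ = u * δ) :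
    s * e * s⁻¹ = e * r * δ := by
  have v1 := A.swap_W h ha hb hs na nb u1
  have v2 : s * u * s⁻¹ ∉ Q a := fun h' => u2 (by
    have := A.swap_Q h ha (inv_mem hs) (fun h' => na (inv_mem_iff.1 h')) (conj_mem_conj.2 h')
    simpa [mul_assoc] using this)
  have h4 : s * (s * u * s⁻¹) * s⁻¹ = u * δ := by rw [← h3]; group
  generalize hv : s * u * s⁻¹ = v at v1 v2 h4
  have hvT := A.Qa_le_Ta' h (W_le_Q b v1)
  have huT := Qa_le_Ta h (W_le_Q a u1)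
  have n1 : u * v ∉ Q a := fun h' => v2 (by simpa using mul_mem (inv_mem (W_le_Q a u1)) h')
  have n2 : u * v ∉ Q b := fun h' => u2 (by simpa using mul_mem h' (inv_mem (W_le_Q b v1)))
  have h5 := A.E_inf_D h R (mul_mem (inv_mem (mul_mem (mem_sup_left u1) (mem_sup_right v1))) he)
    (A.inv_mul_mem h (mul_mem huT hvT) (A.E_le h he) n1 h1)
    (A.inv_mul_mem (A.symm h) (Ta_symm (mul_mem huT hvT)) (Ta_symm (A.E_le h he)) n2 h2)
  obtain ⟨ρ, rfl⟩ : ∃ ρ, e = u * v * ρ := ⟨(u * v)⁻¹ * e, by group⟩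
  rw [inv_mul_cancel_left] at h5
  have h6 : v * u = u * v * r := by
    rw [mul_inv_eq_iff_eq_mul.1 (A.conj_L h R (W_le_Q a u1) u2 hvT v2), mul_assoc,
      ← A.r_comm h R hvT, mul_assoc]
  have h7 : s * ρ * s⁻¹ = ρ := by
    rcases h5 with rfl | rfl
    · group
    · exact A.fix_r h R hs
  calc s * (u * v * ρ) * s⁻¹ = s * u * s⁻¹ * (s * v * s⁻¹) * (s * ρ * s⁻¹) := by group
    _ = v * u * δ * ρ := by rw [hv, h4, h7]; group
    _ = _ := by rw [h6]; rcases h5 with rfl | rfl <;> rcases hδ with rfl | rfl <;> group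

theorem swap_sq (h : adj a b) (ha : MaxL G a) (hb : MaxL G b) (hz : St a ≤ C1[z])
    (h1 : z • a = a) (h2 : z ≠ 1) (hS : IsPGroup 2 S) (hT : T a b ≤ S) (hs : s ∈ S) (ns : s ∉ T a b) :
    s * s ∈ W a ⊔ W b := by
  obtain ⟨r, R⟩ := A.exists_RR h
  have hn := A.le_norm_T h ha hb hz h1 h2 hS hT hs
  obtain ⟨na, nb⟩ := A.not_mem_St h hS hT hs ns
  obtain ⟨e, e1, d, d1, d2, d3⟩ := A.T_dec h (A.swap_mul h ha hz h1 h2 hS hT (mem_inf.2 ⟨hs, hn⟩)
    (mem_inf.2 ⟨hs, hn⟩) ns ns)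
  by_cases hd : d = 1
  · rw [d3, hd, mul_one]; exact e1
  obtain rfl := A.central_unique h d2 d1 hd hz h1 h2
  have h3 : s * e * s⁻¹ = e * r := by
    have h4 : s * e * s⁻¹ * (s * d * s⁻¹) = e * d := by
      calc s * e * s⁻¹ * (s * d * s⁻¹) = s * (e * d) * s⁻¹ := by group
        _ = _ := by rw [← d3]; group
    rw [A.swap_z h R ha hz h1 h2 hn na, ← mul_assoc, mul_left_inj] at h4
    rw [eq_mul_inv_iff_mul_eq.2 h4, A.Q_inv h R.memL]
  by_cases h4 : e ∈ Q a ∨ e ∈ Q b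
  · exact absurd h3 (A.swap_ne h R ha hb hn na nb e1 h4)
  push Not at h4
  obtain ⟨u, u1, u2⟩ := A.exists_W h
  have h5 := A.swap_four h R ha hb hn na nb e1 h4.1 h4.2 u1 u2 (Or.inr rfl) (by
    rw [d3, ← A.conj_L h R (W_le_Q a u1) u2 (A.E_le h e1) h4.1, mul_assoc e,
      ← mem_cent1.1 (hz (W_le_Q a u1).1)]; group)
  rw [h3] at h5
  exact absurd (by simpa using h5) R.ne

theorem exists_swap (h : adj a b) (ha : MaxL G a) (hb : MaxL G b) (hz : St a ≤ C1[z])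
    (h1 : z • a = a) (h2 : z ≠ 1) (hS : IsPGroup 2 S) (hT : T a b ≤ S) (hs : s ∈ S) (ns : s ∉ T a b) :
    ∃ s ∈ S, s ∉ T a b ∧ ∀ e ∈ W a ⊔ W b, e * s * (e * s) ≠ 1 := by
  by_cases hi : ∃ i ∈ S, i ∉ T a b ∧ i * i = 1
  swap
  · push Not at hi
    refine ⟨s, hs, ns, fun e he => hi _ (mul_mem (hT (A.E_le h he)) hs) fun h' => ns ?_⟩
    simpa using mul_mem (inv_mem (A.E_le h he)) h'
  obtain ⟨i, i1, i2, i3⟩ := hi
  obtain ⟨r, R⟩ := A.exists_RR h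
  have hzQ := A.mem_D_of_central h hz h1
  have hzT := Qa_le_Ta h hzQ.1
  refine ⟨i * z, mul_mem i1 (hT hzT), fun h' => i2 (by simpa using mul_mem h' (inv_mem hzT)),
    fun e he h3 => ?_⟩
  have hn := A.le_norm_T h ha hb hz h1 h2 hS hT i1
  obtain ⟨na, nb⟩ := A.not_mem_St h hS hT i1 i2
  have heT := A.E_le h he
  have h4 : e * r * (i * e * i⁻¹) = 1 := by
    have h5 := mem_cent1.1 (hz (conj_mem_of_mem_norm hn heT).1)
    calc e * r * (i * e * i⁻¹) = e * r * (i * e * i⁻¹) * (z * z) := by rw [A.Q_sq h hzQ.1, mul_one]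
      _ = e * r * (i * e * i⁻¹ * z) * z := by group
      _ = e * (r * z) * (i * e * i⁻¹) * z := by rw [h5]; group
      _ = e * (i * z) * (e * (i⁻¹ * z)) := by rw [← A.swap_z h R ha hz h1 h2 hn na]; group
      _ = 1 := by rw [inv_eq_of_mul_eq_one_right i3, h3]
  have h5 := inv_eq_of_mul_eq_one_right h4
  rw [mul_inv_rev, A.Q_inv h R.memL, ← A.r_comm h R (inv_mem heT)] at h5
  by_cases h6 : e ∈ Q a ∨ e ∈ Q b
  · refine A.swap_ne h R ha hb hn na nb he h6 ?_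
    rw [← h5]
    rcases h6 with h6 | h6
    · rw [A.Q_inv h h6]
    · rw [A.Q_inv (A.symm h) h6]
  push Not at h6
  obtain ⟨u, u1, u2⟩ := A.exists_W h
  have h7 := A.swap_four h R ha hb hn na nb he h6.1 h6.2 u1 u2 (Or.inl rfl) (by rw [i3]; group)
  rw [← h5, mul_one, mul_left_inj, inv_eq_iff_mul_eq_one, A.sq_eq_r h R heT h6.1 h6.2] at h7
  exact R.ne h7

theorem not_mem_odd (h : adj a b) (ha : MaxL G a) (hb : MaxL G b) (hz : St a ≤ C1[z])
    (h1 : z • a = a) (hH : z ∈ oddGenerated (⊤ : Subgroup G)) : z = 1 := by_contra fun h2 => by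
  obtain ⟨S, hS, hT⟩ := exists_syl_ge Nat.prime_two (A.T_two h) le_top
  have hS2 := syl_isPGroup Nat.prime_two hS
  obtain ⟨r, R⟩ := A.exists_RR h
  have hzQ := A.mem_D_of_central h hz h1
  have hzT := Qa_le_Ta h hzQ.1
  have hz2 := A.Q_sq h hzQ.1
  have hzE : z ∉ W a ⊔ W b := fun h' => by
    rcases A.E_inf_D h R h' hzQ.1 hzQ.2 with h3 | h3
    · exact h2 h3
    · exact A.not_central h R (h3 ▸ hz)
  have k1 : ∀ t ∈ T a b, t ∈ W a ⊔ W b ∨ t * z ∈ W a ⊔ W b := fun t ht => by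
    obtain ⟨e, e1, d, d1, d2, rfl⟩ := A.T_dec h ht
    by_cases hd : d = 1
    · left; rw [hd, mul_one]; exact e1
    · right; rw [A.central_unique h d2 d1 hd hz h1 h2, mul_assoc, hz2, mul_one]; exact e1
  suffices hR : ∃ R ≤ S, z ∉ R ∧ (∀ x ∈ S, x ∈ R ∨ x * z ∈ R) ∧ ∀ x ∈ R, x * x = 1 → x ∈ W a ⊔ W b by
    obtain ⟨R', r1, r2, r3, r4⟩ := hR
    obtain ⟨g, hg⟩ := transfer_odd hS r1 (relIndex_eq_two_iff.2 ⟨z, hT hzT, fun x hx => by
      rcases r3 x hx with h3 | h3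
      · exact Or.inr ⟨h3, fun h4 => r2 (by simpa using mul_mem (inv_mem h3) h4)⟩
      · exact Or.inl ⟨h3, fun h4 => r2 (by simpa using mul_mem (inv_mem h4) h3)⟩⟩) hz2 hH
    have h3 : g⁻¹ * z * g * (g⁻¹ * z * g) = 1 := by
      rw [show g⁻¹ * z * g * (g⁻¹ * z * g) = g⁻¹ * (z * z) * g by group, hz2]; group
    obtain ⟨k, hk⟩ := A.E_invol h R (r4 _ hg h3) h3 (by
      rw [Ne, mul_eq_one_iff_eq_inv]; simpa using h2)
    refine A.not_conj h R ha hb hz h1 h2 (g * k) ?_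
    rw [show g * k * r * (g * k)⁻¹ = g * (k * r * k⁻¹) * g⁻¹ by group, ← hk]; group
  by_cases hc : S ≤ T a b
  · exact ⟨_, (A.E_le h).trans hT, hzE, fun x hx => k1 x (hc hx), fun _ hx _ => hx⟩
  obtain ⟨s0, hs0, ns0⟩ := SetLike.not_le_iff_exists.1 hc
  obtain ⟨s, hs, ns, h3⟩ := A.exists_swap h ha hb hz h1 h2 hS2 hT hs0 ns0
  have hn := A.le_norm_T h ha hb hz h1 h2 hS2 hT
  obtain ⟨na, nb⟩ := A.not_mem_St h hS2 hT hs ns
  have h4 := A.swap_sq h ha hb hz h1 h2 hS2 hT hs ns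
  have h5 : s ∈ N[W a ⊔ W b] := by
    refine mem_normalizer_of_conj_le ?_
    rw [conj_sup]
    exact sup_le (conj_le_iff_forall.2 fun x hx => mem_sup_right (A.swap_W h ha hb (hn hs) na nb hx))
      (conj_le_iff_forall.2 fun x hx => mem_sup_left
        (A.swap_W (A.symm h) hb ha (Ta_comm (G := G) a b ▸ hn hs) nb na hx))
  have h6 : ∀ x ∈ W a ⊔ W b ⊔ zpowers s, x ∈ W a ⊔ W b ∨ ∃ e ∈ W a ⊔ W b, x = e * s := fun x hx => by
    obtain ⟨e, he, n, rfl⟩ := (PG.mem_sup_zpowers_nat h5).1 hx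
    rcases Nat.even_or_odd' n with ⟨k, rfl | rfl⟩
    · left; rw [pow_mul, pow_two]; exact mul_mem he (pow_mem h4 k)
    · right; rw [pow_succ, pow_mul, pow_two, ← mul_assoc]; exact ⟨_, mul_mem he (pow_mem h4 k), rfl⟩
  refine ⟨W a ⊔ W b ⊔ zpowers s, sup_le ((A.E_le h).trans hT) (zpowers_le.2 hs), fun h' => ?_,
    fun x hx => ?_, fun x hx h7 => (h6 x hx).resolve_right fun ⟨e, he, h8⟩ => h3 e he (h8 ▸ h7)⟩
  · rcases h6 z h' with h7 | ⟨e, he, h7⟩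
    · exact hzE h7
    · exact ns ((mul_mem_cancel_left (A.E_le h he)).1 (h7 ▸ hzT))
  by_cases hx' : x ∈ T a b
  · exact (k1 x hx').imp mem_sup_left mem_sup_left
  have h7 := A.swap_mul h ha hz h1 h2 hS2 hT (mem_inf.2 ⟨inv_mem hs, hn (inv_mem hs)⟩)
    (mem_inf.2 ⟨hx, hn hx⟩) (fun h' => ns (inv_mem_iff.1 h')) hx'
  have h8 : s ∈ W a ⊔ W b ⊔ zpowers s := mem_sup_right (mem_zpowers s)
  refine (k1 _ h7).imp (fun h' => ?_) fun h' => ?_
  · simpa using mul_mem h8 (mem_sup_left h')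
  · simpa [mul_assoc] using mul_mem h8 (mem_sup_left h')

theorem T_inf_odd (h : adj a b) (ha : MaxL G a) (hb : MaxL G b) :
    T a b ⊓ oddGenerated ⊤ = W a ⊔ W b := by
  have h1 : W a ⊔ W b ≤ oddGenerated ⊤ := sup_le ((A.W_le_odd h).trans (oddGen_mono le_top))
    ((A.W_le_odd (A.symm h)).trans (oddGen_mono le_top))
  refine le_antisymm (fun t ht => ?_) (le_inf (A.E_le h) h1)
  obtain ⟨e, e1, d, d1, d2, rfl⟩ := A.T_dec h ht.1
  rw [A.not_mem_odd h ha hb d2 d1 (by simpa using mul_mem (inv_mem (h1 e1)) ht.2), mul_one]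
  exact e1

end Amal

end Cfsg.Agent.Cls
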