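import Cfsg.Agent.Cls.ZN5
import Cfsg.Agent.TT.WordsData

/-! The conclusion for an amalgam whose vertex stabilisers are maximal 2-local subgroups. -/

set_option autoImplicit false
set_option linter.unusedSectionVars false
set_option linter.unusedVariables false

namespace Cfsg.Agent.Cls
open Cfsg Subgroup Cfsg.Agent.GT MulAction
open scoped commutatorElement

universe u v

variable {G : Type u} [Group G] [Finite G] {Γ : Type v} [MulAction G Γ] {adj : Γ → Γ → Prop}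
  {a b c d : Γ} {x y z t r s u g e : G}

local notation "St" => stabilizer G
local notation "Q" => (Qa adj : Γ → Subgroup G)
local notation "T" => Ta G
local notation "W" => (Wa adj : Γ → Subgroup G)
local notation "H" => oddGenerated (⊤ : Subgroup G)

theorem conj_mem_oddTop (g : G) (hx : x ∈ H) : g * x * g⁻¹ ∈ H :=
  conj_mem_of_mem_norm (norm_le_norm_oddGen ⊤ (le_normalizer (mem_top g))) hx

namespace Amal
variable (A : Amal G adj)
include A

theorem cycle3 (h : adj a b) (hc : adj a c) (hne : c ≠ b) (hx : x ∈ T a b) (nx : x ∉ Q a)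
    (hy : y ∈ T a c) (ny : y ∉ Q a) :
    (x * y) • b = c ∧ (x * y) • c = y • b ∧ (x * y) • y • b = b := by
  obtain ⟨h1, h2⟩ := A.moves_of_not_mem hc hy ny h hne.symm
  have he := A.adj_of_fix hy.1 h
  obtain ⟨h3, h4⟩ := A.moves_of_not_mem h hx nx hc hne
  obtain ⟨h5, h6⟩ := A.moves_of_not_mem h hx nx he h1
  obtain ⟨h7, h8⟩ := A.moves_of_not_mem hc hy ny he h2
  refine ⟨?_, ?_, ?_⟩
  · rw [mul_smul]; exact A.third h he (A.adj_of_fix hx.1 he) hc h1 h6 h5 hne h2.symm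
  · rw [mul_smul, hy.2]; exact A.third h hc (A.adj_of_fix hx.1 hc) he hne h4 h3 h1 h2
  · rw [mul_smul, A.third hc he (A.adj_of_fix hy.1 he) h h2 h8 h7 hne.symm h1.symm, hx.2]

theorem braid (h : adj a b) (ha : MaxL G a) (hb : MaxL G b) (hc : adj a c) (hne : c ≠ b)
    (hx : x ∈ T a b) (nx : x ∉ Q a) (hy : y ∈ T a c) (ny : y ∉ Q a) (x2 : x * x = 1) (y2 : y * y = 1)
    (xH : x ∈ H) (yH : y ∈ H) : x * y * x = y * x * y := by
  obtain ⟨h1, h2, h3⟩ := A.cycle3 h hc hne hx nx hy ny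
  have h0 : (x * y) • a = a := mul_mem hx.1 hy.1
  have hk : x * y * (x * y) * (x * y) ∈ Q a := by
    generalize x * y = k at h0 h1 h2 h3
    exact A.mem_Q_of_fix (by rw [mul_smul, mul_smul, h0, h0, h0]) h hc hne
      (by rw [mul_smul, mul_smul, h1, h2, h3]) (by rw [mul_smul, mul_smul, h2, h3, h1])
  have hx' := inv_eq_of_mul_eq_one_right x2
  have hy' := inv_eq_of_mul_eq_one_right y2
  have h4 : x ∈ C1[x * y * (x * y) * (x * y)] := by
    rw [mem_cent1, ← mul_inv_eq_iff_eq_mul]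
    refine Eq.trans ?_ (A.Q_inv h hk)
    simp only [mul_inv_rev, hx', hy', mul_assoc]
    rw [← mul_assoc, x2, one_mul]
  have h5 : St a ≤ C1[x * y * (x * y) * (x * y)] := by
    refine A.gen h (fun t ht => ?_) (x := x * y) (mem_cent1.2 (by group)) h0 (h1 ▸ hne)
    by_cases h6 : t ∈ Q a
    · exact mem_cent1.2 (A.Q_comm h h6 hk)
    · have h7 : x⁻¹ * t ∈ C1[x * y * (x * y) * (x * y)] :=
        mem_cent1.2 (A.Q_comm h (A.inv_mul_mem h hx ht nx h6) hk)
      exact (mul_mem_cancel_left (inv_mem h4)).1 h7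
  have h6 := A.not_mem_odd h ha hb h5 hk.1 (mul_mem (mul_mem (mul_mem xH yH) (mul_mem xH yH))
    (mul_mem xH yH))
  rw [show x * y * (x * y) * (x * y) = x * y * x * (y * x * y) by group, mul_eq_one_iff_eq_inv] at h6
  rw [h6]; simp only [mul_inv_rev, hx', hy', mul_assoc]

theorem W_le_H (h : adj a b) : W a ≤ H := (A.W_le_odd h).trans (oddGen_mono le_top)

theorem exists_S4 (h : adj a b) (ha : MaxL G a) (hb : MaxL G b) :
    Nonempty (↥(St a ⊓ H) ≃* Equiv.Perm (Fin 4)) := by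
  obtain ⟨r, R⟩ := A.exists_RR h
  obtain ⟨v, v1, v2⟩ := A.exists_W (A.symm h)
  obtain ⟨c, hc, hne⟩ := A.exists_other h
  obtain ⟨g, g1, g2⟩ := A.trans h hc
  have vQ := W_le_Q b v1
  have vT := A.Qa_le_Ta' h vQ
  have v3 := A.Q_sq (A.symm h) vQ
  have vH := A.W_le_H (A.symm h) v1
  have w1 : g * v * g⁻¹ ∈ T a c := by have := (cT (g := g)).2 vT; rwa [g1, g2] at this
  have w2 : g * v * g⁻¹ ∉ Q a := by have := (A.cQ (g := g)).not.2 v2; rwa [g1] at this
  have w3 : g * v * g⁻¹ * (g * v * g⁻¹) = 1 := by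
    rw [show g * v * g⁻¹ * (g * v * g⁻¹) = g * (v * v) * g⁻¹ by group, v3]; group
  have wH := conj_mem_oddTop g vH
  generalize g * v * g⁻¹ = w at w1 w2 w3 wH
  have r1 := mul_mem v1 (mem_W (A.symm h) R.symm)
  have r2 : v * r ∉ Q a := fun h' => v2 ((mul_mem_cancel_right R.memL).1 h')
  have r3 := A.Q_sq (A.symm h) (W_le_Q b r1)
  have rT := A.Qa_le_Ta' h (W_le_Q b r1)
  have rH := A.W_le_H (A.symm h) r1
  obtain ⟨φ, p1, p2, p3⟩ := TT.Wd.exists_hom_S4 v3 w3 r3 (A.braid h ha hb hc hne vT v2 w1 w2 v3 w3 vH wH)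
    (A.braid h ha hb hc hne rT r2 w1 w2 r3 w3 rH wH).symm (A.Q_comm (A.symm h) vQ (W_le_Q b r1))
  have hi := TT.Wd.injective_S4 φ (by rw [p1, p3]; simpa using R.ne)
  have m1 : v ∈ φ.range := ⟨_, p1⟩
  have m2 : w ∈ φ.range := ⟨_, p2⟩
  have m3 : v * r ∈ φ.range := ⟨_, p3⟩
  have m4 : r ∈ φ.range := (mul_mem_cancel_left m1).1 m3
  have hle : φ.range ≤ St a ⊓ H := by
    rw [MonoidHom.range_eq_map, ← TT.Wd.closure_S4, map_le_iff_le_comap, closure_le]
    rintro _ (rfl | rfl | rfl)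
    · exact mem_comap.2 (p1 ▸ mem_inf.2 ⟨vT.1, vH⟩)
    · exact mem_comap.2 (p2 ▸ mem_inf.2 ⟨w1.1, wH⟩)
    · exact mem_comap.2 (p3 ▸ mem_inf.2 ⟨rT.1, rH⟩)
  have htr : ∀ d, adj a d → ∃ m ∈ φ.range, m • b = d := fun d hd => by
    by_cases d1 : d = b
    · exact ⟨1, one_mem _, by rw [d1, one_smul]⟩
    by_cases d2 : d = c
    · exact ⟨v * w, mul_mem m1 m2, d2 ▸ (A.cycle3 h hc hne vT v2 w1 w2).1⟩
    obtain ⟨h1, h2⟩ := A.moves_of_not_mem hc w1 w2 h hne.symm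
    exact ⟨w, m2, A.third h hc (A.adj_of_fix w1.1 h) hd hne h1 h2 d1 d2⟩
  have hE : W a ⊔ W b ≤ φ.range := by
    refine sup_le (fun x hx => ?_) fun x hx => ?_
    · rcases A.mem_W_iff.1 hx with rfl | ⟨d, hd, R'⟩
      · exact one_mem _
      obtain ⟨m, hm, rfl⟩ := htr d hd
      have := A.RR_conj h R m
      rw [mem_stabilizer_iff.1 (hle hm).1] at this
      rw [A.RR_unique hd this R']
      exact mul_mem (mul_mem hm m4) (inv_mem hm)
    · rcases A.W_cases (A.symm h) R.symm v1 v2 hx with rfl | rfl | rfl | rfl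
      exacts [one_mem _, m4, m1, m3]
  have heq : φ.range = St a ⊓ H := le_antisymm hle fun x hx => by
    obtain ⟨m, hm, h1⟩ := htr _ (A.adj_of_fix hx.1 h)
    have h2 := mul_mem (inv_mem (hle hm)) hx
    refine (mul_mem_cancel_left (inv_mem hm)).1 (hE ?_)
    rw [← A.T_inf_odd h ha hb]
    exact mem_inf.2 ⟨⟨h2.1, mem_stabilizer_iff.2 (by rw [mul_smul, ← h1, inv_smul_smul])⟩, h2.2⟩
  exact ⟨(MulEquiv.subgroupCongr heq.symm).trans (MonoidHom.ofInjective hi).symm⟩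

theorem card_E (h : adj a b) : Nat.card ↥(W a ⊔ W b) = 8 := by
  obtain ⟨r, R⟩ := A.exists_RR h
  obtain ⟨u, u1, u2⟩ := A.exists_W h
  obtain ⟨v, v1, v2⟩ := A.exists_W (A.symm h)
  have h1 : W a = zpowers r ⊔ zpowers u := by
    refine le_antisymm (fun x hx => ?_) (sup_le (zpowers_le.2 (mem_W h R)) (zpowers_le.2 u1))
    rcases A.W_cases h R u1 u2 hx with rfl | rfl | rfl | rfl
    exacts [one_mem _, mem_sup_left (mem_zpowers _), mem_sup_right (mem_zpowers _),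
      mul_mem (mem_sup_right (mem_zpowers _)) (mem_sup_left (mem_zpowers _))]
  have h2 : W a ⊔ W b = W a ⊔ zpowers v := by
    refine le_antisymm (sup_le le_sup_left fun x hx => ?_) (sup_le_sup_left (zpowers_le.2 v1) _)
    rcases A.W_cases (A.symm h) R.symm v1 v2 hx with rfl | rfl | rfl | rfl
    exacts [one_mem _, mem_sup_left (mem_W h R), mem_sup_right (mem_zpowers _),
      mul_mem (mem_sup_right (mem_zpowers _)) (mem_sup_left (mem_W h R))]
  rw [h2, PG.card_sup_zpowers Nat.prime_two (A.W_norm (A.symm h) v1) (by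
    rw [pow_two, A.Q_sq (A.symm h) (W_le_Q b v1)]; exact one_mem _) (fun h' => v2 (W_le_Q a h')), h1,
    PG.card_sup_zpowers Nat.prime_two (cent_le_norm _ (by
      rw [cent_zpowers]; exact mem_cent1.2 (A.Q_comm h (W_le_Q a u1) R.memL))) (by
      rw [pow_two, A.Q_sq h (W_le_Q a u1)]; exact one_mem _)
      (fun h' => u2 (zpowers_le.2 R.memR h')),
    PG.card_zpowers_eq_prime Nat.prime_two (by rw [pow_two, A.r_sq h R]) R.ne]

theorem transH (h : adj a b) (hc : adj a c) : ∃ m ∈ St a ⊓ H, m • b = c := by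
  obtain ⟨k, k1, k2, k3⟩ := A.exists_odd h
  obtain ⟨g, g1, g2⟩ := A.trans h hc
  have h1 : T a b ≤ N[St a ⊓ H] := le_norm_inf ((Ta_le_left _ _).trans le_normalizer)
    (le_top.trans (le_normalizer.trans (norm_le_norm_oddGen ⊤)))
  obtain ⟨m, hm, t, ht, rfl⟩ := (mem_sup_of_le_norm' h1).1 (A.gen h le_sup_right
    (mem_sup_left (mem_inf.2 ⟨k1, mem_oddGen (mem_top k) k2⟩)) k1 k3 g1)
  exact ⟨m, hm, by rw [← g2, mul_smul, ht.2]⟩

theorem eq_W (h : adj a b) (ha : MaxL G a) (hb : MaxL G b) {Y : Subgroup G} (hY : IsPGroup 2 Y)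
    (hne : Y ≠ ⊥) (hH : Y ≤ H) (hn : St a ⊓ H ≤ N[Y]) : Y = W a := by
  have hW : W a ≤ St a ⊓ H := le_inf ((W_le_Q a).trans (Qa_le_St a)) (A.W_le_H h)
  have k : ∀ y ∈ Y, y ∈ Q a → y ∈ W a := fun y h1 h2 => A.E_inf h
    (A.T_inf_odd h ha hb ▸ mem_inf.2 ⟨Qa_le_Ta h h2, hH h1⟩) h2
  obtain ⟨y, hy, y1⟩ := exists_ne_one_of_ne_bot (inf_cent_ne_bot_of_isPGroup Nat.prime_two hY
    ((isPGroup_of_elementary (A.elemAb_Q h)).to_le (W_le_Q a)) (hW.trans hn) hne)
  obtain ⟨c, hc, R⟩ := (A.mem_W_iff.1 (k y hy.1 (A.cent_W h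
    (A.norm_W h ha ▸ cent_le_norm _ hy.2 : y ∈ St a) hy.2))).resolve_left y1
  have h1 : W a ≤ Y := fun x hx => by
    rcases A.mem_W_iff.1 hx with rfl | ⟨d, hd, R'⟩
    · exact one_mem _
    obtain ⟨m, hm, rfl⟩ := A.transH hc hd
    have := A.RR_conj hc R m
    rw [mem_stabilizer_iff.1 hm.1] at this
    rw [A.RR_unique hd this R']
    exact conj_mem_of_le_norm hn hm hy.1
  by_contra hc'
  refine (lt_inf_norm_of_isPGroup Nat.prime_two hY (lt_of_le_of_ne h1 (Ne.symm hc'))).not_ge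
    fun x hx => k x hx.1 ?_
  rw [A.norm_W h ha] at hx
  obtain ⟨g, g1, g2⟩ := syl_exists_le_conj Nat.prime_two (A.T_syl h) (hY.to_inf_left (K := St a))
    inf_le_right
  rw [conj_Ta] at g2
  refine ⟨hx.2, fun d hd => ?_⟩
  obtain ⟨m, hm, rfl⟩ := A.transH (A.adj_of_fix g1 h) hd
  have h2 := conj_mono m g2
  rw [conj_eq_self (le_norm_inf hn (inf_le_left.trans le_normalizer) hm), conj_Ta] at h2
  exact (h2 hx).2

theorem maxLocal (h : adj a b) (ha : MaxL G a) (hb : MaxL G b) :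
    IsMaximalTwoLocal ((St a).subgroupOf H) := by
  obtain ⟨r, R⟩ := A.exists_RR h
  have hW := A.W_le_H h
  have h1 : (St a).subgroupOf H = N[(W a).subgroupOf H] := by rw [← subgroupOf_norm hW, A.norm_W h ha]
  refine ⟨⟨_, (isPGroup_subgroupOf_iff hW).2
    ((isPGroup_of_elementary (A.elemAb_Q h)).to_le (W_le_Q a)), fun h' => R.ne ?_, h1⟩, ?_⟩
  · have : (⟨r, hW (mem_W h R)⟩ : H) ∈ (W a).subgroupOf H := mem_W h R
    rw [h'] at this
    exact congrArg Subtype.val (mem_bot.1 this)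
  rintro _ ⟨Y, y1, y2, rfl⟩ hle
  have h2 := A.eq_W h ha hb (y1.map (Subgroup.subtype H))
    (fun h' => y2 ((map_eq_bot_inj (subtype_injective _)).1 h')) (map_subtype_le _) (fun x hx => by
      have h3 : (⟨x, hx.2⟩ : H) ∈ N[Y] := hle hx.1
      exact (map_mem_norm_map_iff (subtype_injective H)).2 h3)
  rw [h1, ← h2, subgroupOf_map_subtype_self]

theorem conclusion (h : adj a b) (ha : MaxL G a) (hb : MaxL G b) :
    ∃ M₁ M₂ : Subgroup H, M₁ ≠ M₂ ∧ IsMaximalTwoLocal M₁ ∧ IsMaximalTwoLocal M₂ ∧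
      Nonempty (M₁ ≃* Equiv.Perm (Fin 4)) ∧ Nonempty (M₂ ≃* Equiv.Perm (Fin 4)) ∧
      Nat.card ↥(M₁ ⊓ M₂) = 8 := by
  have k : ∀ c : Γ, Nonempty (↥(St c ⊓ H) ≃* Equiv.Perm (Fin 4)) →
      Nonempty ((St c).subgroupOf H ≃* Equiv.Perm (Fin 4)) := fun c ⟨e⟩ =>
    ⟨((MulEquiv.subgroupCongr (inf_subgroupOf_right _ _).symm).trans
      (subgroupOfEquivOfLe inf_le_right)).trans e⟩
  refine ⟨_, _, fun h' => ?_, A.maxLocal h ha hb, A.maxLocal (A.symm h) hb ha, k a (A.exists_S4 h ha hb),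
    k b (A.exists_S4 (A.symm h) hb ha), ?_⟩
  · obtain ⟨g, g1, g2, g3⟩ := A.exists_odd h
    have : (⟨g, mem_oddGen (mem_top g) g2⟩ : H) ∈ (St a).subgroupOf H := g1
    rw [h'] at this
    exact g3 this
  · rw [← inf_subgroupOf_distrib, card_subgroupOf', ← A.card_E h, ← A.T_inf_odd h ha hb]; rfl

end Amal

end Cfsg.Agent.Cls
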