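import Cfsg.Agent.Cls.ZN1
import Cfsg.Agent.Cls.ZN5
import Cfsg.Agent.GT.ZJ

/-! The local structure of a ZN-group: Thompson and Baumann subgroups, the module `ΩZ(O₂(L))`. -/

set_option autoImplicit false
set_option linter.unusedSectionVars false
set_option linter.unusedVariables false

namespace Cfsg.Agent.Cls
open Cfsg Subgroup Cfsg.Agent.GT

universe u

variable {G : Type u} [Group G] [Finite G] {A B K L P S T U : Subgroup G}

local notation "J" => thompsonSubgroupOf 2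
local notation "O2" => piCoreOf {2}

/-- the Baumann subgroup -/
def BT (T : Subgroup G) : Subgroup G := T ⊓ C[OZ (J T)]

theorem BT_le (T : Subgroup G) : BT T ≤ T := inf_le_left

theorem J_le_BT (T : Subgroup G) : J T ≤ BT T := le_inf (thompsonSubgroupOf_le 2 T) (le_cent_OZ _)

theorem norm_le_norm_BT (T : Subgroup G) : N[T] ≤ N[BT T] :=
  le_norm_inf le_rfl (le_norm_cent ((norm_le_norm_thompson 2 T).trans (norm_le_norm_OZ _)))

theorem maxEl_iff_of_le (h : MaxEl 2 T B) (h1 : B ≤ U) (h2 : U ≤ T) : MaxEl 2 U A ↔ MaxEl 2 T A ∧ A ≤ U :=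
  ⟨fun h' => ⟨h.of_sub h1 h2 h', h'.1⟩, fun h' => h'.1.of_le h'.2 h2⟩

theorem J_mono (h : MaxEl 2 T B) (h1 : B ≤ U) (h2 : U ≤ T) : J U ≤ J T :=
  thompsonSubgroupOf_le_of_forall fun _ hA => (h.of_sub h1 h2 hA).le_thompson

theorem J_eq (h1 : J T ≤ U) (h2 : U ≤ T) : J U = J T := by
  obtain ⟨B, hB⟩ := exists_maxEl 2 T
  exact le_antisymm (J_mono hB (hB.le_thompson.trans h1) h2)
    (thompsonSubgroupOf_le_of_forall fun A hA => (hA.of_le (hA.le_thompson.trans h1) h2).le_thompson)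

theorem J_BT (T : Subgroup G) : J (BT T) = J T := J_eq (J_le_BT T) (BT_le T)

theorem maxEl_BT : MaxEl 2 (BT T) A ↔ MaxEl 2 T A := by
  obtain ⟨B, hB⟩ := exists_maxEl 2 T
  rw [maxEl_iff_of_le hB (hB.le_thompson.trans (J_le_BT T)) (BT_le T)]
  exact ⟨fun h => h.1, fun h => ⟨h, h.le_thompson.trans (J_le_BT T)⟩⟩

theorem MaxEl.OZ_le (h : MaxEl 2 T A) (h1 : A ≤ U) (h2 : U ≤ T) : OZ U ≤ A := fun x hx =>
  h.mem (h2 hx.1) (by rw [pow_two]; exact hx.2.2) (cent_anti h1 hx.2.1)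

theorem OZ_le_J (h1 : J T ≤ U) (h2 : U ≤ T) : OZ U ≤ OZ (J T) := by
  obtain ⟨B, hB⟩ := exists_maxEl 2 T
  exact OZ_le_OZ h1 ((MaxEl.OZ_le hB (hB.le_thompson.trans h1) h2).trans hB.le_thompson)

theorem OZ_BT (T : Subgroup G) : OZ (BT T) = OZ (J T) :=
  le_antisymm (OZ_le_J (J_le_BT T) (BT_le T)) fun x hx =>
    ⟨J_le_BT T hx.1, le_cent_symm (inf_le_right : BT T ≤ _) hx, hx.2.2⟩

theorem MaxEl.cnj (h : MaxEl 2 T A) (g : G) : MaxEl 2 (cj[g] T) (cj[g] A) :=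
  (maxEl_map_iff (conj_hom_injective g)).2 h

theorem MaxEl.of_card (h : MaxEl 2 T A) (h1 : B ≤ T) (h2 : IsElementaryAbelian 2 B)
    (h3 : Nat.card A ≤ Nat.card B) : MaxEl 2 T B :=
  ⟨h1, h2, fun X h4 h5 => (h.2.2 X h4 h5).trans h3⟩

theorem J_ne_bot (h : IsPGroup 2 T) (hne : T ≠ ⊥) : J T ≠ ⊥ := by
  have : Fact (Nat.Prime 2) := ⟨Nat.prime_two⟩
  obtain ⟨x, h1, h2, h3⟩ := PG.exists_mem_orderOf_eq_p h hne
  obtain ⟨B, hB⟩ := exists_maxEl 2 T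
  refine ne_bot_of_le (fun h' => ?_) hB.le_thompson
  have := hB.2.2 _ (zpowers_le.2 h1) (PG.elemAb_zpowers h3)
  rw [h', card_bot, PG.card_zpowers_eq_prime Nat.prime_two h3 h2] at this
  omega

theorem odd_mem_of_sup (hK : B ≤ N[K]) (hB : IsPGroup 2 B) {x : G} (hx : x ∈ K ⊔ B)
    (ho : Odd (orderOf x)) : x ∈ K := by
  obtain ⟨k, hk⟩ : ∃ k, K.relIndex B = 2 ^ k := by
    have : Fact (Nat.Prime 2) := ⟨Nat.prime_two⟩
    exact PG.exists_relIndex_eq_pow hB K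
  refine PG.mem_of_pow_mem_of_coprime_orderOf (m := 2 ^ k) ?_ ((Nat.coprime_two_right.2 ho).pow_right k)
  rw [← hk, ← relIndex_sup_of_le_norm hK, sup_comm]
  exact PG.pow_relIndex_mem' (sup_le le_normalizer hK) hx

theorem exists_odd_pow (x : G) : ∃ k, Odd (orderOf (x ^ 2 ^ k)) := by
  obtain ⟨k, m, h1, h2⟩ := Nat.exists_eq_two_pow_mul_odd (orderOf_pos x).ne'
  refine ⟨k, ?_⟩
  rw [orderOf_pow_of_dvd (by positivity) ⟨m, h2⟩, h2, Nat.mul_div_cancel_left _ (by positivity)]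
  exact h1

theorem eq_one_of_odd (hB : IsPGroup 2 B) {x : G} (hx : x ∈ B) (ho : Odd (orderOf x)) : x = 1 :=
  PG.eq_one_of_mem_of_coprime hB hx (Nat.coprime_two_right.2 ho)

theorem odd_lift {X : Type*} [Group X] [Finite X] {f : L →* X} (hf : Function.Surjective f)
    {Y : Subgroup X} {y : X} (hy : y ∈ Y) (ho : Odd (orderOf y)) :
    y ∈ im f (oddGenerated (pre f Y)) := by
  obtain ⟨x, rfl⟩ := hf y
  obtain ⟨k, hk⟩ := exists_odd_pow (x : G)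
  refine PG.mem_of_pow_mem_of_coprime_orderOf (m := 2 ^ k) ?_ ((Nat.coprime_two_right.2 ho).pow_right k)
  rw [← map_pow]
  have h1 : (x : G) ∈ pre f Y := (mem_pre' x.2).2 hy
  exact mem_im_of_mem (f := f) (x ^ 2 ^ k).2 (mem_oddGen (pow_mem h1 _) hk)

/-- the hypotheses on a local subgroup -/
structure Loc (L T : Subgroup G) : Prop where
  solv : Group.IsSolvable L
  syl : IsPiHallOf {2} T L
  char : L ⊓ C[O2 L] ≤ O2 L
  cen : L ⊓ C[OZ T] ≤ N[T]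

/-- the minimal parabolic subgroups over the Baumann subgroup -/
structure PP (B P : Subgroup G) : Prop where
  le : B ≤ P
  idx : B.relIndex P = 3
  char : P ⊓ C[O2 P] ≤ O2 P
  ncen : ¬ P ≤ C[OZ B]
  nJ : ¬ J B ≤ O2 P

theorem eq_or_eq_of_three (h1 : B ≤ P) (h2 : B.relIndex P = 3) (h3 : B ≤ K) (h4 : K ≤ P) :
    K = B ∨ K = P :=
  PG.eq_or_eq_of_card_eq_mul Nat.prime_three h3 h4 (PG.card_eq_mul_of_relIndex h1 h2)

theorem syl_of_three (hB : IsPGroup 2 B) (h1 : B ≤ P) (h2 : B.relIndex P = 3) : IsPiHallOf {2} B P :=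
  syl_mk Nat.prime_two h1 hB (by rw [h2]; decide)

theorem inf_norm_le_of_three (hB : IsPGroup 2 B) (h1 : B ≤ P) (h2 : B.relIndex P = 3)
    (h3 : ¬ J B ≤ O2 P) : P ⊓ N[B] ≤ B :=
  ((eq_or_eq_of_three h1 h2 (le_inf h1 le_normalizer) inf_le_left).resolve_right fun h => h3
    ((thompsonSubgroupOf_le 2 B).trans (le_piCoreOf_single Nat.prime_two h1 (h ▸ inf_le_right) hB))).le

namespace Loc
variable (h : Loc L T)
include h

theorem two : IsPGroup 2 T := syl_isPGroup Nat.prime_two h.syl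

theorem Q_le : O2 L ≤ T := piCoreOf_le_hall h.syl

theorem OZ_le_V : OZ T ≤ OZ (O2 L) := OZ_le_OZ h.Q_le fun x hx =>
  h.char (mem_inf.2 ⟨h.syl.le hx.1, cent_anti h.Q_le hx.2.1⟩)

theorem le_norm_V : L ≤ N[OZ (O2 L)] := (self_le_norm_piCoreOf _ L).trans (norm_le_norm_OZ _)

theorem cent_V : L ⊓ C[OZ (O2 L)] ≤ N[T] := (inf_le_inf_left _ (cent_anti h.OZ_le_V)).trans h.cen

theorem T_cent_V : T ⊓ C[OZ (O2 L)] ≤ O2 L := by
  have h1 : L ≤ N[L ⊓ C[OZ (O2 L)]] := le_norm_inf le_normalizer (le_norm_cent h.le_norm_V)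
  have h2 := syl_inf_normal Nat.prime_two h.syl inf_le_left h1
  refine le_trans (le_inf inf_le_left (inf_le_inf_right _ h.syl.le)) (le_piCoreOf_single Nat.prime_two
    (inf_le_left.trans h.syl.le) (h1.trans (norm_le_norm_syl Nat.prime_two h2
      (le_norm_inf h.cent_V le_normalizer))) (h.two.to_le inf_le_left))

theorem le_norm_J (h1 : J T ≤ C[OZ (O2 L)]) : L ≤ N[J T] := by
  rw [← J_eq ((le_inf (thompsonSubgroupOf_le 2 T) h1).trans h.T_cent_V) h.Q_le]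
  exact (self_le_norm_piCoreOf _ L).trans (norm_le_norm_thompson 2 _)

end Loc

/-- the representation of `L / O₂(L)` on `ΩZ(O₂(L))` -/
structure Rep (L T : Subgroup G) {X : Type u} [Group X] {M : Type u} [AddCommGroup M] [Module (ZMod 2) M]
    (f : L →* X) (ι : M → G) (ρ : X →* Module.End (ZMod 2) M) : Prop where
  loc : Loc L T
  surj : Function.Surjective f
  ker : kr f = O2 L
  inj : Function.Injective ι
  add : ∀ v w, ι (v + w) = ι v * ι w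
  mem : ∀ v, ι v ∈ OZ (O2 L)
  ex : ∀ x ∈ OZ (O2 L), ∃ v, ι v = x
  act : ∀ (x : L) v, ι (ρ (f x) v) = x * ι v * (x : G)⁻¹

theorem Loc.exists_rep (h : Loc L T) : ∃ (X : Type u) (_ : Group X) (_ : Finite X) (M : Type u)
    (_ : AddCommGroup M) (_ : Module (ZMod 2) M) (_ : Finite M) (f : L →* X) (ι : M → G)
    (ρ : X →* Module.End (ZMod 2) M), Rep L T f ι ρ := by
  have := (elemAb_OZ (O2 L)).1
  let _ : Module (ZMod 2) (AbV (OZ (O2 L))) := AddCommGroup.zmodModule (n := 2) fun v =>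
    AbV.val_injective (by rw [AbV.val_nsmul, AbV.val_zero]; exact (elemAb_OZ _).2 _ v.val_mem)
  have := normal_subgroupOf (self_le_norm_piCoreOf {2} L)
  let ρ0 : L →* Module.End (ZMod 2) (AbV (OZ (O2 L))) :=
    { toFun := fun x => (conjEnd (OZ (O2 L)) ⟨x, h.le_norm_V x.2⟩).toAddMonoidHom.toZModLinearMap 2
      map_one' := LinearMap.ext fun v => AbV.val_injective (by
        change (conjEnd (OZ (O2 L)) _ v).val = v.val; simp)
      map_mul' := fun x y => LinearMap.ext fun v => AbV.val_injective (by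
        change (conjEnd (OZ (O2 L)) _ v).val = (conjEnd (OZ (O2 L)) _ (conjEnd (OZ (O2 L)) _ v)).val
        simp [mul_assoc]) }
  have h0 : ∀ (x : L) v, (ρ0 x v).val = x * v.val * (x : G)⁻¹ := fun x v => val_conjEnd _ _ _
  refine ⟨L ⧸ (O2 L).subgroupOf L, inferInstance, inferInstance, AbV (OZ (O2 L)), inferInstance,
    inferInstance, inferInstance, QuotientGroup.mk' _, AbV.val, QuotientGroup.lift _ ρ0 fun x hx => ?_,
    h, QuotientGroup.mk'_surjective _, ?_, AbV.val_injective, AbV.val_add, AbV.val_mem,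
    fun x hx => ⟨AbV.mk x hx, rfl⟩, h0⟩
  · refine LinearMap.ext fun v => AbV.val_injective ?_
    rw [h0, v.val_mem.2.1 x hx, mul_inv_cancel_right]; rfl
  · rw [kr_mk', map_subgroupOf_eq_of_le (piCoreOf_le _ _)]

namespace Rep
variable {X : Type u} [Group X] [Finite X] {M : Type u} [AddCommGroup M] [Module (ZMod 2) M] [Finite M]
  {f : L →* X} {ι : M → G} {ρ : X →* Module.End (ZMod 2) M} (h : Rep L T f ι ρ)
  {a b x y : L} {u w v : M} {φ ψ : M →ₗ[ZMod 2] ZMod 2}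
include h

theorem eq_one_iff : f x = 1 ↔ (x : G) ∈ O2 L := by rw [← h.ker]; exact (mem_kr' x.2).symm

theorem fix_iff : ρ (f x) v = v ↔ (x : G) ∈ C1[ι v] := by
  rw [← h.inj.eq_iff, h.act, mul_inv_eq_iff_eq_mul, mem_cent1]

theorem zero : ι 0 = 1 := by have := h.add 0 0; rw [add_zero] at this; simpa using this

theorem two : IsPGroup 2 (im f T) := isPGroup_im h.loc.two

theorem kr_two : IsPiSubgroup {2} (kr f) := h.ker ▸ piCoreOf_isPi _ _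

theorem ffh : FFH ρ := by
  have hT := h.loc.syl.im (f := f) le_rfl
  rw [im_dom_of_surj h.surj] at hT
  refine ⟨?_, ?_, fun c a h1 h2 h3 => ?_⟩
  · have := h.loc.solv; exact Group.isSolvable_of_surjective h.surj
  · rw [← im_dom_of_surj h.surj]; exact piCoreOf_im_eq_bot le_rfl h.ker
  have k : ∀ c : X, ρ c = 1 → ∀ t ∈ im f T, t * c * t⁻¹ = c := fun c hc t ht => by
    obtain ⟨c, rfl⟩ := h.surj c
    obtain ⟨t, ht1, ht2, rfl⟩ := mem_im.1 ht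
    have h4 : (c : G) ∈ C[OZ (O2 L)] := fun x hx => by
      obtain ⟨v, rfl⟩ := h.ex x hx
      exact (mem_cent1.1 (h.fix_iff.1 (by rw [hc]; rfl))).symm
    rw [← mul_inv_eq_one, ← map_inv, ← map_inv, ← map_mul, ← map_mul, ← map_mul, h.eq_one_iff]
    refine h.loc.T_cent_V (mem_inf.2 ⟨?_, mul_mem (conj_mem_of_le_norm (le_norm_cent h.loc.le_norm_V)
      ht1 h4) (inv_mem h4)⟩)
    have := mul_mem ht2 (conj_mem_of_mem_norm (h.loc.cent_V (mem_inf.2 ⟨c.2, h4⟩)) (inv_mem ht2))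
    simpa [mul_assoc] using this
  have k2 : ∀ a : X, a * a = 1 → ∀ c : X, ρ c = 1 → a * c * a⁻¹ = c := fun a ha c hc => by
    obtain ⟨g, -, hg⟩ := syl_exists_conj_le Nat.prime_two hT
      (isPGroup_of_elementary (PG.elemAb_zpowers (x := a) (by rwa [pow_two]))) le_top
    have := k (g * c * g⁻¹) (by rw [map_mul, map_mul, hc, mul_one, ← map_mul, mul_inv_cancel, map_one])
      _ (hg (conj_mem_conj.2 (mem_zpowers a)))
    calc a * c * a⁻¹ = g⁻¹ * (g * a * g⁻¹ * (g * c * g⁻¹) * (g * a * g⁻¹)⁻¹) * g := by group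
      _ = c := by rw [this]; group
  have h4 : c * c = 1 := by rw [k2 a h2 c h1] at h3; rw [mul_eq_one_iff_eq_inv]; exact h3
  obtain ⟨g, -, hg⟩ := syl_exists_conj_le Nat.prime_two hT
    (isPGroup_of_elementary (PG.elemAb_zpowers (x := c) (by rwa [pow_two]))) le_top
  obtain ⟨t, ht1, ht2, ht3⟩ := mem_im.1 (hg (conj_mem_conj.2 (mem_zpowers c)))
  have h5 : f ⟨t, ht1⟩ = 1 := h.eq_one_iff.2 (h.loc.T_cent_V (mem_inf.2 ⟨ht2, fun x hx => by
    obtain ⟨v, rfl⟩ := h.ex x hx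
    refine (mem_cent1.1 ((h.fix_iff (x := ⟨t, ht1⟩)).1 ?_)).symm
    rw [ht3, map_mul, map_mul, h1, mul_one, ← map_mul, mul_inv_cancel, map_one]; rfl⟩))
  rw [ht3] at h5
  simpa using h5

theorem offender (hA : MaxEl 2 T A) : MaxEl 2 T (A ⊓ O2 L ⊔ OZ (O2 L)) ∧
    ∀ K : Subgroup G, A ⊓ O2 L ≤ K → (∀ a : L, (a : G) ∈ A → (∃ u φ, Tv ρ (f a) u φ) → (a : G) ∈ K) →
      A ≤ K := by
  have hL := hA.1.trans h.loc.syl.le
  have hV := (OZ_le _).trans h.loc.Q_le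
  have h1 : Nat.card M = Nat.card (OZ (O2 L)) := Nat.card_congr (Equiv.ofBijective
    (fun v => ⟨ι v, h.mem v⟩) ⟨fun v w e => h.inj (congrArg Subtype.val e), fun ⟨x, hx⟩ => by
      obtain ⟨v, rfl⟩ := h.ex x hx; exact ⟨v, rfl⟩⟩)
  have h2 : ∀ v, v ∈ Fx ρ (im f A) ↔ ι v ∈ A := fun v => by
    refine ⟨fun hv => hA.mem (hV (h.mem v)) ((elemAb_OZ _).2 _ (h.mem v)) fun a ha => ?_, fun hv s hs => ?_⟩
    · exact mem_cent1.1 ((h.fix_iff (x := ⟨a, hL ha⟩)).1 (hv _ (mem_im_of_mem _ ha)))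
    · obtain ⟨a, ha1, ha2, rfl⟩ := mem_im.1 hs
      exact h.fix_iff.2 (mem_cent1.2 (isMulCommutative_iff_forall.1 hA.2.1.1 a ha2 _ hv))
  have h3 : Nat.card (Fx ρ (im f A)) = Nat.card ↥(A ⊓ O2 L ⊓ OZ (O2 L)) := Nat.card_congr
    (Equiv.ofBijective (fun v => ⟨ι v, mem_inf.2 ⟨mem_inf.2 ⟨(h2 _).1 v.2, (h.mem _).1⟩, h.mem _⟩⟩)
      ⟨fun v w e => Subtype.ext (h.inj (congrArg Subtype.val e)), fun ⟨x, hx⟩ => by
        obtain ⟨v, rfl⟩ := h.ex x hx.2; exact ⟨⟨v, (h2 v).2 hx.1.1⟩, rfl⟩⟩)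
  have h4 := card_eq_card_inf_kr_mul (f := f) hL
  rw [h.ker] at h4
  have h5 : A ⊓ O2 L ≤ C[OZ (O2 L)] := inf_le_right.trans (le_cent_OZ _)
  have h6 := card_sup_mul_card_inf (h5.trans (cent_le_norm _))
  have h7 := PG.elemAb_sup (PG.elemAb_of_le hA.2.1 inf_le_left) (elemAb_OZ _) h5
  have h8 : A ⊓ O2 L ⊔ OZ (O2 L) ≤ T := sup_le (inf_le_left.trans hA.1) hV
  have h9 := hA.2.2 _ h8 h7
  have hp := card_pos' (A ⊓ O2 L)
  obtain ⟨k1, k2⟩ := h.ffh.offender (im f A) (PG.elemAb_map (PG.elemAb_subgroupOf_iff hL |>.2 hA.2.1) f) (by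
    rw [h1, h3]
    refine Nat.le_of_mul_le_mul_left ?_ hp
    rw [← h6, ← mul_assoc, ← h4]
    exact Nat.mul_le_mul_right _ h9)
  refine ⟨MaxEl.of_card hA h8 h7 (le_of_eq ?_), fun K hK1 hK2 a ha => ?_⟩
  · refine Nat.eq_of_mul_eq_mul_right (card_pos' (A ⊓ O2 L ⊓ OZ (O2 L))) ?_
    rw [h6, ← h1, k1, h3, h4, mul_assoc]
  have k3 : im f A ≤ im f (K ⊓ A) := k2.trans ((closure_le _).2 fun y hy => by
    obtain ⟨a, ha1, ha2, rfl⟩ := mem_im.1 hy.1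
    exact mem_im_of_mem ha1 (mem_inf.2 ⟨hK2 ⟨a, ha1⟩ ha2 hy.2, ha2⟩))
  obtain ⟨k, hk1, hk2, hk3⟩ := mem_im.1 (k3 (mem_im_of_mem (hL ha) ha))
  have k4 : f (⟨k, hk1⟩⁻¹ * ⟨a, hL ha⟩) = 1 := by rw [map_mul, map_inv, hk3, inv_mul_cancel]
  exact (mul_mem_cancel_left (K.inv_mem hk2.1)).1
    (hK1 (mem_inf.2 ⟨mul_mem (inv_mem hk2.2) ha, h.eq_one_iff.1 k4⟩))

theorem V_le_J : OZ (O2 L) ≤ J T := by
  obtain ⟨A, hA⟩ := exists_maxEl 2 T
  exact le_sup_right.trans (h.offender hA).1.le_thompson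

theorem J_le (hK1 : J T ⊓ O2 L ≤ K) (hK2 : ∀ a : L, (∃ A, MaxEl 2 T A ∧ (a : G) ∈ A) →
    (∃ u φ, Tv ρ (f a) u φ) → (a : G) ∈ K) : J T ≤ K :=
  thompsonSubgroupOf_le_of_forall fun A hA => (h.offender hA).2 K
    ((inf_le_inf_right _ hA.le_thompson).trans hK1) fun a ha => hK2 a ⟨A, hA, ha⟩

theorem vec_mem (ha : (a : G) ∈ T) (ht : Tv ρ (f a) u φ) : ι u ∈ OZ (J T) := by
  refine ⟨h.V_le_J (h.mem u), mem_cent_iff_le_cent1.2 (h.J_le (inf_le_right.trans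
    (mem_cent_iff_le_cent1.1 (h.mem u).2.1)) ?_), (h.mem u).2.2⟩
  rintro b ⟨A, hA, hb⟩ ⟨w, ψ, ht'⟩
  refine h.fix_iff.1 ?_
  rcases h.ffh.dich ht ht' with h1 | h1
  · rw [h.ffh.eq_of_two ht h1 h.two (mem_im_of_mem a.2 ha) (mem_im_of_mem b.2 (hA.1 hb))]
    exact ht.fix_self
  · exact ht'.fix_iff.2 (h1 _ (self_mem_cls _) _ _ ht)

theorem B_fix (ha : (a : G) ∈ T) (ht : Tv ρ (f a) u φ) (hb : (b : G) ∈ BT T) :
    f b * f a * (f b)⁻¹ = f a := by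
  have h1 := ht.cnj (f b)
  rw [h.fix_iff.2 (cent_le_cent1 (h.vec_mem ha ht) hb.2)] at h1
  obtain ⟨p, hp1, hp2⟩ := h.ffh.exists_ne ht
  obtain ⟨w, ψ, hp⟩ := ht.of_cls hp1
  have h2 := (h.ffh.pair_cls ht.sq ht hp (self_mem_cls _) hp1 hp2.symm).2
  refine h.ffh.eq_of_two ht ?_ h.two (mem_im_of_mem a.2 ha) (mul_mem (mul_mem
    (mem_im_of_mem b.2 hb.1) (mem_im_of_mem a.2 ha)) (inv_mem (mem_im_of_mem b.2 hb.1)))
  rcases h.ffh.dich h1 hp with h3 | h3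
  · exact cls_trans hp1 (cls_symm h3)
  · rw [h3 _ (self_mem_cls _) _ _ h1] at h2; exact absurd h2 (by decide)

theorem W_act (hA : MaxEl 2 T A) (ha : (a : G) ∈ A) (ht : Tv ρ (f a) u φ) {z : G}
    (hz : z ∈ OZ (J (O2 L))) : a * z * (a : G)⁻¹ = z ∨ a * z * (a : G)⁻¹ = z * ι u := by
  have h1 := (h.offender hA).1
  have h2 : A ⊓ O2 L ⊔ OZ (O2 L) ≤ O2 L := sup_le inf_le_right (OZ_le _)
  have h3 := MaxEl.OZ_le h1 (h1.of_le h2 h.loc.Q_le).le_thompson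
    ((thompsonSubgroupOf_le 2 _).trans h.loc.Q_le) hz
  obtain ⟨z1, hz1, z2, hz2, rfl⟩ := (mem_sup_of_le_norm ((inf_le_right.trans (le_cent_OZ _)).trans
    (cent_le_norm _))).1 h3
  obtain ⟨v, rfl⟩ := h.ex z2 hz2
  have h4 : a * (z1 * ι v) * (a : G)⁻¹ = z1 * ι (ρ (f a) v) := by
    rw [h.act, ← mul_assoc, isMulCommutative_iff_forall.1 hA.2.1.1 a ha z1 hz1.1]; group
  rw [h4, ht.act]
  rcases zmod2_cases (φ v) with h5 | h5 <;> rw [h5]
  · left; rw [zero_smul, add_zero]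
  · right; rw [one_smul, h.add, mul_assoc]

theorem baumann (hA : MaxEl 2 T A) (ha : (a : G) ∈ A) (ht : Tv ρ (f a) u φ) :
    oddGenerated (pre f (Dg (f a))) ⊓ O2 L ≤ BT T := by
  obtain ⟨_, ⟨l, hl, rfl⟩, hp2⟩ := h.ffh.exists_ne ht
  obtain ⟨l, rfl⟩ := h.surj l
  have hp1 : f l * f a * (f l)⁻¹ ∈ cls (f a) := ⟨_, hl, rfl⟩
  have hp := ht.cnj (f l)
  have h2 := (h.ffh.pair_cls ht.sq ht hp (self_mem_cls _) hp1 hp2.symm).2
  have hW : L ≤ N[OZ (J (O2 L))] := (self_le_norm_piCoreOf _ L).trans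
    ((norm_le_norm_thompson 2 _).trans (norm_le_norm_OZ _))
  have k1 : ∀ z ∈ OZ (J (O2 L)), (l * a * l⁻¹ : L) * z * ((l * a * l⁻¹ : L) : G)⁻¹ = z ∨
      (l * a * l⁻¹ : L) * z * ((l * a * l⁻¹ : L) : G)⁻¹ = z * ι (ρ (f l) u) := fun z hz => by
    have e : (l * a * l⁻¹ : L) * z * ((l * a * l⁻¹ : L) : G)⁻¹ =
        l * (a * ((l : G)⁻¹ * z * l) * (a : G)⁻¹) * (l : G)⁻¹ := by push_cast; group
    rcases h.W_act hA ha ht (conj_mem_of_le_norm' hW l.2 hz) with h3 | h3 <;> rw [e, h3]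
    · left; group
    · right; rw [h.act]; group
  have e : f l * f a * (f l)⁻¹ = f (l * a * l⁻¹) := by simp
  have hsq : ((l * a * l⁻¹ : L) : G)⁻¹ = (l * a * l⁻¹ : L) := by
    have : (a : G)⁻¹ = a := inv_eq_of_mul_eq_one_right (by rw [← pow_two]; exact hA.2.1.2 _ ha)
    push_cast; rw [mul_inv_rev, mul_inv_rev, inv_inv, this, mul_assoc]
  rw [e] at hp hp1 hp2
  generalize l * a * l⁻¹ = p at hp hp1 hp2 k1 hsq
  generalize ρ (f l) u = w at hp k1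
  generalize φ ∘ₗ ρ (f l)⁻¹ = ψ at hp h2
  have h3 : p * ι u * (p : G)⁻¹ = ι u * ι w := by rw [← h.act, hp.act, h2, one_smul, h.add]
  have h0 := (h.offender hA).1
  have h4 : OZ (J T) ≤ OZ (J (O2 L)) := OZ_le_OZ (J_mono h0 (sup_le inf_le_right (OZ_le _)) h.loc.Q_le)
    ((MaxEl.OZ_le h0 h0.le_thompson (thompsonSubgroupOf_le 2 T)).trans
      (h0.of_le (sup_le inf_le_right (OZ_le _)) h.loc.Q_le).le_thompson)
  have hu := h.vec_mem (hA.1 ha) ht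
  have k2 : ∀ z ∈ OZ (J T), z ∈ OZ (J T) ⊓ cj[(p : G)] (OZ (J T)) ∨
      z * ι u ∈ OZ (J T) ⊓ cj[(p : G)] (OZ (J T)) := fun z hz => by
    rcases k1 z (h4 hz) with h5 | h5
    · exact Or.inl (mem_inf.2 ⟨hz, h5 ▸ conj_mem_conj.2 hz⟩)
    · have h6 : p * (z * ι u) * (p : G)⁻¹ = z * ι u := by
        rw [show p * (z * ι u) * (p : G)⁻¹ = p * z * (p : G)⁻¹ * (p * ι u * (p : G)⁻¹) by group, h5, h3,
          mul_assoc, ← h.add, ← h.add, add_comm u, ← add_assoc, add_self_zmod2, zero_add]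
      exact Or.inr (mem_inf.2 ⟨mul_mem hz hu, h6 ▸ conj_mem_conj.2 (mul_mem hz hu)⟩)
  have hT : T ≤ N[OZ (J T)] := le_normalizer.trans ((norm_le_norm_thompson 2 _).trans (norm_le_norm_OZ _))
  have k3 : O2 L ≤ N[OZ (J T) ⊓ cj[(p : G)] (OZ (J T))] := by
    refine le_norm_inf (h.loc.Q_le.trans hT) ?_
    rw [← conj_normalizer, ← conj_eq_self (self_le_norm_piCoreOf {2} L p.2)]
    exact conj_mono _ (h.loc.Q_le.trans hT)
  have haZ : (a : G) ∈ C[OZ (J T)] := le_cent_OZ _ (hA.le_thompson ha)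
  have k4 : pre f (Dg (f a)) ≤ (L ⊓ C[OZ (J T) ⊓ cj[(p : G)] (OZ (J T))]) ⊔ O2 L := by
    refine pre_le_of_le_im (sup_le inf_le_left (piCoreOf_le _ _)) (h.ker ▸ le_sup_right) ?_
    have m1 : f a ∈ im f ((L ⊓ C[OZ (J T) ⊓ cj[(p : G)] (OZ (J T))]) ⊔ O2 L) :=
      mem_im_of_mem a.2 (mem_sup_left (mem_inf.2 ⟨a.2, cent_anti inf_le_left haZ⟩))
    refine h.ffh.Dg_le ht (conj_mem_cls ht.sq hp1 (self_mem_cls _)) (fun h' => hp2 ?_) m1 (mul_mem m1 ?_)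
    · have h5 := h.ffh.braid_cls ht hp1 (self_mem_cls _)
      rw [h', mul_assoc, left_eq_mul, mul_eq_one_iff_eq_inv, ht.inv] at h5
      exact h5
    · rw [← map_mul, ← map_mul]
      refine mem_im_of_mem (p * a * p).2 (mem_sup_left (mem_inf.2 ⟨(p * a * p).2, cent_anti inf_le_right ?_⟩))
      rw [← conj_centralizer]
      have := (conj_mem_conj (g := (p : G))).2 haZ
      rwa [hsq] at this
  have k5 : oddGenerated (pre f (Dg (f a))) ≤ C[OZ (J T) ⊓ cj[(p : G)] (OZ (J T))] :=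
    oddGen_le_iff.2 fun x hx ho => (odd_mem_of_sup (le_norm_inf ((piCoreOf_le _ _).trans le_normalizer)
      (le_norm_cent k3)) (piCoreOf_isPGroup Nat.prime_two L) (k4 hx) ho).2
  refine fun y hy => ⟨h.loc.Q_le hy.2, fun z hz => ?_⟩
  rcases k2 z hz with h5 | h5
  · exact k5 hy.1 z h5
  · have h6 := k5 hy.1 _ h5
    rw [mul_assoc, ← (h.mem u).2.1 y hy.2, ← mul_assoc, ← mul_assoc, mul_left_inj] at h6
    exact h6

end Rep

end Cfsg.Agent.Cls
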