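import Cfsg.Agent.Cls.ZN7

/-! The minimal parabolic subgroups over the Baumann subgroup in a local subgroup. -/

set_option autoImplicit false
set_option linter.unusedSectionVars false
set_option linter.unusedVariables false

namespace Cfsg.Agent.Cls
open Cfsg Subgroup Cfsg.Agent.GT

universe u

variable {G : Type u} [Group G] [Finite G] {A B K L P P' S T U : Subgroup G}

local notation "J" => thompsonSubgroupOf 2
local notation "O2" => piCoreOf {2}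

namespace Rep
variable {X : Type u} [Group X] [Finite X] {M : Type u} [AddCommGroup M] [Module (ZMod 2) M] [Finite M]
  {f : L →* X} {ι : M → G} {ρ : X →* Module.End (ZMod 2) M} (h : Rep L T f ι ρ)
  {a b x y : L} {u w v : M} {φ ψ : M →ₗ[ZMod 2] ZMod 2}
include h

theorem im_odd (ht : Tv ρ (f a) u φ) {p : X} (hp : p ∈ cls (f a)) (hne : p ≠ f a) :
    im f (oddGenerated (pre f (Dg (f a)))) = zpowers (f a * p) := by
  have h1 := h.ffh.orderOf_mul ht hp hne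
  refine le_antisymm (im_le_of_le_pre (oddGen_le_iff.2 fun x hx ho => ?_)) (zpowers_le.2 (odd_lift h.surj
    (mul_mem (mem_Dg_of_cls (self_mem_cls _)) (mem_Dg_of_cls hp)) (by rw [h1]; decide)))
  obtain ⟨hx1, hx2⟩ := mem_pre.1 hx
  refine (mem_pre' hx1).2 ((h.ffh.mem_Dg ht hp hne hx2).elim id fun h2 => ?_)
  have h3 : Odd (orderOf (f ⟨x, hx1⟩)) :=
    Odd.of_dvd_nat (by rwa [← Subgroup.orderOf_coe]) (orderOf_map_dvd f _)
  rw [eq_one_of_odd_of_pow_four h3 (by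
    rw [show 4 = 2 + 2 from rfl, pow_add, pow_two, sq_of_cls ht.sq h2, one_mul])]
  exact one_mem _

theorem B_norm (ha : (a : G) ∈ T) (ht : Tv ρ (f a) u φ) : BT T ≤ N[oddGenerated (pre f (Dg (f a)))] := by
  refine le_trans (le_norm_pre ((BT_le T).trans h.loc.syl.le) fun y hy => ?_) (norm_le_norm_oddGen _)
  obtain ⟨b, hb1, hb2, rfl⟩ := mem_im.1 hy
  exact mem_norm_Dg (by rw [h.B_fix ha ht (b := ⟨b, hb1⟩) hb2]; exact self_mem_cls _)

theorem P_le (a : L) : oddGenerated (pre f (Dg (f a))) ⊔ BT T ≤ L :=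
  sup_le ((oddGen_le _).trans pre_le) ((BT_le T).trans h.loc.syl.le)

theorem Dg_le_im (hA : MaxEl 2 T A) (ha : (a : G) ∈ A) (ht : Tv ρ (f a) u φ) :
    Dg (f a) ≤ im f (oddGenerated (pre f (Dg (f a))) ⊔ BT T) := by
  obtain ⟨p, hp, hne⟩ := h.ffh.exists_ne ht
  exact h.ffh.Dg_le ht hp hne (mem_im_of_mem a.2 (mem_sup_right (J_le_BT T (hA.le_thompson ha))))
    (im_mono le_sup_left (h.im_odd ht hp hne ▸ mem_zpowers _))

theorem pp (hA : MaxEl 2 T A) (ha : (a : G) ∈ A) (ht : Tv ρ (f a) u φ) :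
    PP (BT T) (oddGenerated (pre f (Dg (f a))) ⊔ BT T) := by
  obtain ⟨p, hp, hne⟩ := h.ffh.exists_ne ht
  have h1 := h.ffh.orderOf_mul ht hp hne
  have h2 := h.im_odd ht hp hne
  have hB := h.loc.two.to_le (BT_le T)
  have hO : oddGenerated (pre f (Dg (f a))) ≤ L := (oddGen_le _).trans pre_le
  have h3 : (BT T).relIndex (oddGenerated (pre f (Dg (f a))) ⊔ BT T) = 3 := by
    rw [sup_comm, relIndex_sup_eq_of_norm_or (Or.inl (h.B_norm (hA.1 ha) ht)), ← h1, ← Nat.card_zpowers,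
      ← h2, card_im hO, ← inf_relIndex_right, ← inf_relIndex_right (kr f), h.ker]
    congr 1
    refine le_antisymm (fun y hy => mem_inf.2 ⟨?_, hy.2⟩) fun y hy =>
      mem_inf.2 ⟨h.baumann hA ha ht (mem_inf.2 ⟨hy.2, hy.1⟩), hy.2⟩
    refine (h.eq_one_iff (x := ⟨y, hO hy.2⟩)).1 (eq_one_of_odd h.two (mem_im_of_mem _ hy.1.1) ?_)
    refine Odd.of_dvd_nat ?_ (orderOf_dvd_card_of_mem (h2 ▸ mem_im_of_mem _ hy.2))
    rw [Nat.card_zpowers, h1]; decide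
  obtain ⟨y, hy1, hy2, hy3⟩ := mem_im.1 (h.Dg_le_im hA ha ht (mem_Dg_of_cls hp))
  have haP : (a : G) ∈ oddGenerated (pre f (Dg (f a))) ⊔ BT T :=
    mem_sup_right (J_le_BT T (hA.le_thompson ha))
  have h4 : ¬ J (BT T) ≤ O2 (oddGenerated (pre f (Dg (f a))) ⊔ BT T) := fun h' => by
    rw [J_BT] at h'
    have h5 := ((piCoreOf_le_hall (syl_of_three hB le_sup_right h3)).trans (BT_le T))
      (conj_mem_of_le_norm (self_le_norm_piCoreOf _ _) (mul_mem haP hy2) (h' (hA.le_thompson ha)))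
    have h6 := mem_im_of_mem (f := f) (a * ⟨y, hy1⟩ * a * (a * ⟨y, hy1⟩)⁻¹).2 h5
    obtain ⟨w, ψ, hp'⟩ := ht.of_cls hp
    rw [Subtype.coe_eta, map_mul, map_mul, map_inv, map_mul, hy3,
      h.ffh.braid_cls ht (self_mem_cls _) hp, mul_inv_rev, mul_assoc, mul_inv_cancel_left,
      mul_inv_cancel_right] at h6
    exact hne (h.ffh.eq_of_two ht hp h.two (mem_im_of_mem a.2 (hA.1 ha)) h6)
  refine ⟨le_sup_right, h3, le_piCoreOf_single Nat.prime_two inf_le_left (le_norm_inf le_normalizer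
    (le_norm_cent (self_le_norm_piCoreOf _ _))) (hB.to_le (le_trans (le_inf inf_le_left ?_)
      (inf_norm_le_of_three hB le_sup_right h3 h4))), fun h' => ?_, h4⟩
  · refine le_trans (inf_le_inf (h.P_le a) (cent_anti ?_)) (h.loc.cent_V.trans (norm_le_norm_BT T))
    exact le_trans (le_inf (OZ_le _) (h.V_le_J.trans ((J_le_BT T).trans le_sup_right)))
      (piCoreOf_inf_le (h.P_le a))
  · obtain ⟨w, ψ, hp'⟩ := ht.of_cls hp
    have h5 := (h.ffh.pair_cls ht.sq ht hp' (self_mem_cls _) hp hne.symm).2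
    rw [OZ_BT] at h'
    have h6 := (h.fix_iff (x := ⟨y, hy1⟩)).2 (cent_le_cent1 (h.vec_mem (hA.1 ha) ht) (h' hy2))
    rw [hy3, hp'.fix_iff, h5] at h6
    exact absurd h6 (by decide)

theorem le_of_pp (h1 : L ⊓ N[J T] ≤ K) (h2 : ∀ P, PP (BT T) P → P ≤ L → P ≤ K) : L ≤ K := by
  set D : Set X := {b | (∃ u φ, Tv ρ b u φ) ∧ ∃ y : X, ∃ a : L, (∃ A, MaxEl 2 T A ∧ (a : G) ∈ A) ∧
    b = y * f a * y⁻¹}
  set Y : Subgroup X := ⨆ b ∈ D, Dg b
  have hY : ∀ b ∈ D, Dg b ≤ Y := fun b hb => le_iSup₂_of_le (f := fun b (_ : b ∈ D) => Dg b) b hb le_rfl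
  have h3 : L ≤ N[pre f Y] := dom_le_norm_pre fun y _ => mem_normalizer_of_conj_le (conj_le_iff.2
    (iSup₂_le fun b ⟨⟨u, φ, hb⟩, z, a, ha, e⟩ => conj_le_iff.1 ((conj_Dg_le y b).trans
      (hY _ ⟨⟨_, _, hb.cnj y⟩, y * z, a, ha, by rw [e]; group⟩))))
  have h4 : J T ≤ pre f Y := h.J_le (inf_le_right.trans (h.ker ▸ kr_le_pre)) fun a ha ht =>
    (mem_pre' a.2).2 (hY _ ⟨ht, 1, a, ha, by group⟩ (mem_Dg_of_cls (self_mem_cls _)))
  have h5 := syl_inf_normal Nat.prime_two h.loc.syl pre_le h3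
  have h6 : J (T ⊓ pre f Y) = J T := J_eq (le_inf (thompsonSubgroupOf_le 2 T) h4) inf_le_left
  rw [← frattini_arg Nat.prime_two h5 pre_le h3]
  refine sup_le ?_ (le_trans (inf_le_inf_left _ (h6 ▸ norm_le_norm_thompson 2 _)) h1)
  have hT : T ≤ K := (le_inf h.loc.syl.le (le_normalizer.trans (norm_le_norm_thompson 2 T))).trans h1
  refine le_trans (pre_le_of_le_im (H := K ⊓ L) inf_le_right
    (h.ker ▸ le_inf (h.loc.Q_le.trans hT) (piCoreOf_le _ _)) ?_) inf_le_left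
  refine iSup₂_le fun b ⟨⟨u, φ, hb⟩, y, a, ⟨A, hA, ha⟩, e⟩ => ?_
  obtain ⟨l, rfl⟩ := h.surj y
  obtain ⟨k, hk1, hk2⟩ := syl_exists_conj_le Nat.prime_two h5 (isPGroup_conj_iff.2
    (isPGroup_of_elementary hA.2.1)) (conj_eq_self (h3 l.2) ▸ conj_mono (l : G) (hA.le_thompson.trans h4))
  obtain ⟨hk3, hk4⟩ := mem_pre.1 hk1
  rw [← mul_conj] at hk2
  have hA' := MaxEl.of_card hA (hk2.trans inf_le_left) (isElementaryAbelian_conj_iff.2 hA.2.1)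
    (card_conj _ _).ge
  have e2 : f (⟨k, hk3⟩ * l * a * (⟨k, hk3⟩ * l)⁻¹) = f ⟨k, hk3⟩ * b * (f ⟨k, hk3⟩)⁻¹ := by
    rw [e]; simp only [map_mul, map_inv]; group
  have hb' := hb.cnj (f ⟨k, hk3⟩)
  rw [← e2] at hb'
  have ha' : ((⟨k, hk3⟩ * l * a * (⟨k, hk3⟩ * l)⁻¹ : L) : G) ∈ cj[k * l] A := conj_mem_conj.2 ha
  have h7 : Y ≤ N[Dg b] := iSup₂_le fun c ⟨⟨_, _, hc⟩, _⟩ => h.ffh.Dg_le_norm hb hc
  rw [← conj_eq_self (h7 hk4)]
  refine (conj_Dg_le _ _).trans ?_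
  rw [← e2]
  exact (h.Dg_le_im hA' ha' hb').trans (im_mono (le_inf (h2 _ (h.pp hA' ha' hb') (h.P_le _)) (h.P_le _)))

theorem eq_of_pp (hP : PP (BT T) P) (hL : P ≤ L) : ∃ (A : Subgroup G) (a : L) (u : M)
    (φ : M →ₗ[ZMod 2] ZMod 2), MaxEl 2 T A ∧ (a : G) ∈ A ∧ Tv ρ (f a) u φ ∧
      P = oddGenerated (pre f (Dg (f a))) ⊔ BT T := by
  have hB := h.loc.two.to_le (BT_le T)
  obtain ⟨a, ⟨A, hA, ha⟩, ⟨u, φ, ht⟩, na⟩ : ∃ a : L, (∃ A, MaxEl 2 T A ∧ (a : G) ∈ A) ∧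
      (∃ u φ, Tv ρ (f a) u φ) ∧ (a : G) ∉ O2 P := by
    by_contra hc
    push Not at hc
    refine hP.nJ (J_BT T ▸ h.J_le (le_trans ?_ (piCoreOf_inf_le hL)) hc)
    exact le_inf inf_le_right (inf_le_left.trans ((J_le_BT T).trans hP.le))
  refine ⟨A, a, u, φ, hA, ha, ht, ?_⟩
  have haP := hP.le (J_le_BT T (hA.le_thompson ha))
  obtain ⟨g, hg, h1⟩ : ∃ g ∈ P, ¬ IsPGroup 2 ↥(zpowers (a : G) ⊔ zpowers (g * a * g⁻¹)) := by
    by_contra hc
    push Not at hc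
    exact na (baer_suzuki_solvable Nat.prime_two (solv_of_le h.loc.solv hL) haP hc)
  have ht' := ht.cnj (f ⟨g, hL hg⟩)
  have e : f (⟨g, hL hg⟩ * a * ⟨g, hL hg⟩⁻¹) = f ⟨g, hL hg⟩ * f a * (f ⟨g, hL hg⟩)⁻¹ := by simp
  rw [← e] at ht'
  have hb : ((⟨g, hL hg⟩ * a * ⟨g, hL hg⟩⁻¹ : L) : G) = g * a * g⁻¹ := rfl
  generalize (⟨g, hL hg⟩ * a * ⟨g, hL hg⟩⁻¹ : L) = b at ht' hb
  have h2 : f a * f b ≠ f b * f a := fun h' => h1 (by
    have h3 := PG.elemAb_sup_zpowers (PG.elemAb_zpowers (x := f a) (by rw [pow_two, ht.sq]))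
      (x := f b) (by rw [pow_two, ht'.sq]) (by rw [cent_zpowers]; exact mem_cent1.2 h'.symm)
    have h4 := isPiSubgroup_pre h.kr_two (isPi_of_isPGroup Nat.prime_two (isPGroup_of_elementary h3))
    refine ((isPiSubgroup_single_iff Nat.prime_two).1 h4).to_le (sup_le (zpowers_le.2 ?_) (zpowers_le.2 ?_))
    · exact (mem_pre' a.2).2 (mem_sup_left (mem_zpowers _))
    · exact hb ▸ (mem_pre' b.2).2 (mem_sup_right (mem_zpowers _)))
  have h3 : f b ∈ cls (f a) := by_contra fun h' =>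
    h2 (h.ffh.comm_of_not_mem ht ht' h' (self_mem_cls _) (self_mem_cls _))
  have h4 := h.ffh.orderOf_mul ht h3 fun h' => h2 (by rw [h'])
  obtain ⟨k, hk⟩ := exists_odd_pow ((a * b : L) : G)
  have h5 : ((a * b : L) : G) ^ 2 ^ k ∈ P :=
    pow_mem (mul_mem haP (hb ▸ mul_mem (mul_mem hg haP) (inv_mem hg))) _
  have h6 : ((a * b : L) : G) ^ 2 ^ k ∈ oddGenerated (pre f (Dg (f a))) := by
    refine mem_oddGen (pow_mem ((mem_pre' (a * b).2).2 ?_) _) hk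
    rw [Subtype.coe_eta, map_mul]
    exact mul_mem (mem_Dg_of_cls (self_mem_cls _)) (mem_Dg_of_cls h3)
  have h7 : ((a * b : L) : G) ^ 2 ^ k ∉ BT T := fun h' => by
    have h8 : (a * b) ^ 2 ^ k = 1 := Subtype.ext (eq_one_of_odd hB h' hk)
    have h9 := orderOf_dvd_of_pow_eq_one (show (f a * f b) ^ 2 ^ k = 1 by
      rw [← map_mul, ← map_pow, h8, map_one])
    rw [h4] at h9
    exact absurd (Nat.prime_three.dvd_of_dvd_pow h9) (by decide)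
  have hP' := h.pp hA ha ht
  have k1 := (eq_or_eq_of_three hP.le hP.idx (le_inf hP.le hP'.le) inf_le_left).resolve_left
    fun h' => h7 (h' ▸ mem_inf.2 ⟨h5, mem_sup_left h6⟩)
  have k2 := (eq_or_eq_of_three hP'.le hP'.idx (le_inf hP.le hP'.le) inf_le_right).resolve_left
    fun h' => h7 (h' ▸ mem_inf.2 ⟨h5, mem_sup_left h6⟩)
  exact k1.symm.trans k2

theorem oddGen_P (ha : (a : G) ∈ T) (ht : Tv ρ (f a) u φ) :
    oddGenerated (oddGenerated (pre f (Dg (f a))) ⊔ BT T) = oddGenerated (pre f (Dg (f a))) :=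
  le_antisymm (oddGen_le_iff.2 fun x hx ho =>
    odd_mem_of_sup (h.B_norm ha ht) (h.loc.two.to_le (BT_le T)) hx ho)
    (oddGen_le_iff.2 fun x hx ho => mem_oddGen (mem_sup_left (mem_oddGen hx ho)) ho)

end Rep

namespace Loc
variable (h : Loc L T)
include h

theorem V_le_J : OZ (O2 L) ≤ J T := by
  obtain ⟨X, _, _, M, _, _, _, f, ι, ρ, R⟩ := h.exists_rep
  exact R.V_le_J

theorem le_of_pp (h1 : L ⊓ N[J T] ≤ K) (h2 : ∀ P, PP (BT T) P → P ≤ L → P ≤ K) : L ≤ K := by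
  obtain ⟨X, _, _, M, _, _, _, f, ι, ρ, R⟩ := h.exists_rep
  exact R.le_of_pp h1 h2

theorem pp_norm (hP : PP (BT T) P) (hL : P ≤ L) (hP' : PP (BT T) P') (hL' : P' ≤ L) :
    P' ≤ N[oddGenerated P] := by
  obtain ⟨X, _, _, M, _, _, _, f, ι, ρ, R⟩ := h.exists_rep
  obtain ⟨A, a, u, φ, hA, ha, ht, rfl⟩ := R.eq_of_pp hP hL
  obtain ⟨A', a', u', φ', hA', ha', ht', rfl⟩ := R.eq_of_pp hP' hL'
  rw [R.oddGen_P (hA.1 ha) ht]
  exact sup_le ((oddGen_le _).trans ((pre_norm (R.ffh.Dg_le_norm ht ht')).trans (norm_le_norm_oddGen _)))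
    (R.B_norm (hA.1 ha) ht)

theorem pp_unique (hP : PP (BT T) P) (hL : P ≤ L) (hP' : PP (BT T) P') (hL' : P' ≤ L)
    (h1 : ∀ x ∈ BT T, ∀ y ∈ BT T, x ∉ C[OZ (O2 L)] → y ∉ C[OZ (O2 L)] → x⁻¹ * y ∈ C[OZ (O2 L)]) :
    P = P' := by
  obtain ⟨X, _, _, M, _, _, _, f, ι, ρ, R⟩ := h.exists_rep
  obtain ⟨A, a, u, φ, hA, ha, ht, rfl⟩ := R.eq_of_pp hP hL
  obtain ⟨A', a', u', φ', hA', ha', ht', rfl⟩ := R.eq_of_pp hP' hL'
  have k : ∀ (a : L) u φ, Tv ρ (f a) u φ → (a : G) ∉ C[OZ (O2 L)] := fun a u φ ht h' => by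
    obtain ⟨v, hv⟩ := ht.ex
    have := ht.fix_iff.1 (R.fix_iff.2 (cent_le_cent1 (R.mem v) h'))
    rw [hv] at this; exact absurd this (by decide)
  have h2 := (R.eq_one_iff (x := a⁻¹ * a')).2 (h.T_cent_V (mem_inf.2 ⟨mul_mem (inv_mem (hA.1 ha))
    (hA'.1 ha'), h1 _ (J_le_BT T (hA.le_thompson ha)) _ (J_le_BT T (hA'.le_thompson ha'))
      (k _ _ _ ht) (k _ _ _ ht')⟩))
  rw [map_mul, map_inv, inv_mul_eq_one] at h2
  rw [h2]

end Loc

end Cfsg.Agent.Cls
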