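import Cfsg.Agent.Cls.ZN6
import Cfsg.Agent.Cls.ZN8

/-! The coset graph of a pair of minimal parabolic subgroups; maximality of the vertex stabilisers. -/

set_option autoImplicit false
set_option linter.unusedSectionVars false
set_option linter.unusedVariables false

namespace Cfsg.Agent.Cls
open Cfsg Subgroup Cfsg.Agent.GT MulAction

universe u v

variable {G : Type u} [Group G] [Finite G] {B : Subgroup G}

local notation "J" => thompsonSubgroupOf 2
local notation "O2" => piCoreOf {2}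

theorem conj_J (g : G) (T : Subgroup G) : cj[g] (J T) = J (cj[g] T) :=
  thompsonSubgroupOf_map (conj_hom_injective g)

theorem conj_BT (g : G) (T : Subgroup G) : cj[g] (BT T) = BT (cj[g] T) := by
  rw [BT, conj_inf, conj_centralizer, conj_OZ, conj_J]; rfl

theorem PP.cnj {P : Subgroup G} (h : PP B P) {g : G} (hg : g ∈ N[B]) : PP B (cj[g] P) := by
  have e := conj_eq_self hg
  refine ⟨e ▸ conj_mono g h.le, by rw [← h.idx, ← relIndex_conj g B P, e], ?_, fun h' => h.ncen ?_,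
    fun h' => h.nJ ?_⟩
  · rw [← conj_piCoreOf, ← conj_centralizer, ← conj_inf]; exact conj_mono g h.char
  · rwa [← e, ← conj_OZ, ← conj_centralizer, conj_le_conj_iff] at h'
  · rwa [← e, ← conj_J, ← conj_piCoreOf, conj_le_conj_iff] at h'

theorem PP.O2_le {P : Subgroup G} (h : PP B P) (hB : IsPGroup 2 B) : O2 P ≤ B :=
  piCoreOf_le_hall (syl_of_three hB h.le h.idx)

theorem PP.core_ne {P : Subgroup G} (h : PP B P) (hB : IsPGroup 2 B) : O2 (oddGenerated P) ≠ ⊥ := by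
  intro h1
  have hn : P ≤ N[oddGenerated P] := le_normalizer.trans (norm_le_norm_oddGen P)
  have h2 : oddGenerated P ≤ C[O2 P] := le_cent_of_norm_of_inf_eq_bot
    ((oddGen_le P).trans (self_le_norm_piCoreOf _ _)) ((piCoreOf_le _ _).trans hn) (by
      rw [inf_comm, ← piCoreOf_eq_inf_of_normal (oddGen_le P) hn, h1])
  obtain ⟨x, hx, h3⟩ := exists_mem_orderOf_eq (H := P) Nat.prime_three (h.idx ▸ relIndex_dvd_card' B P)
  have h4 : Odd (orderOf x) := by rw [h3]; decide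
  have h5 := eq_one_of_odd hB (h.O2_le hB (h.char (mem_inf.2 ⟨hx, h2 (mem_oddGen hx h4)⟩))) h4
  rw [h5, orderOf_one] at h3
  omega

theorem three_elts {α : Type*} (h : Nat.card α = 3) (o : α) :
    ∃ y z, y ≠ o ∧ z ≠ o ∧ y ≠ z ∧ ∀ w, w = o ∨ w = y ∨ w = z := by
  obtain ⟨x, y, z, k1, k2, k3, k4⟩ := Set.ncard_eq_three.1 ((Set.ncard_univ α).trans h)
  have k5 : ∀ w, w = x ∨ w = y ∨ w = z := fun w => by
    have := Set.mem_univ w
    rw [k4] at this
    simpa using this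
  rcases k5 o with rfl | rfl | rfl
  · exact ⟨y, z, k1.symm, k2.symm, k3, k5⟩
  · exact ⟨x, z, k1, k3.symm, k2, fun w => by have := k5 w; tauto⟩
  · exact ⟨x, y, k2, k3, k1, fun w => by have := k5 w; tauto⟩

section graph
variable (P : Bool → Subgroup G)

/-- vertices of the coset graph -/
def vx (i : Bool) (g : G) : Σ i : Bool, G ⧸ P i := ⟨i, g⟩

/-- adjacency in the coset graph -/
def cadj (a b : Σ i : Bool, G ⧸ P i) : Prop := ∃ i g, a = vx P i g ∧ b = vx P (!i) g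

variable {P} {i j : Bool} {g k x : G}

theorem smul_vx : x • vx P i g = vx P i (x * g) := rfl

theorem vx_eq : vx P i g = vx P i k ↔ g⁻¹ * k ∈ P i := by
  rw [← QuotientGroup.eq]; simp [vx]

theorem vx_idx (h : vx P i g = vx P j k) : i = j := congrArg Sigma.fst h

theorem St_vx : stabilizer G (vx P i g) = cj[g] (P i) := by
  ext x
  rw [mem_stabilizer_iff, smul_vx, eq_comm, vx_eq, mem_conj, mul_assoc]

theorem cadj_iff {b : Σ i : Bool, G ⧸ P i} : cadj P (vx P i g) b ↔ ∃ p ∈ P i, b = vx P (!i) (g * p) := by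
  constructor
  · rintro ⟨j, k, h1, rfl⟩
    obtain rfl := vx_idx h1
    exact ⟨g⁻¹ * k, vx_eq.1 h1, by rw [mul_inv_cancel_left]⟩
  · rintro ⟨p, hp, rfl⟩
    exact ⟨i, g * p, vx_eq.2 (by rwa [inv_mul_cancel_left]), rfl⟩

variable (hB : IsPGroup 2 B) (hP : ∀ i, PP B (P i))
  (hc : ∀ N ≤ B, (∀ i, P i ≤ N[N]) → N = ⊥)
include hB hP hc

theorem inf_P : P i ⊓ P (!i) = B := by
  refine (eq_or_eq_of_three (hP i).le (hP i).idx (le_inf (hP i).le (hP _).le) inf_le_left).resolve_right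
    fun h => (hP i).core_ne hB (hc _ ?_ fun j => ?_)
  · exact (piCoreOf_le_of_normal (oddGen_le _) (le_normalizer.trans (norm_le_norm_oddGen _))).trans
      ((hP i).O2_le hB)
  have h1 : P (!i) = P i := ((eq_or_eq_of_three (hP (!i)).le (hP (!i)).idx (hP i).le
    (h ▸ inf_le_right)).resolve_left fun h' => by
      have := (hP i).idx; rw [h', relIndex_self] at this; omega).symm
  have h2 : P j = P i := by cases i <;> cases j <;> simp_all
  rw [h2]
  exact le_norm_piCoreOf (le_normalizer.trans (norm_le_norm_oddGen _))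

theorem Ta_vx : Ta G (vx P i g) (vx P (!i) g) = cj[g] B := by
  rw [Ta, St_vx, St_vx, ← conj_inf, inf_P hB hP hc]

theorem Qa_vx : Qa (cadj P) (vx P i g) = cj[g] (O2 (P i)) := by
  have h1 : ∀ x, x ∈ (Qa (cadj P) (vx P i g) : Subgroup G) ↔
      ∀ p ∈ P i, p⁻¹ * (g⁻¹ * x * g) * p ∈ B := fun x => by
    rw [mem_Qa, ← mem_stabilizer_iff, St_vx, mem_conj, ← inf_P hB hP hc (i := i)]
    refine ⟨fun h p hp => mem_inf.2 ⟨mul_mem (mul_mem (inv_mem hp) h.1) hp, ?_⟩,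
      fun h => ⟨by simpa using (h 1 (one_mem _)).1, fun b hb => ?_⟩⟩
    · have := vx_eq.1 (smul_vx.symm.trans (h.2 _ (cadj_iff.2 ⟨p, hp, rfl⟩))).symm
      convert this using 1; group
    · obtain ⟨p, hp, rfl⟩ := cadj_iff.1 hb
      rw [smul_vx, eq_comm, vx_eq]
      convert (mem_inf.1 (h p hp)).2 using 1; group
  rw [eq_comm, conj_eq_iff]
  have h2 : ∀ x, x ∈ cj[g⁻¹] (Qa (cadj P) (vx P i g) : Subgroup G) ↔ ∀ p ∈ P i, p⁻¹ * x * p ∈ B :=
    fun x => by rw [mem_conj, h1]; simp [mul_assoc]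
  have h3 : cj[g⁻¹] (Qa (cadj P) (vx P i g) : Subgroup G) ≤ B := fun x hx => by
    simpa using (h2 x).1 hx 1 (one_mem _)
  refine le_antisymm (fun x hx => (h2 x).2 fun p hp => (hP i).O2_le hB
    (conj_mem_of_le_norm' (self_le_norm_piCoreOf _ _) hp hx)) (le_piCoreOf_single Nat.prime_two
      (h3.trans (hP i).le) (le_norm_iff.2 fun a ha x hx => (h2 _).2 fun p hp => ?_) (hB.to_le h3))
  convert (h2 x).1 hx (a⁻¹ * p) (mul_mem (inv_mem ha) hp) using 1; group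

theorem amal : Amal G (cadj P) where
  symm := by rintro _ _ ⟨i, g, rfl, rfl⟩; exact ⟨!i, g, rfl, by rw [Bool.not_not]⟩
  smul := by rintro x _ _ ⟨i, g, rfl, rfl⟩; exact ⟨i, x * g, rfl, rfl⟩
  three := by
    rintro _ _ ⟨i, g, rfl, rfl⟩
    have h1 : ∀ p ∈ P i, ∀ q ∈ P i, vx P (!i) (g * p) = vx P (!i) (g * q) ↔ p⁻¹ * q ∈ B :=
      fun p hp q hq => by
        rw [vx_eq, ← inf_P hB hP hc (i := i), mem_inf, show (g * p)⁻¹ * (g * q) = p⁻¹ * q by group]
        exact ⟨fun h => ⟨mul_mem (inv_mem hp) hq, h⟩, fun h => h.2⟩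
    have h2 : ∀ p q : P i, vx P (!i) (g * p) = vx P (!i) (g * q) ↔
        (p : P i ⧸ B.subgroupOf (P i)) = q := fun p q => by
      rw [h1 p p.2 q q.2, QuotientGroup.eq]; rfl
    have h3 : Nat.card (P i ⧸ B.subgroupOf (P i)) = 3 := (hP i).idx
    obtain ⟨y, z, h4, h5, h6, h7⟩ := three_elts h3 (QuotientGroup.mk (1 : P i))
    obtain ⟨y, rfl⟩ := QuotientGroup.mk_surjective y
    obtain ⟨z, rfl⟩ := QuotientGroup.mk_surjective z
    have e : vx P (!i) g = vx P (!i) (g * (1 : P i)) := by simp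
    refine ⟨_, _, cadj_iff.2 ⟨y, y.2, rfl⟩, cadj_iff.2 ⟨z, z.2, rfl⟩, e ▸ (h2 _ _).not.2 h4,
      e ▸ (h2 _ _).not.2 h5, (h2 _ _).not.2 h6, fun c hc => ?_⟩
    obtain ⟨p, hp, rfl⟩ := cadj_iff.1 hc
    rw [e]
    exact (h7 (QuotientGroup.mk ⟨p, hp⟩)).imp (h2 ⟨p, hp⟩ _).2 (Or.imp (h2 ⟨p, hp⟩ _).2 (h2 ⟨p, hp⟩ _).2)
  trans := by
    rintro _ _ _ ⟨i, g, rfl, rfl⟩ hc
    obtain ⟨p, hp, rfl⟩ := cadj_iff.1 hc
    refine ⟨g * p * g⁻¹, ?_, by rw [smul_vx, inv_mul_cancel_right]⟩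
    rw [← mem_stabilizer_iff, St_vx, conj_mem_conj]; exact hp
  moves := by
    rintro _ _ ⟨i, g, rfl, rfl⟩
    rw [Ta_vx hB hP hc, Qa_vx hB hP hc]
    exact SetLike.not_le_iff_exists.1 fun h => (hP i).nJ
      ((thompsonSubgroupOf_le 2 B).trans (conj_le_conj_iff.1 h))
  char := by
    rintro _ _ ⟨i, g, rfl, rfl⟩
    rw [St_vx, Qa_vx hB hP hc, ← conj_centralizer, ← conj_inf]
    exact conj_mono g (hP i).char
  ncen := by
    rintro _ _ ⟨i, g, rfl, rfl⟩
    rw [St_vx, Ta_vx hB hP hc, ← conj_OZ]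
    by_contra h
    push Not at h
    refine (hP i).ncen (le_cent_symm fun z hz => mem_cent_iff_le_cent1.2 ?_)
    have := h _ (conj_mem_conj.2 hz)
    rwa [← conj_cent1, conj_le_conj_iff] at this
  core := by
    rintro _ _ ⟨i, g, rfl, rfl⟩ N h1 h2 h3
    rw [Ta_vx hB hP hc, le_conj_iff] at h1
    rw [St_vx, conj_le_iff, conj_normalizer] at h2 h3
    refine conj_eq_bot_iff.1 (hc _ h1 fun j => ?_)
    cases i <;> cases j <;> assumption
  etrans := by
    rintro _ _ _ _ ⟨i, g, rfl, rfl⟩ ⟨j, k, rfl, rfl⟩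
    refine ⟨k * g⁻¹, ?_⟩
    rw [smul_vx, smul_vx, inv_mul_cancel_right]
    cases i <;> cases j <;> simp

end graph

variable {Γ : Type v} [MulAction G Γ] {adj : Γ → Γ → Prop} {a b : Γ}

local notation "St" => stabilizer G
local notation "Q" => (Qa adj : Γ → Subgroup G)
local notation "T" => Ta G

namespace Amal
variable (A : Amal G adj)
include A

theorem le_Q_of_norm (h : adj a b) {V : Subgroup G} (h1 : V ≤ T a b) (h2 : St a ≤ N[V]) : V ≤ Q a :=
  fun v hv => ⟨(h1 hv).1, fun c hc => by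
    obtain ⟨g, g1, rfl⟩ := A.trans h hc
    have := (mem_Ta.1 (h1 (conj_mem_of_le_norm' h2 g1 hv))).2
    rwa [mul_smul, mul_smul, inv_smul_eq_iff] at this⟩

theorem Q_le_J (h : adj a b) (hJ : ¬ J (T a b) ≤ Q b) : Q a ≤ J (T a b) := by
  obtain ⟨E, hE, h1⟩ : ∃ E, MaxEl 2 (T a b) E ∧ ¬ E ≤ Q b := by
    by_contra hc
    push Not at hc
    exact hJ (thompsonSubgroupOf_le_of_forall hc)
  exact (MaxEl.of_card hE (Qa_le_Ta h) (A.elemAb_Q h)
    (card_le_of_le ((A.elemAb_cases h hE.2.1 hE.1).resolve_right h1))).le_thompson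

theorem maxL (h : adj a b) (hP : PP (T a b) (St a)) (hJ : ¬ J (T a b) ≤ Q a) (hJ' : ¬ J (T a b) ≤ Q b)
    (hg : ∀ X S, IsTwoLocal X → St a ≤ X → IsPiHallOf {2} S X → T a b ≤ S → Loc X S ∧ BT S = T a b) :
    MaxL G a := fun Y y1 y2 hX => by
  obtain ⟨S, hS, hT⟩ := exists_syl_ge Nat.prime_two (A.T_two h) ((Ta_le_left _ _).trans hX)
  obtain ⟨L, hB⟩ := hg _ S ⟨Y, y1, y2, rfl⟩ hX hS hT
  generalize N[Y] = X at hX hS L
  obtain ⟨r, R⟩ := A.exists_RR h
  have h1 : J S = T a b := by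
    rw [← J_BT, hB]
    refine le_antisymm (thompsonSubgroupOf_le _ _) ((A.T_le_sup h).trans (sup_le (A.Q_le_J h hJ') ?_))
    rw [Ta_comm] at hJ ⊢
    exact A.Q_le_J (A.symm h) hJ
  have h2 : OZ (O2 X) ≤ Q a := A.le_Q_of_norm h (h1 ▸ L.V_le_J) (hX.trans L.le_norm_V)
  obtain ⟨v, v1, v2⟩ : ∃ v ∈ OZ (O2 X), v ∉ Q b := by
    by_contra hc
    push Not at hc
    have := L.le_norm_J (h1 ▸ fun t ht v hv => (A.D_comm h (h2 hv) (hc v hv) ht).symm)
    exact A.not_central h R fun g hg => mem_cent1.2 (mul_inv_eq_iff_eq_mul.1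
      (A.fix_r h R (h1 ▸ this (hX hg))))
  have h3 : T a b ⊓ C[OZ (O2 X)] = Q a := le_antisymm (fun t ht => by_contra fun h' =>
    A.not_comm h (h2 v1) v2 ht.1 h' (ht.2 v v1).symm)
    (le_inf (Qa_le_Ta h) fun t ht v hv => A.Q_comm h (h2 hv) ht)
  have h4 : ∀ P, PP (T a b) P → P ≤ X → P = St a := fun P p1 p2 =>
    L.pp_unique (hB ▸ p1) p2 (hB ▸ hP) hX fun x hx y hy nx ny => by
      rw [hB] at hx hy
      exact (h3.ge (A.inv_mul_mem h hx hy (fun h' => nx (h3.ge h').2) fun h' => ny (h3.ge h').2)).2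
  have h5 : ∀ n ∈ X ⊓ N[T a b], ∀ d ∈ Q a, d ∈ Q b → n * d * n⁻¹ = d := fun n hn d d1 d2 => by
    have e := h4 _ (hP.cnj hn.2) (conj_le_of_mem hn.1 hX)
    have k : ∀ d ∈ Q a, St a ≤ C1[d] → n * d * n⁻¹ = d := fun d d1 d2 => by
      by_cases d3 : d = 1
      · rw [d3]; group
      have k1 := conj_mono n d2
      rw [e, conj_cent1] at k1
      exact A.central_unique h k1 (conj_mem_of_mem_norm hn.2 (Qa_le_Ta h d1)).1 (by simpa using d3) d2
        d1.1 d3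
    rcases A.D_cases h R d1 d2 with k1 | k1
    · exact k d d1 k1
    · have := k _ (mul_mem R.memL d1) k1
      rwa [show n * (r * d) * n⁻¹ = n * r * n⁻¹ * (n * d * n⁻¹) by group, A.fix_r h R hn.2,
        mul_right_inj] at this
  have h6 : S ≤ T a b := fun t ht => by
    rw [← hB]
    refine mem_inf.2 ⟨ht, fun d hd => ?_⟩
    rw [h1, SetLike.mem_coe, A.mem_OZ_T h] at hd
    exact (mul_inv_eq_iff_eq_mul.1 (h5 t (mem_inf.2 ⟨hS.le ht,
      hB ▸ norm_le_norm_BT S (le_normalizer ht)⟩) d hd.1 hd.2)).symm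
  refine L.le_of_pp (fun n hn => (h6 ?_).1) fun P p1 p2 => (h4 P (hB ▸ p1) p2).le
  rw [h1] at hn
  have k1 : n ∈ N[Q a] := h3 ▸ le_norm_inf inf_le_right (le_norm_cent (inf_le_left.trans L.le_norm_V)) hn
  have k2 : n ∈ N[Q b] := by
    refine mem_normalizer_of_conj_le ((A.elemAb_cases h (isElementaryAbelian_conj_iff.2
      (A.elemAb_Q (A.symm h))) (conj_eq_self hn.2 ▸ conj_mono n (A.Qa_le_Ta' h))).resolve_left fun h' => ?_)
    rw [← conj_eq_self k1, conj_le_conj_iff] at h'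
    obtain ⟨w, w1, w2⟩ := A.exists_Q_not_mem (A.symm h)
    exact w2 (h' w1)
  have k3 : ∀ c d : Γ, adj c d → n ∈ N[Q c] → n ∈ N[T c d] → ∀ x ∈ T c d, x⁻¹ * (n * x * n⁻¹) ∈ Q c :=
    fun c d hcd n1 n2 x hx => by
      by_cases hx' : x ∈ Q c
      · exact mul_mem (inv_mem hx') (conj_mem_of_mem_norm n1 hx')
      exact A.inv_mul_mem hcd hx (conj_mem_of_mem_norm n2 hx) hx' fun h' =>
        hx' (conj_mem_conj.1 ((conj_eq_self n1).symm ▸ h'))
  have k4 : n * n ∈ C[T a b] := fun x hx => by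
    have m1 := k3 a b h k1 hn.2 x hx
    have m2 := k3 b a (A.symm h) k2 (Ta_comm (G := G) a b ▸ hn.2) x (Ta_symm hx)
    have m3 := h5 n hn _ m1 m2
    have m4 := A.Q_sq h m1
    rw [eq_comm, ← mul_inv_eq_iff_eq_mul]
    calc n * n * x * (n * n)⁻¹ = n * x * n⁻¹ * (n * (x⁻¹ * (n * x * n⁻¹)) * n⁻¹) := by group
      _ = x * (x⁻¹ * (n * x * n⁻¹) * (x⁻¹ * (n * x * n⁻¹))) := by rw [m3]; group
      _ = x := by rw [m4, mul_one]
  obtain ⟨k, hk⟩ := PG.exists_pow_eq_one L.two (L.Q_le (L.char (mem_inf.2 ⟨mul_mem hn.1 hn.1,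
    cent_anti (L.Q_le.trans h6) k4⟩)))
  refine zpowers_le.1 (le_syl_of_le_norm Nat.prime_two hS (PG.isPGroup_zpowers_of_pow_eq_one
    (k := k + 1) (by rw [pow_succ', pow_mul, pow_two, hk])) (zpowers_le.2 hn.1) (zpowers_le.2 ?_))
  rw [le_antisymm h6 hT]; exact hn.2

end Amal

end Cfsg.Agent.Cls
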